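import Mathlib
import Cfsg.Agent.Lib.H14.BO13
/-! Coprime generation: `L = N(J(S)) C(Ω₁ Z(S)) C_L(Φ)`. -/
set_option autoImplicit false
set_option linter.unusedSectionVars false
set_option linter.unusedVariables false
set_option linter.style.longLine false
namespace Cfsg.Agent.H14
open Cfsg
open Cfsg.Agent.H02 (offVal)
open scoped commutatorElement
open Matrix MatrixGroups

variable {L : Type*} [Group L] [Finite L] {p q : ℕ} [Fact p.Prime] [Fact q.Prime]

/-- Frattini argument for `J(L)`. -/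
theorem frattini_J (S : Sylow p L) (g : L) :
    ∃ c ∈ thompsonSubgroup p L, ∃ n ∈ Subgroup.normalizer (thompsonSubgroupOf p (S : Subgroup L) : Set L), g = c * n := by
  classical
  obtain ⟨C, hC⟩ : ∃ C, C = thompsonSubgroup p L := ⟨_, rfl⟩
  haveI hCn : C.Normal := by
    rw [hC]; infer_instance
  have hJC : thompsonSubgroup p L ≤ C := hC.ge
  rw [← hC]
  obtain ⟨P, hP⟩ := Cfsg.Agent.H13.exists_sylow_inf_normal S C
  have hFrat := Sylow.normalizer_sup_eq_top P
  obtain ⟨T, hT⟩ : ∃ T, T = (S : Subgroup L) ⊓ C := ⟨_, rfl⟩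
  have hPT : P.map C.subtype = T := by
    rw [hT]
    exact hP
  rw [hPT] at hFrat
  have hg : g ∈ Subgroup.normalizer ((T : Subgroup L) : Set L) ⊔ C := by
    rw [hFrat]; trivial
  rw [sup_comm] at hg
  have hnC : Subgroup.normalizer ((T : Subgroup L) : Set L) ≤ Subgroup.normalizer ((C : Subgroup L) : Set L) := by
    intro x _
    exact Subgroup.mem_normalizer_iff.mpr fun y => by
      constructor
      · exact fun hy => hCn.conj_mem y hy x
      · intro hy
        have := hCn.conj_mem _ hy x⁻¹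
        simpa [mul_assoc] using this
  obtain ⟨c, hc, n, hn, rfl⟩ := Cfsg.Agent.H01.exists_mul_of_mem_sup hnC hg
  refine ⟨c, hc, n, ?_, rfl⟩
  apply Cfsg.Agent.H19.mem_normalizer_of_conj_le
  have hle : thompsonSubgroupOf p (S : Subgroup L) ≤
      (thompsonSubgroupOf p (S : Subgroup L)).comap (MulAut.conj n).toMonoidHom := by
    unfold thompsonSubgroupOf thompsonSubgroup
    rw [Subgroup.map_le_iff_le_comap]
    apply sSup_le
    intro A hA x hx
    have hAG := thompsonOf_le hA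
    have hAT : A.map (S : Subgroup L).subtype ≤ T := by
      rw [hT]
      refine le_inf (Subgroup.map_subtype_le _) ?_
      exact (le_sSup hAG : _ ≤ thompsonSubgroup p L).trans hJC
    have hconj := maxea_conj hAG n
    have hconjT : (A.map (S : Subgroup L).subtype).map (MulAut.conj n).toMonoidHom ≤ (S : Subgroup L) := by
      have h1 : T ≤ (S : Subgroup L) := by rw [hT]; exact inf_le_left
      rintro _ ⟨y, hy, rfl⟩
      apply h1
      exact Cfsg.Agent.H02.conj_mem_of_normalizer hn (hAT hy)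
    have h2 := le_thompsonOf hconjT hconj
    exact h2 ⟨_, ⟨x, hx, rfl⟩, rfl⟩
  intro x hx
  exact hle hx

/-- `S` normalizes `J(S)`. -/
lemma sylow_le_norm_J (S : Subgroup L) :
    S ≤ Subgroup.normalizer (thompsonSubgroupOf p S : Set L) := by
  intro s hs
  apply Cfsg.Agent.H19.mem_normalizer_of_conj_le
  haveI := thompson_normal (p := p) (G := ↥S)
  rintro _ ⟨y, hy, rfl⟩
  exact ⟨(⟨s, hs⟩ : S) * y * (⟨s, hs⟩ : S)⁻¹, this.conj_mem y hy _, rfl⟩

section main

variable {Φ : Type*} [Group Φ] [Finite Φ] (τ : Φ →* MulAut L)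

/-- Restriction of the action to `omZ`. -/
def rhoOm (p : ℕ) [Fact p.Prime] : Φ →* MulAut ↥(omZ p L) :=
  MonoidHom.mk' (fun x =>
    { toFun := fun v => ⟨τ x v, omZ_map (τ x) v.2⟩
      invFun := fun v => ⟨(τ x)⁻¹ v, omZ_map ((τ x)⁻¹) v.2⟩
      left_inv := fun v => Subtype.ext (by
        change (τ x)⁻¹ (τ x v.1) = v.1
        simp)
      right_inv := fun v => Subtype.ext (by
        change (τ x) ((τ x)⁻¹ v.1) = v.1
        simp)
      map_mul' := fun v w => Subtype.ext (by
        change τ x (v.1 * w.1) = τ x v.1 * τ x w.1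
        rw [map_mul]) })
    (fun x y => by
      ext v
      change τ (x * y) v.1 = τ x (τ y v.1)
      rw [map_mul]; rfl)

lemma rhoOm_apply (x : Φ) (v : omZ p L) : ((rhoOm τ p x v : omZ p L) : L) = τ x v := rfl

lemma rhoOm_inv_apply (x : Φ) (v : omZ p L) : (((rhoOm τ p x)⁻¹ v : omZ p L) : L) = (τ x)⁻¹ v := rfl

/-- The action in the model. -/
def iotaOm (p : ℕ) [Fact p.Prime] : Φ →* Hol (omZ p L) := SemidirectProduct.inr.comp (rhoOm τ p)

variable [hVn : (omZ p L).Normal]

lemma iota_holF (x : Φ) (k : L) :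
    iotaOm τ p x * holF (omZ p L) k * (iotaOm τ p x)⁻¹ = holF (omZ p L) (τ x k) := by
  change SemidirectProduct.inr (rhoOm τ p x) * SemidirectProduct.inr (MulAut.conjNormal k) * (SemidirectProduct.inr (rhoOm τ p x))⁻¹ =
    SemidirectProduct.inr (MulAut.conjNormal (τ x k))
  rw [← map_inv, ← map_mul, ← map_mul]
  congr 1
  ext v
  change τ x (k * ((τ x)⁻¹ v.1) * k⁻¹) = τ x k * v.1 * (τ x k)⁻¹
  simp only [map_mul, map_inv]
  simp

lemma iota_holJ (x : Φ) (v : omZ p L) :
    iotaOm τ p x * holJ (omZ p L) v * (iotaOm τ p x)⁻¹ = holJ (omZ p L) (rhoOm τ p x v) := by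
  have h := SemidirectProduct.inl_aut (φ := MonoidHom.id (MulAut ↥(omZ p L))) (rhoOm τ p x) v
  rw [← map_inv] at *
  exact h.symm

omit hVn in
/-- The main theorem in the language of automorphisms. -/
theorem coprime_gen (hΦ : IsPGroup q Φ) (hq : ¬ q ∣ Nat.card L) (hs : IsPSolvable p L) (hO : pPrimeCore p L = ⊥)
    (S : Sylow p L) {Fx : Subgroup L} (hFx : ∀ k, (∀ x, τ x k = k) → k ∈ Fx) :
    Subgroup.normalizer (thompsonSubgroupOf p (S : Subgroup L) : Set L) ⊔
      Subgroup.centralizer (omegaOne p ((S : Subgroup L) ⊓ Subgroup.centralizer ((S : Subgroup L) : Set L)) : Set L) ⊔ Fx = ⊤ := by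
  classical
  obtain ⟨M, hM⟩ : ∃ M, M = Subgroup.normalizer (thompsonSubgroupOf p (S : Subgroup L) : Set L) ⊔
      Subgroup.centralizer (omegaOne p ((S : Subgroup L) ⊓ Subgroup.centralizer ((S : Subgroup L) : Set L)) : Set L) ⊔ Fx := ⟨_, rfl⟩
  rw [← hM]
  have hMN : Subgroup.normalizer (thompsonSubgroupOf p (S : Subgroup L) : Set L) ≤ M := by
    rw [hM]
    exact le_sup_left.trans le_sup_left
  have hMC : Subgroup.centralizer (omegaOne p ((S : Subgroup L) ⊓ Subgroup.centralizer ((S : Subgroup L) : Set L)) : Set L) ≤ M := by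
    rw [hM]
    exact le_sup_right.trans le_sup_left
  have hMF : Fx ≤ M := by
    rw [hM]
    exact le_sup_right
  have hCM : Subgroup.centralizer (omZ p L : Set L) ≤ M := by
    refine le_trans ?_ hMC
    apply Subgroup.centralizer_le
    exact le_iSup (fun S : Sylow p L => omegaOne p ((S : Subgroup L) ⊓ Subgroup.centralizer ((S : Subgroup L) : Set L))) S
  have hJM : thompsonSubgroup p L ≤ M := by
    by_cases hJC : thompsonSubgroup p L ≤ Subgroup.centralizer (omZ p L : Set L)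
    · exact hJC.trans hCM
    have hV := omZ_ea hs hO
    have hO' := omZ_core (p := p) (G := L)
    haveI hVn : (omZ p L).Normal := omZ_normal
    obtain ⟨J, hJ⟩ : ∃ J, J = thompsonSubgroup p L := ⟨_, rfl⟩
    haveI hJn : J.Normal := by
      rw [hJ]; infer_instance
    rw [← hJ] at hJC ⊢
    obtain ⟨Q, hQ⟩ : ∃ Q, Q = J.map (holF (omZ p L)) := ⟨_, rfl⟩
    obtain ⟨K', hK'⟩ : ∃ K', K' = (pPrimeCore p ↥Q).map Q.subtype := ⟨_, rfl⟩
    have hF : FFS p (holV (omZ p L)) Q K' := by
      rw [hK', hQ]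
      exact hol_FFS _ hV hs hO' J
    have hS3 : Q = ⨆ A : {A : Subgroup (Hol (omZ p L)) // A ≤ Q ∧ IsBestOffenderOn p (holV (omZ p L)) A}, (A : Subgroup (Hol (omZ p L))) := by
      rw [hQ, hJ]
      exact thompson_hS3 _ hV hs hO'
    have hΞq : IsPGroup q ↥(iotaOm τ p).range :=
      hΦ.of_surjective (iotaOm τ p).rangeRestrict (MonoidHom.rangeRestrict_surjective _)
    have hΞV : (iotaOm τ p).range ≤ Subgroup.normalizer ((holV (omZ p L) : Subgroup (Hol (omZ p L))) : Set (Hol (omZ p L))) := by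
      rintro _ ⟨x, rfl⟩
      apply Cfsg.Agent.H19.mem_normalizer_of_conj_le
      rintro _ ⟨v, rfl⟩
      exact ⟨_, (iota_holJ τ x v).symm⟩
    have hJτ : ∀ x, ∀ j ∈ J, τ x j ∈ J := by
      intro x j hj
      rw [hJ] at hj ⊢
      exact thompson_map (τ x) hj
    have hΞH : (iotaOm τ p).range ≤ Subgroup.normalizer ((Q : Subgroup (Hol (omZ p L))) : Set (Hol (omZ p L))) := by
      rintro _ ⟨x, rfl⟩
      apply Cfsg.Agent.H19.mem_normalizer_of_conj_le
      intro y hy
      rw [hQ] at hy ⊢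
      obtain ⟨j, hj, rfl⟩ := hy
      rw [iota_holF]
      exact ⟨_, hJτ x j hj, rfl⟩
    have hΞK : (iotaOm τ p).range ≤ Subgroup.normalizer ((K' : Subgroup (Hol (omZ p L))) : Set (Hol (omZ p L))) := by
      rw [hK']
      exact fun z hz => norm_pPrimeCore Q (hΞH hz)
    have hQ1 : Q ≠ ⊥ := by
      intro h
      apply hJC
      intro j hj
      have h1 : holF (omZ p L) j ∈ Q := by
        rw [hQ]
        exact ⟨j, hj, rfl⟩
      rw [h] at h1
      exact (holF_eq_one_iff (omZ p L)).mp h1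
    have hex : ∃ A, MinOff p (holV (omZ p L)) Q A := by
      by_contra hcon
      push Not at hcon
      apply hQ1
      rw [eq_bot_iff]
      exact H_gen hF hS3 fun A hA => absurd hA (hcon A)
    obtain ⟨A, hAH, hA, hAV, hmin⟩ := hex
    obtain ⟨a₀, rfl, ha₀⟩ := tv_of_min hF hAH hA hAV hmin
    obtain ⟨b, u, w, c, hP⟩ := exists_PD_of_tv hF ha₀
    obtain ⟨φ, -, -⟩ := hP.exists_iso hF
    have hcardE : Nat.card (ec K' a₀) = (p + 1) * p * (p - 1) := by
      rw [hP.ec_eq hF, Nat.card_congr φ.toEquiv, Cfsg.Agent.Lead.card_SL_two', ZMod.card]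
    have hEQ := ec_le_H hF hP.ta.mem
    have hq' : ¬ q ∣ (p + 1) * p * (p - 1) := by
      rw [← hcardE]
      intro h
      apply hq
      have h1 : Nat.card (ec K' a₀) ∣ Nat.card Q := Subgroup.card_dvd_of_le hEQ
      have h2 : Nat.card Q ∣ Nat.card J := by
        rw [hQ, ← card_map_holF (omZ p L) J]
        exact Dvd.intro _ rfl
      exact h.trans (h1.trans (h2.trans (Subgroup.card_subgroup_dvd_card J)))
    have hQB : Q ≤ M.map (holF (omZ p L)) := by
      apply H_le_of_fix hF hΞq hΞV hΞH hΞK hq' hS3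
      · intro d hd hfix
        rw [hQ] at hd
        obtain ⟨j, -, rfl⟩ := hd
        obtain ⟨k, hk, hkfix⟩ := lift_fixed hΦ hq τ (holF (omZ p L)) ⟨j, rfl⟩ (fun x k hk => by
          rw [← iota_holF, hk]
          have := hfix _ (⟨x, rfl⟩ : iotaOm τ p x ∈ (iotaOm τ p).range)
          rw [this]
          group)
        exact ⟨k, hMF (hFx k hkfix), hk⟩
      · intro a ha
        have haQ := ha.mem
        rw [hQ] at haQ
        obtain ⟨j, hj, rfl⟩ := haQ
        obtain ⟨m, hm, e, he⟩ := exists_p_lift (holF (omZ p L)) (rfl : holF (omZ p L) j = holF (omZ p L) j) ha.pow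
        obtain ⟨x, hx⟩ : ∃ x, x = j ^ m := ⟨_, rfl⟩
        rw [← hx] at hm he
        have hxJ : x ∈ J := by
          rw [hx]
          exact J.pow_mem hj m
        obtain ⟨P', hP'⟩ := Cfsg.Agent.H13.exists_sylow_inf_normal S J
        have hxe : (⟨x, hxJ⟩ : J) ^ p ^ e = 1 := Subtype.ext (by simpa using he)
        have hzp : IsPGroup p (Subgroup.zpowers (⟨x, hxJ⟩ : J)) := by
          rintro ⟨_, n, rfl⟩
          refine ⟨e, Subtype.ext ?_⟩
          change ((⟨x, hxJ⟩ : J) ^ n) ^ p ^ e = 1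
          rw [← zpow_natCast, ← _root_.zpow_mul, mul_comm, _root_.zpow_mul, zpow_natCast, hxe, _root_.one_zpow]
        obtain ⟨R, hR⟩ := hzp.exists_le_sylow
        obtain ⟨g₀, hg₀⟩ := MulAction.exists_smul_eq (↥J) R P'
        have hmemR : (⟨x, hxJ⟩ : J) ∈ (R : Subgroup J) := hR (Subgroup.mem_zpowers _)
        have h1 : g₀ * ⟨x, hxJ⟩ * g₀⁻¹ ∈ (P' : Subgroup J) := by
          rw [← hg₀, Sylow.smul_def, Sylow.pointwise_smul_def]
          exact Subgroup.smul_mem_pointwise_smul _ _ _ hmemR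
        have h2 : ((g₀ : L) * x * (g₀ : L)⁻¹) ∈ (S : Subgroup L) ⊓ J := by
          rw [← hP']
          exact ⟨_, h1, rfl⟩
        refine ⟨holF _ g₀, ?_, ⟨_, hMN (sylow_le_norm_J _ h2.1), ?_⟩⟩
        · rw [hQ]
          exact ⟨g₀, g₀.2, rfl⟩
        · rw [map_mul, map_mul, map_inv, hm]
    intro j hj
    have h1 : holF (omZ p L) j ∈ Q := by
      rw [hQ]
      exact ⟨j, hj, rfl⟩
    obtain ⟨m, hm, hmj⟩ := hQB h1
    have h2 : m⁻¹ * j ∈ Subgroup.centralizer (omZ p L : Set L) := by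
      apply (holF_eq_one_iff _).mp
      rw [map_mul, map_inv, hmj]
      group
    have e : j = m * (m⁻¹ * j) := by group
    rw [e]
    exact M.mul_mem hm (hCM h2)
  rw [eq_top_iff]
  intro g _
  obtain ⟨c, hc, n, hn, rfl⟩ := frattini_J S g
  exact M.mul_mem (hJM hc) (hMN hn)

end main

end Cfsg.Agent.H14
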