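import Mathlib
import Cfsg.Agent.Lib.H14.BO14
/-! The diagonal of an orbit: fixed points. -/
set_option autoImplicit false
set_option linter.unusedSectionVars false
set_option linter.unusedVariables false
set_option linter.style.longLine false
namespace Cfsg.Agent.H14
open Cfsg
open Cfsg.Agent.H02 (offVal)
open scoped commutatorElement
open Matrix MatrixGroups

section orbit_abs

variable {G : Type*} [Group G] [Finite G] {Ξ X St : Subgroup G}

/-- The orbit product homomorphism. -/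
theorem exists_orbit_hom (hSt : St ≤ Ξ) (h1 : ∀ s ∈ St, ∀ x ∈ X, s * x = x * s)
    (h2 : ∀ y₁ ∈ Ξ, ∀ y₂ ∈ Ξ, y₁⁻¹ * y₂ ∉ St → ∀ x₁ ∈ X, ∀ x₂ ∈ X,
      (y₁ * x₁ * y₁⁻¹) * (y₂ * x₂ * y₂⁻¹) = (y₂ * x₂ * y₂⁻¹) * (y₁ * x₁ * y₁⁻¹)) :
    ∃ P : ↥X →* G, (∀ z ∈ Ξ, ∀ x, z * P x = P x * z) ∧
      (∀ (B : Subgroup G) (x : X), (∀ y ∈ Ξ, y * (x : G) * y⁻¹ ∈ B) → P x ∈ B) ∧
      (∀ x : X, ∃ r, (∀ x' ∈ X, x' * r = r * x') ∧ P x = x * r) := by
  classical
  letI hfin : Fintype (Ξ ⧸ St.subgroupOf Ξ) := Fintype.ofFinite _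
  obtain ⟨rp, hrp⟩ : ∃ rp : (Ξ ⧸ St.subgroupOf Ξ) → G, rp = fun c => ((Quotient.out c : Ξ) : G) := ⟨_, rfl⟩
  have hrpΞ : ∀ c, rp c ∈ Ξ := fun c => by
    rw [hrp]
    exact (Quotient.out c).2
  have hrp_ne : ∀ c₁ c₂ : Ξ ⧸ St.subgroupOf Ξ, c₁ ≠ c₂ → (rp c₁)⁻¹ * rp c₂ ∉ St := by
    intro c₁ c₂ hne h
    apply hne
    rw [← QuotientGroup.out_eq' c₁, ← QuotientGroup.out_eq' c₂]
    apply QuotientGroup.eq.mpr
    rw [Subgroup.mem_subgroupOf]
    rw [hrp] at h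
    exact h
  obtain ⟨comp, hcompdef⟩ : ∃ comp : ↥X → (Ξ ⧸ St.subgroupOf Ξ) → G, comp = fun (x : X) c => rp c * (x : G) * (rp c)⁻¹ := ⟨_, rfl⟩
  have hcomp : ∀ x c, comp x c = rp c * x * (rp c)⁻¹ := fun x c => by rw [hcompdef]
  have hcomm : ∀ (x x' : X) (c₁ c₂), c₁ ≠ c₂ → Commute (comp x c₁) (comp x' c₂) := by
    intro x x' c₁ c₂ hne
    rw [hcomp, hcomp]
    exact h2 _ (hrpΞ c₁) _ (hrpΞ c₂) (hrp_ne c₁ c₂ hne) _ x.2 _ x'.2
  have hpw : ∀ x : X, ((Finset.univ : Finset (Ξ ⧸ St.subgroupOf Ξ)) : Set (Ξ ⧸ St.subgroupOf Ξ)).Pairwise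
      (Function.onFun Commute (comp x)) := fun x c₁ _ c₂ _ hne => hcomm x x c₁ c₂ hne
  let P₀ : X → G := fun x => Finset.univ.noncommProd (comp x) (hpw x)
  have hP₀ : ∀ x, P₀ x = Finset.univ.noncommProd (comp x) (hpw x) := fun _ => rfl
  have hone : P₀ 1 = 1 := by
    rw [hP₀, Finset.noncommProd_eq_pow_card _ _ _ (1 : G) (fun c _ => by
      rw [hcomp]
      simp), one_pow]
  have hmul : ∀ x y, P₀ (x * y) = P₀ x * P₀ y := by
    intro x y
    rw [hP₀, hP₀, hP₀]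
    rw [← Finset.noncommProd_mul_distrib (comp x) (comp y) (hpw x) (hpw y)
      (fun c₁ _ c₂ _ hne => hcomm y x c₁ c₂ hne)]
    apply Finset.noncommProd_congr rfl
    intro c _
    simp only [Pi.mul_apply, hcomp, Subgroup.coe_mul]
    group
  refine ⟨MonoidHom.mk' P₀ hmul, ?_, ?_, ?_⟩
  · intro z hz x
    change z * P₀ x = P₀ x * z
    let z' : Ξ := ⟨z, hz⟩
    let π : (Ξ ⧸ St.subgroupOf Ξ) ≃ (Ξ ⧸ St.subgroupOf Ξ) := MulAction.toPerm z'
    have hψ : ∀ c, (MulAut.conj z).toMonoidHom (comp x c) = comp x (π c) := by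
      intro c
      have hmk : (QuotientGroup.mk (Quotient.out (π c)) : Ξ ⧸ St.subgroupOf Ξ) = QuotientGroup.mk (z' * Quotient.out c) := by
        rw [QuotientGroup.out_eq']
        change z' • c = QuotientGroup.mk (z' * Quotient.out c)
        conv_lhs => rw [← QuotientGroup.out_eq' c]
        rfl
      have hs := QuotientGroup.eq.mp hmk.symm
      rw [Subgroup.mem_subgroupOf] at hs
      have hs' : (z * rp c)⁻¹ * rp (π c) ∈ St := by
        rw [hrp]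
        exact hs
      obtain ⟨s, hsdef⟩ : ∃ s, s = (z * rp c)⁻¹ * rp (π c) := ⟨_, rfl⟩
      rw [← hsdef] at hs'
      have e1 : rp (π c) = z * rp c * s := by
        rw [hsdef]
        group
      have h3 := h1 s hs' x x.2
      rw [hcomp, hcomp, e1]
      change z * (rp c * x * (rp c)⁻¹) * z⁻¹ = _
      calc z * (rp c * x * (rp c)⁻¹) * z⁻¹ = z * rp c * (x * s) * s⁻¹ * (z * rp c)⁻¹ := by group
        _ = z * rp c * (s * x) * s⁻¹ * (z * rp c)⁻¹ := by rw [h3]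
        _ = _ := by group
    have hmain : (MulAut.conj z).toMonoidHom (P₀ x) = P₀ x := by
      rw [hP₀, Finset.map_noncommProd]
      have hcomm2 : (((Finset.univ : Finset (Ξ ⧸ St.subgroupOf Ξ)).map π.toEmbedding : Finset _) : Set (Ξ ⧸ St.subgroupOf Ξ)).Pairwise
          (Function.onFun Commute (comp x)) := fun c₁ _ c₂ _ hne => hcomm x x c₁ c₂ hne
      have e1 : ((Finset.univ : Finset (Ξ ⧸ St.subgroupOf Ξ)).map π.toEmbedding).noncommProd (comp x) hcomm2 =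
          Finset.univ.noncommProd (comp x) (hpw x) :=
        Finset.noncommProd_congr (Finset.map_univ_equiv π) (fun _ _ => rfl) _
      rw [← e1, noncommProd_map_aux _ π.toEmbedding (comp x) hcomm2 (fun c₁ _ c₂ _ hne => hcomm x x _ _ (fun h => hne (π.injective h)))]
      exact Finset.noncommProd_congr rfl (fun c _ => hψ c) _
    have hmain' : z * P₀ x * z⁻¹ = P₀ x := hmain
    calc z * P₀ x = z * P₀ x * z⁻¹ * z := by group
      _ = P₀ x * z := by rw [hmain']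
  · intro B x hx
    change P₀ x ∈ B
    apply Subgroup.noncommProd_mem
    intro c _
    rw [hcomp]
    exact hx _ (hrpΞ c)
  · intro x
    obtain ⟨c₀, hc₀⟩ : ∃ c₀ : Ξ ⧸ St.subgroupOf Ξ, c₀ = QuotientGroup.mk 1 := ⟨_, rfl⟩
    have hc₀St : rp c₀ ∈ St := by
      have h3 : (QuotientGroup.mk (Quotient.out c₀) : Ξ ⧸ St.subgroupOf Ξ) = QuotientGroup.mk 1 := by
        rw [QuotientGroup.out_eq', hc₀]
      have h4 := QuotientGroup.eq.mp h3
      rw [Subgroup.mem_subgroupOf] at h4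
      have h5 : ((Quotient.out c₀ : Ξ) : G)⁻¹ ∈ St := by simpa using h4
      rw [hrp]
      simpa using St.inv_mem h5
    have hc₀x : comp x c₀ = x := by
      rw [hcomp, h1 _ hc₀St x x.2]
      group
    refine ⟨(Finset.univ.erase c₀).noncommProd (comp x)
      (fun _ hc _ hd hne => hpw x (Finset.mem_coe.mpr (Finset.mem_of_mem_erase (Finset.mem_coe.mp hc)))
        (Finset.mem_coe.mpr (Finset.mem_of_mem_erase (Finset.mem_coe.mp hd))) hne), ?_, ?_⟩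
    · intro x' hx'
      apply Commute.eq
      apply Finset.noncommProd_commute
      intro c hc
      have hne := (Finset.mem_erase.mp hc).1
      rw [hcomp]
      have h3 := h2 1 Ξ.one_mem _ (hrpΞ c) (fun h => by
        apply hrp_ne c₀ c (Ne.symm hne)
        have : (rp c₀)⁻¹ * rp c = (rp c₀)⁻¹ * (1⁻¹ * rp c) := by group
        rw [this]
        exact St.mul_mem (St.inv_mem hc₀St) h) _ hx' _ x.2
      have h4 : x' * (rp c * (x : G) * (rp c)⁻¹) = rp c * (x : G) * (rp c)⁻¹ * x' := by simpa using h3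
      exact h4
    · change P₀ x = _
      rw [hP₀, ← Finset.mul_noncommProd_erase Finset.univ (Finset.mem_univ c₀) (comp x) (hpw x), hc₀x]

end orbit_abs

section diag

variable {G : Type*} [Group G] [Finite G] {p q : ℕ} [Fact p.Prime] [Fact q.Prime] {V H K : Subgroup G}

/-- A `q`-group normalizing `V` and `E` acts trivially on `[V,E]`. -/
theorem PD.stab_fix_W {a b u w : G} {c : ℕ} (hF : FFS p V H K) (hP : PD p V H K a b u w c)
    (hq : ¬ q ∣ (p + 1) * p * (p - 1)) {Y : Subgroup G} (hY : IsPGroup q Y)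
    (hYV : Y ≤ Subgroup.normalizer (V : Set G)) (hYE : Y ≤ Subgroup.normalizer ((ec K a : Subgroup G) : Set G))
    {y m : G} (hy : y ∈ Y) (hm : m ∈ wc V K a) : y * m = m * y := by
  classical
  have hp : p.Prime := Fact.out
  have hYW : Y ≤ Subgroup.normalizer ((wc V K a : Subgroup G) : Set G) := fun g hg =>
    conj_normalizer_comm (hYV hg) (hYE hg)
  obtain ⟨W, hW⟩ : ∃ W, W = wc V K a := ⟨_, rfl⟩
  rw [← hW] at hYW hm
  letI act : MulAction Y W :=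
    { smul := fun y m => ⟨y * m * (y : G)⁻¹, Cfsg.Agent.H02.conj_mem_of_normalizer (hYW y.2) m.2⟩
      one_smul := fun m => Subtype.ext (by
        change ((1 : Y) : G) * m * ((1 : Y) : G)⁻¹ = m
        simp)
      mul_smul := fun y z m => Subtype.ext (by
        change ((y * z : Y) : G) * m * ((y * z : Y) : G)⁻¹ = y * (z * m * (z : G)⁻¹) * (y : G)⁻¹
        simp only [Subgroup.coe_mul]
        group) }
  have hmod := hY.card_modEq_card_fixedPoints W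
  obtain ⟨C₀, hC₀⟩ : ∃ C₀, C₀ = W ⊓ Subgroup.centralizer (Y : Set G) := ⟨_, rfl⟩
  have hC₀mem : ∀ x, x ∈ C₀ ↔ x ∈ W ∧ x ∈ Subgroup.centralizer (Y : Set G) := by
    intro x; rw [hC₀]; rfl
  have hfix : Nat.card (MulAction.fixedPoints Y W) = Nat.card C₀ := by
    refine Nat.card_congr ⟨fun m => ⟨m.1.1, ?_⟩, fun m => ⟨⟨m.1, ?_⟩, ?_⟩, fun m => rfl, fun m => rfl⟩
    · refine (hC₀mem _).mpr ⟨m.1.2, Subgroup.mem_centralizer_iff.mpr fun z hz => ?_⟩
      have h1 := m.2 ⟨z, hz⟩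
      have h2 : z * (m.1 : G) * z⁻¹ = m.1 := congrArg Subtype.val h1
      calc z * (m.1 : G) = z * (m.1 : G) * z⁻¹ * z := by group
        _ = m.1 * z := by rw [h2]
    · exact ((hC₀mem _).mp m.2).1
    · rintro ⟨z, hz⟩
      apply Subtype.ext
      have h1 := (hC₀mem _).mp m.2
      change z * m.1 * z⁻¹ = m.1
      rw [Subgroup.mem_centralizer_iff.mp h1.2 z hz]
      group
  have hcardW : Nat.card W = p ^ 2 := by
    rw [hW]
    exact hP.card_wc hF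
  have hC₀W : C₀ ≤ W := fun x hx => ((hC₀mem x).mp hx).1
  have hdvd : Nat.card C₀ ∣ p ^ 2 := hcardW ▸ Subgroup.card_dvd_of_le hC₀W
  obtain ⟨i, hi, hci⟩ := (Nat.dvd_prime_pow hp).mp hdvd
  rw [hfix, hci, hcardW] at hmod
  have hi2 : i = 2 := arith_q hp.two_le hq hi hmod.symm
  subst hi2
  have hCW : C₀ = W := Subgroup.eq_of_le_of_card_ge hC₀W (by rw [hci, hcardW])
  rw [← hCW] at hm
  exact Subgroup.mem_centralizer_iff.mp ((hC₀mem m).mp hm).2 y hy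

lemma wc_conj_mem {g a m : G} (hgV : g ∈ Subgroup.normalizer (V : Set G)) (hgK : g ∈ Subgroup.normalizer (K : Set G))
    (hm : m ∈ wc V K a) : g * m * g⁻¹ ∈ wc V K (g * a * g⁻¹) := by
  have h1 : (wc V K a).map (MulAut.conj g).toMonoidHom = wc V K (g * a * g⁻¹) := by
    unfold wc
    have h1V : V.map (MulAut.conj g).toMonoidHom = V := Subgroup.mem_normalizer_iff_map_conj_eq.mp hgV
    rw [Subgroup.map_commutator, h1V, ec_conj hgK]
  rw [← h1]
  exact ⟨m, hm, rfl⟩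

/-- The diagonal of the orbit of `E` under a `q`-group. -/
theorem PD.diag {a b u w : G} {c : ℕ} (hF : FFS p V H K) (hP : PD p V H K a b u w c) {Ξ : Subgroup G}
    (hΞq : IsPGroup q Ξ) (hΞV : Ξ ≤ Subgroup.normalizer (V : Set G)) (hΞH : Ξ ≤ Subgroup.normalizer (H : Set G))
    (hΞK : Ξ ≤ Subgroup.normalizer (K : Set G)) (hq : ¬ q ∣ (p + 1) * p * (p - 1)) :
    ∃ Γ W' : Subgroup G, Γ ≤ H ∧ W' ≤ V ∧ (∀ z ∈ Ξ, ∀ g ∈ Γ, z * g = g * z) ∧ (∀ z ∈ Ξ, ∀ m ∈ W', z * m = m * z) ∧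
      Nat.card W' = p ^ 2 ∧ Γ ≤ Subgroup.normalizer (W' : Set G) ∧ (∀ g ∈ Γ, (∀ m ∈ W', g * m = m * g) → g = 1) ∧
      Nonempty (Γ ≃* SL(2, ZMod p)) := by
  classical
  obtain ⟨E, hE⟩ : ∃ E, E = ec K a := ⟨_, rfl⟩
  obtain ⟨W, hW⟩ : ∃ W, W = wc V K a := ⟨_, rfl⟩
  obtain ⟨X, hX⟩ : ∃ X, X = E ⊔ W := ⟨_, rfl⟩
  have hEX : E ≤ X := by
    rw [hX]
    exact le_sup_left
  have hWX : W ≤ X := by
    rw [hX]
    exact le_sup_right
  obtain ⟨St, hStdef⟩ : ∃ St, St = Ξ ⊓ Subgroup.normalizer ((ec K a : Subgroup G) : Set G) := ⟨_, rfl⟩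
  have hSt : St ≤ Ξ := by
    rw [hStdef]
    exact inf_le_left
  have h1 : ∀ s ∈ St, ∀ x ∈ X, s * x = x * s := by
    intro s hs x hx
    rw [hStdef] at hs
    have hY := hΞq.to_le (inf_le_left : Ξ ⊓ Subgroup.normalizer ((ec K a : Subgroup G) : Set G) ≤ Ξ)
    have hle : X ≤ Subgroup.centralizer ({s} : Set G) := by
      rw [hX]
      apply sup_le
      · intro e he
        rw [hE] at he
        exact Subgroup.mem_centralizer_singleton_iff.mpr
          (hP.stab_fix hF hq hY (inf_le_left.trans hΞV) inf_le_right hs he).symm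
      · intro m hm
        rw [hW] at hm
        exact Subgroup.mem_centralizer_singleton_iff.mpr
          (hP.stab_fix_W hF hq hY (inf_le_left.trans hΞV) inf_le_right hs hm).symm
    exact (Subgroup.mem_centralizer_singleton_iff.mp (hle hx)).symm
  have hXconj : ∀ y ∈ Ξ, ∀ x ∈ X, y * x * y⁻¹ ∈ ec K (y * a * y⁻¹) ⊔ wc V K (y * a * y⁻¹) := by
    intro y hy x hx
    have hle : X ≤ (ec K (y * a * y⁻¹) ⊔ wc V K (y * a * y⁻¹)).comap (MulAut.conj y).toMonoidHom := by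
      rw [hX]
      apply sup_le
      · intro e he
        rw [hE] at he
        exact Subgroup.mem_sup_left (ec_conj_mem (hΞK hy) he)
      · intro m hm
        rw [hW] at hm
        exact Subgroup.mem_sup_right (wc_conj_mem (hΞV hy) (hΞK hy) hm)
    exact hle hx
  have h2 : ∀ y₁ ∈ Ξ, ∀ y₂ ∈ Ξ, y₁⁻¹ * y₂ ∉ St → ∀ x₁ ∈ X, ∀ x₂ ∈ X,
      (y₁ * x₁ * y₁⁻¹) * (y₂ * x₂ * y₂⁻¹) = (y₂ * x₂ * y₂⁻¹) * (y₁ * x₁ * y₁⁻¹) := by
    intro y₁ hy₁ y₂ hy₂ hne x₁ hx₁ x₂ hx₂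
    have ht₁ : Tv p V H (y₁ * a * y₁⁻¹) := Tv.conj' hF hP.ta (hΞV hy₁) (hΞH hy₁)
    have ht₂ : Tv p V H (y₂ * a * y₂⁻¹) := Tv.conj' hF hP.ta (hΞV hy₂) (hΞH hy₂)
    obtain ⟨_, _, _, _, hP₁⟩ := exists_PD_of_tv hF ht₁
    obtain ⟨_, _, _, _, hP₂⟩ := exists_PD_of_tv hF ht₂
    have hECne : ec K (y₁ * a * y₁⁻¹) ≠ ec K (y₂ * a * y₂⁻¹) := by
      intro h
      apply hne
      rw [hStdef]
      refine ⟨Ξ.mul_mem (Ξ.inv_mem hy₁) hy₂, Subgroup.mem_normalizer_iff_map_conj_eq.mpr ?_⟩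
      have h3 := ec_conj (K := K) (g := y₁⁻¹ * y₂) (a := a) (hΞK (Ξ.mul_mem (Ξ.inv_mem hy₁) hy₂))
      change (ec K a).map (MulAut.conj (y₁⁻¹ * y₂)).toMonoidHom = ec K a
      rw [h3]
      have h4 := ec_conj (K := K) (g := y₁⁻¹) (a := y₂ * a * y₂⁻¹) (hΞK (Ξ.inv_mem hy₁))
      have h5 := ec_conj (K := K) (g := y₁⁻¹) (a := y₁ * a * y₁⁻¹) (hΞK (Ξ.inv_mem hy₁))
      have e1 : y₁⁻¹ * y₂ * a * (y₁⁻¹ * y₂)⁻¹ = y₁⁻¹ * (y₂ * a * y₂⁻¹) * y₁⁻¹⁻¹ := by group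
      have e2 : y₁⁻¹ * (y₁ * a * y₁⁻¹) * y₁⁻¹⁻¹ = a := by group
      rw [e2] at h5
      rw [e1, ← h4, ← h, h5]
    rcases ec_dich hF hP₁ hP₂ with h | ⟨hW1, hW2, hc⟩
    · exact absurd h hECne
    · have h3 := hXconj y₁ hy₁ x₁ hx₁
      have h4 := hXconj y₂ hy₂ x₂ hx₂
      obtain ⟨t₁, ht₁def⟩ : ∃ t₁, t₁ = y₁ * a * y₁⁻¹ := ⟨_, rfl⟩
      obtain ⟨t₂, ht₂def⟩ : ∃ t₂, t₂ = y₂ * a * y₂⁻¹ := ⟨_, rfl⟩
      rw [← ht₁def] at h3 hW1 hW2 hc hP₁
      rw [← ht₂def] at h4 hW1 hW2 hc hP₂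
      have hE2C1 : ec K t₂ ≤ Subgroup.centralizer ((ec K t₁ : Subgroup G) : Set G) := by
        intro g hg
        exact Subgroup.mem_centralizer_iff.mpr fun h hh => hc h hh g hg
      have hW2C1 : wc V K t₂ ≤ Subgroup.centralizer ((ec K t₁ : Subgroup G) : Set G) := fun m hm => (hW2 hm).2
      have hE2W1 : ec K t₂ ≤ Subgroup.centralizer ((wc V K t₁ : Subgroup G) : Set G) :=
        Subgroup.le_centralizer_iff.mp (fun m hm => (hW1 hm).2)
      have hW2W1 : wc V K t₂ ≤ Subgroup.centralizer ((wc V K t₁ : Subgroup G) : Set G) := by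
        intro m hm
        exact Subgroup.mem_centralizer_iff.mpr fun n hn => hF.comm_V (hP₁.wc_le_V hF hn) (hP₂.wc_le_V hF hm)
      have hX1 : ec K t₁ ⊔ wc V K t₁ ≤ Subgroup.centralizer ((ec K t₂ ⊔ wc V K t₂ : Subgroup G) : Set G) :=
        sup_le (Subgroup.le_centralizer_iff.mp (sup_le hE2C1 hW2C1)) (Subgroup.le_centralizer_iff.mp (sup_le hE2W1 hW2W1))
      exact (Subgroup.mem_centralizer_iff.mp (hX1 h3) _ h4).symm
  obtain ⟨P, hP1, hP2, hP3⟩ := exists_orbit_hom hSt h1 h2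
  let Pe : ↥E →* G := P.comp (Subgroup.inclusion hEX)
  let Pw : ↥W →* G := P.comp (Subgroup.inclusion hWX)
  have hWV : W ≤ V := by
    rw [hW]
    exact hP.wc_le_V hF
  have hEH : E ≤ H := by
    rw [hE]
    exact ec_le_H hF hP.ta.mem
  have hPw_inj : Function.Injective Pw := by
    rw [injective_iff_map_eq_one]
    rintro ⟨v, hv⟩ h
    obtain ⟨r, hr1, hr2⟩ := hP3 ⟨v, hWX hv⟩
    have h3 : v * r = 1 := hr2.symm.trans h
    have h4 : r = v⁻¹ := eq_inv_of_mul_eq_one_right h3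
    have h5 : v ∈ wc V K a ⊓ zc V K a := by
      refine ⟨by rw [← hW]; exact hv, hWV hv, Subgroup.mem_centralizer_iff.mpr fun e he => ?_⟩
      have h6 := hr1 e (hEX (by rw [hE]; exact he))
      rw [h4] at h6
      calc e * v = v * (v⁻¹ * e) * v := by group
        _ = v * (e * v⁻¹) * v := by rw [h6]
        _ = v * e := by group
    rw [hP.wc_inf_zc hF, Subgroup.mem_bot] at h5
    exact Subtype.ext h5
  have hconjW : ∀ e ∈ E, ∀ v ∈ W, e * v * e⁻¹ ∈ W := by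
    intro e he v hv
    rw [hE, hP.ec_eq hF] at he
    rw [hW, hP.wc_eq hF] at hv ⊢
    exact hP.E_conj_W hF he hv
  have key : ∀ (e : E) (v : W), Pe e * Pw v * (Pe e)⁻¹ = Pw ⟨e * v * (e : G)⁻¹, hconjW _ e.2 _ v.2⟩ := by
    intro e v
    change P (Subgroup.inclusion hEX e) * P (Subgroup.inclusion hWX v) * (P (Subgroup.inclusion hEX e))⁻¹ = P _
    rw [← map_inv, ← map_mul, ← map_mul]
    rfl
  have hΓH : Pe.range ≤ H := by
    rintro _ ⟨e, rfl⟩
    exact hP2 H _ (fun y hy => Cfsg.Agent.H02.conj_mem_of_normalizer (hΞH hy) (hEH e.2))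
  have hW'V : Pw.range ≤ V := by
    rintro _ ⟨v, rfl⟩
    exact hP2 V _ (fun y hy => Cfsg.Agent.H02.conj_mem_of_normalizer (hΞV hy) (hWV v.2))
  have hcard : Nat.card Pw.range = p ^ 2 := by
    rw [← Nat.card_congr (MonoidHom.ofInjective hPw_inj).toEquiv, hW]
    exact hP.card_wc hF
  have hΓN : Pe.range ≤ Subgroup.normalizer ((Pw.range : Subgroup G) : Set G) := by
    rintro _ ⟨e, rfl⟩
    apply Cfsg.Agent.H19.mem_normalizer_of_conj_le
    rintro _ ⟨v, rfl⟩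
    exact ⟨_, (key e v).symm⟩
  have hfaith : ∀ g ∈ Pe.range, (∀ m ∈ Pw.range, g * m = m * g) → g = 1 := by
    rintro _ ⟨e, rfl⟩ h
    have h3 : (e : G) = 1 := by
      apply hP.ec_faithful hF (by rw [← hE]; exact e.2)
      intro m hm
      rw [← hW] at hm
      have h4 := h _ ⟨⟨m, hm⟩, rfl⟩
      have h5 : Pe e * Pw ⟨m, hm⟩ * (Pe e)⁻¹ = Pw ⟨m, hm⟩ := by
        rw [h4]
        group
      rw [key] at h5
      have h6 := congrArg Subtype.val (hPw_inj h5)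
      change (e : G) * m * (e : G)⁻¹ = m at h6
      calc (e : G) * m = (e : G) * m * (e : G)⁻¹ * e := by group
        _ = m * e := by rw [h6]
    have h4 : e = 1 := Subtype.ext h3
    rw [h4, map_one]
  refine ⟨Pe.range, Pw.range, hΓH, hW'V, ?_, ?_, hcard, hΓN, hfaith, ?_⟩
  · rintro z hz _ ⟨e, rfl⟩
    exact hP1 z hz _
  · rintro z hz _ ⟨v, rfl⟩
    exact hP1 z hz _
  · let ρ : ↥Pe.range →* MulAut ↥Pw.range :=
      (Subgroup.normalizerMonoidHom Pw.range).comp (Subgroup.inclusion hΓN)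
    have hρ : ∀ (g : Pe.range) (x : Pw.range), ((ρ g x : Pw.range) : G) = (g : G) * x * (g : G)⁻¹ := fun _ _ => rfl
    have haE : a ∈ E := by
      rw [hE]
      exact self_mem_ec K a
    have hbE : b ∈ E := by
      rw [hE]
      exact Tset_sub_ec hP.hba
    have huW : u ∈ W := by
      rw [hW, hP.wc_eq hF]
      exact (le_sup_left : tvL V a ≤ _) hP.hu
    have hwW : w ∈ W := by
      rw [hW, hP.wc_eq hF]
      exact (le_sup_right : tvL V b ≤ _) hP.hw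
    have hrel : ∀ (e : E) (v v' : W), (e : G) * v * (e : G)⁻¹ = v' →
        ρ ⟨Pe e, ⟨e, rfl⟩⟩ ⟨Pw v, ⟨v, rfl⟩⟩ = ⟨Pw v', ⟨v', rfl⟩⟩ := by
      intro e v v' h
      apply Subtype.ext
      rw [hρ]
      change Pe e * Pw v * (Pe e)⁻¹ = Pw v'
      rw [key]
      congr 1
      exact Subtype.ext h
    obtain ⟨φ, -, -⟩ := sl2_iso_of_plane' p (W := ↥Pw.range) (Γ := ↥Pe.range)
      (fun x y => Subtype.ext (hF.comm_V (hW'V x.2) (hW'V y.2)))
      (fun x => Subtype.ext (hF.pow_V (hW'V x.2))) hcard ρ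
      (by
        rw [injective_iff_map_eq_one]
        rintro ⟨g, hg⟩ h
        apply Subtype.ext
        apply hfaith g hg
        intro m hm
        have h3 : ρ ⟨g, hg⟩ ⟨m, hm⟩ = ⟨m, hm⟩ := by rw [h]; rfl
        have h4 := congrArg Subtype.val h3
        rw [hρ] at h4
        change g * m * g⁻¹ = m at h4
        calc g * m = g * m * g⁻¹ * g := by group
          _ = m * g := by rw [h4])
      ⟨Pe ⟨a, haE⟩, ⟨_, rfl⟩⟩ ⟨Pe ⟨b, hbE⟩, ⟨_, rfl⟩⟩
      (by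
        intro S ha hb
        rw [eq_top_iff]
        rintro ⟨_, e, rfl⟩ -
        let T : Subgroup E := (S.map Pe.range.subtype).comap Pe
        have h3 : a ∈ T.map E.subtype := ⟨⟨a, haE⟩, ⟨_, ha, rfl⟩, rfl⟩
        have h4 : b ∈ T.map E.subtype := ⟨⟨b, hbE⟩, ⟨_, hb, rfl⟩, rfl⟩
        have h5 := plE_le h3 h4
        rw [← hP.ec_eq hF, ← hE] at h5
        obtain ⟨e', he', he'e⟩ := h5 e.2
        have h6 : e' = e := Subtype.ext he'e
        rw [h6] at he'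
        obtain ⟨g, hg, hge⟩ := he'
        have h7 : g = ⟨Pe e, ⟨e, rfl⟩⟩ := Subtype.ext hge
        rw [← h7]
        exact hg)
      ⟨Pw ⟨u, huW⟩, ⟨_, rfl⟩⟩ ⟨Pw ⟨w, hwW⟩, ⟨_, rfl⟩⟩ c hP.hc
      (by
        intro h
        have h3 : Pw ⟨u, huW⟩ = 1 := congrArg Subtype.val h
        have h4 := hPw_inj (h3.trans (map_one Pw).symm)
        exact hP.hu1 (congrArg Subtype.val h4))
      (hrel ⟨a, haE⟩ ⟨u, huW⟩ ⟨u, huW⟩ (by
        change a * u * a⁻¹ = u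
        rw [hP.au hF]
        group))
      (by
        have h3 := hrel ⟨a, haE⟩ ⟨w, hwW⟩ (⟨u, huW⟩ * ⟨w, hwW⟩) hP.hau
        refine h3.trans (Subtype.ext ?_)
        change Pw (⟨u, huW⟩ * ⟨w, hwW⟩) = Pw ⟨u, huW⟩ * Pw ⟨w, hwW⟩
        rw [map_mul])
      (hrel ⟨b, hbE⟩ ⟨w, hwW⟩ ⟨w, hwW⟩ (by
        change b * w * b⁻¹ = w
        rw [hP.bw hF]
        group))
      (by
        have h3 := hrel ⟨b, hbE⟩ ⟨u, huW⟩ (⟨w, hwW⟩ ^ c * ⟨u, huW⟩) hP.hbu
        refine h3.trans (Subtype.ext ?_)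
        change Pw (⟨w, hwW⟩ ^ c * ⟨u, huW⟩) = (Pw ⟨w, hwW⟩) ^ c * Pw ⟨u, huW⟩
        rw [map_mul, map_pow])
    exact ⟨φ⟩

end diag

end Cfsg.Agent.H14
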