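import Mathlib
import Cfsg.Agent.Lib.H14.BO15
/-! Failure of factorization inside the fixed points of a coprime action. -/
set_option autoImplicit false
set_option linter.unusedSectionVars false
set_option linter.unusedVariables false
set_option linter.style.longLine false
namespace Cfsg.Agent.H14
open Cfsg
open Cfsg.Agent.H02 (offVal)
open scoped commutatorElement
open Matrix MatrixGroups

variable {L : Type*} [Group L] [Finite L] {p q : ℕ} [Fact p.Prime] [Fact q.Prime]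
variable {Φ : Type*} [Group Φ] [Finite Φ] (τ : Φ →* MulAut L)

/-- The fixed points. -/
def fixS : Subgroup L where
  carrier := {k | ∀ x, τ x k = k}
  mul_mem' := fun ha hb x => by rw [map_mul, ha x, hb x]
  one_mem' := fun x => map_one _
  inv_mem' := fun ha x => by rw [map_inv, ha x]

lemma mem_fixS {k : L} : k ∈ fixS τ ↔ ∀ x, τ x k = k := Iff.rfl

theorem coprime_fail (hΦ : IsPGroup q Φ) (hq : ¬ q ∣ Nat.card L) (hs : IsPSolvable p L) (hO : pPrimeCore p L = ⊥)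
    (hnf : ¬ IsThompsonFactorizable p L) :
    (p = 2 ∨ p = 3) ∧ ∃ W D : Subgroup L, W ≤ fixS τ ∧ D ≤ fixS τ ∧ IsElementaryAbelian p W ∧ Nat.card W = p ^ 2 ∧
      D ≤ Subgroup.normalizer (W : Set L) ∧
      ∃ φ : ↥D →* SL(2, ZMod p), Function.Surjective φ ∧ ∀ d : D, φ d = 1 ↔ (d : L) ∈ Subgroup.centralizer (W : Set L) := by
  classical
  have hV := omZ_ea hs hO
  have hO' := omZ_core (p := p) (G := L)
  haveI hVn : (omZ p L).Normal := omZ_normal
  have hJC0 : ¬ thompsonSubgroup p L ≤ Subgroup.centralizer (omZ p L : Set L) := by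
    intro h
    apply hnf
    refine factorizable_of_le hO h fun S => ?_
    apply Subgroup.centralizer_le
    exact le_iSup (fun S : Sylow p L => omegaOne p ((S : Subgroup L) ⊓ Subgroup.centralizer ((S : Subgroup L) : Set L))) S
  obtain ⟨J, hJ⟩ : ∃ J, J = thompsonSubgroup p L := ⟨_, rfl⟩
  haveI hJn : J.Normal := by
    rw [hJ]; infer_instance
  rw [← hJ] at hJC0
  obtain ⟨Q, hQ⟩ : ∃ Q, Q = J.map (holF (omZ p L)) := ⟨_, rfl⟩
  obtain ⟨K', hK'⟩ : ∃ K', K' = (pPrimeCore p ↥Q).map Q.subtype := ⟨_, rfl⟩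
  have hF : FFS p (holV (omZ p L)) Q K' := by
    rw [hK', hQ]
    exact hol_FFS _ hV hs hO' J
  have hS3 : Q = ⨆ A : {A : Subgroup (Hol (omZ p L)) // A ≤ Q ∧ IsBestOffenderOn p (holV (omZ p L)) A}, (A : Subgroup (Hol (omZ p L))) := by
    rw [hQ, hJ]
    exact thompson_hS3 _ hV hs hO'
  have hΞq : IsPGroup q ↥(iotaOm τ p).range :=
    hΦ.of_surjective (iotaOm τ p).rangeRestrict (MonoidHom.rangeRestrict_surjective _)
  have hΞV : (iotaOm τ p).range ≤ Subgroup.normalizer ((holV (omZ p L) : Subgroup (Hol (omZ p L))) : Set (Hol (omZ p L))) := by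
    rintro _ ⟨x, rfl⟩
    apply Cfsg.Agent.H19.mem_normalizer_of_conj_le
    rintro _ ⟨v, rfl⟩
    exact ⟨_, (iota_holJ τ x v).symm⟩
  have hJτ : ∀ x, ∀ j ∈ J, τ x j ∈ J := by
    intro x j hj
    rw [hJ] at hj ⊢
    exact thompson_map (τ x) hj
  have hΞH : (iotaOm τ p).range ≤ Subgroup.normalizer ((Q : Subgroup (Hol (omZ p L))) : Set (Hol (omZ p L))) := by
    rintro _ ⟨x, rfl⟩
    apply Cfsg.Agent.H19.mem_normalizer_of_conj_le
    intro y hy
    rw [hQ] at hy ⊢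
    obtain ⟨j, hj, rfl⟩ := hy
    rw [iota_holF]
    exact ⟨_, hJτ x j hj, rfl⟩
  have hΞK : (iotaOm τ p).range ≤ Subgroup.normalizer ((K' : Subgroup (Hol (omZ p L))) : Set (Hol (omZ p L))) := by
    rw [hK']
    exact fun z hz => norm_pPrimeCore Q (hΞH hz)
  have hQ1 : Q ≠ ⊥ := by
    intro h
    apply hJC0
    intro j hj
    have h1 : holF (omZ p L) j ∈ Q := by
      rw [hQ]
      exact ⟨j, hj, rfl⟩
    rw [h] at h1
    exact (holF_eq_one_iff (omZ p L)).mp h1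
  have hex : ∃ A, MinOff p (holV (omZ p L)) Q A := by
    by_contra hcon
    push Not at hcon
    apply hQ1
    rw [eq_bot_iff]
    exact H_gen hF hS3 fun A hA => absurd hA (hcon A)
  obtain ⟨A, hAH, hA, hAV, hmin⟩ := hex
  obtain ⟨a₀, rfl, ha₀⟩ := tv_of_min hF hAH hA hAV hmin
  obtain ⟨b, u, w, c, hP⟩ := exists_PD_of_tv hF ha₀
  obtain ⟨φ, -, -⟩ := hP.exists_iso hF
  have hcardE : Nat.card (ec K' a₀) = (p + 1) * p * (p - 1) := by
    rw [hP.ec_eq hF, Nat.card_congr φ.toEquiv, Cfsg.Agent.Lead.card_SL_two', ZMod.card]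
  have hEQ := ec_le_H hF hP.ta.mem
  have hq' : ¬ q ∣ (p + 1) * p * (p - 1) := by
    rw [← hcardE]
    intro h
    apply hq
    have h1 : Nat.card (ec K' a₀) ∣ Nat.card Q := Subgroup.card_dvd_of_le hEQ
    have h2 : Nat.card Q ∣ Nat.card J := by
      rw [hQ, ← card_map_holF (omZ p L) J]
      exact Dvd.intro _ rfl
    exact h.trans (h1.trans (h2.trans (Subgroup.card_subgroup_dvd_card J)))
  refine ⟨hP.p_cases hF, ?_⟩
  obtain ⟨Γ, Wb, hΓQ, hWbV, hΓfix, hWbfix, hcardWb, hΓN, hfaith, ⟨ψ⟩⟩ := hP.diag hF hΞq hΞV hΞH hΞK hq'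
  obtain ⟨W, hW⟩ : ∃ W, W = (Wb.comap (holJ (omZ p L))).map (omZ p L).subtype := ⟨_, rfl⟩
  have hWmem : ∀ k : L, k ∈ W ↔ ∃ v : omZ p L, (v : L) = k ∧ holJ (omZ p L) v ∈ Wb := by
    intro k
    rw [hW]
    constructor
    · rintro ⟨v, hv, rfl⟩
      exact ⟨v, rfl, hv⟩
    · rintro ⟨v, rfl, hv⟩
      exact ⟨v, hv, rfl⟩
  have hWZ : W ≤ omZ p L := by
    rw [hW]
    exact Subgroup.map_subtype_le _
  have hWfix : W ≤ fixS τ := by
    intro k hk x
    obtain ⟨v, rfl, hv⟩ := (hWmem k).mp hk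
    have h1 := hWbfix _ ⟨x, rfl⟩ _ hv
    have h2 : iotaOm τ p x * holJ (omZ p L) v * (iotaOm τ p x)⁻¹ = holJ (omZ p L) v := by
      rw [h1]
      group
    rw [iota_holJ] at h2
    have h3 := holJ_inj (omZ p L) h2
    exact congrArg Subtype.val h3
  have hWea : IsElementaryAbelian p W := by
    have hcV := Cfsg.Agent.H02.commV_of_ea hV
    refine ⟨⟨⟨fun a b => Subtype.ext (hcV _ (hWZ a.2) _ (hWZ b.2))⟩⟩, fun a ha => ?_⟩
    exact hV.2 _ (hWZ ha)
  have hcardW : Nat.card W = p ^ 2 := by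
    rw [← hcardWb]
    have e1 : Nat.card W = Nat.card (Wb.comap (holJ (omZ p L))) := by
      rw [hW]
      exact (Nat.card_congr (Subgroup.equivMapOfInjective _ _ (omZ p L).subtype_injective).toEquiv).symm
    rw [e1]
    refine Nat.card_eq_of_bijective (fun v => (⟨holJ (omZ p L) v, v.2⟩ : Wb)) ⟨?_, ?_⟩
    · intro v₁ v₂ h
      exact Subtype.ext (holJ_inj (omZ p L) (congrArg Subtype.val h))
    · rintro ⟨m, hm⟩
      obtain ⟨v, rfl⟩ := hWbV hm
      exact ⟨⟨v, hm⟩, rfl⟩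
  obtain ⟨D, hD⟩ : ∃ D, D = fixS τ ⊓ Γ.comap (holF (omZ p L)) := ⟨_, rfl⟩
  have hDmem : ∀ k, k ∈ D ↔ k ∈ fixS τ ∧ holF (omZ p L) k ∈ Γ := by
    intro k
    rw [hD]
    rfl
  have hDN : D ≤ Subgroup.normalizer (W : Set L) := by
    intro k hk
    apply Cfsg.Agent.H19.mem_normalizer_of_conj_le
    intro x hx
    obtain ⟨v, rfl, hv⟩ := (hWmem x).mp hx
    have h1 := Cfsg.Agent.H02.conj_mem_of_normalizer (hΓN ((hDmem k).mp hk).2) hv
    rw [holF_conj] at h1
    exact (hWmem _).mpr ⟨_, rfl, h1⟩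
  let φ₀ : ↥D →* ↥Γ := ((holF (omZ p L)).comp D.subtype).codRestrict Γ (fun d => ((hDmem d.1).mp d.2).2)
  have hφ₀ : ∀ d : D, ((φ₀ d : Γ) : Hol (omZ p L)) = holF (omZ p L) d := fun _ => rfl
  have hsurj₀ : Function.Surjective φ₀ := by
    rintro ⟨g, hg⟩
    have hgQ := hΓQ hg
    rw [hQ] at hgQ
    obtain ⟨j, -, rfl⟩ := hgQ
    obtain ⟨k, hk, hkfix⟩ := lift_fixed hΦ hq τ (holF (omZ p L)) ⟨j, rfl⟩ (fun x k hk => by
      rw [← iota_holF, hk]
      have := hΓfix _ (⟨x, rfl⟩ : iotaOm τ p x ∈ (iotaOm τ p).range) _ hg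
      rw [this]
      group)
    refine ⟨⟨k, (hDmem k).mpr ⟨hkfix, ?_⟩⟩, Subtype.ext hk⟩
    rw [hk]
    exact hg
  refine ⟨W, D, hWfix, ?_, hWea, hcardW, hDN, ψ.toMonoidHom.comp φ₀, ?_, ?_⟩
  · intro k hk
    exact ((hDmem k).mp hk).1
  · exact ψ.surjective.comp hsurj₀
  · intro d
    have e1 : (ψ.toMonoidHom.comp φ₀) d = 1 ↔ φ₀ d = 1 := by
      change ψ (φ₀ d) = 1 ↔ _
      exact map_eq_one_iff ψ ψ.injective
    rw [e1]
    constructor
    · intro h
      have h1 : holF (omZ p L) d = 1 := by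
        rw [← hφ₀, h]
        rfl
      have h2 := (holF_eq_one_iff (omZ p L)).mp h1
      exact Subgroup.centralizer_le (show ((W : Subgroup L) : Set L) ⊆ omZ p L from hWZ) h2
    · intro h
      apply Subtype.ext
      rw [hφ₀]
      apply hfaith _ ((hDmem _).mp d.2).2
      intro m hm
      obtain ⟨v, rfl⟩ := hWbV hm
      have h1 := holF_conj (omZ p L) (d : L) v
      have h2 : MulAut.conjNormal (d : L) v = v := by
        apply Subtype.ext
        rw [MulAut.conjNormal_apply]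
        have h3 := Subgroup.mem_centralizer_iff.mp h (v : L) ((hWmem _).mpr ⟨v, rfl, hm⟩)
        rw [← h3]
        group
      rw [h2] at h1
      calc holF (omZ p L) d * holJ (omZ p L) v = holF (omZ p L) d * holJ (omZ p L) v * (holF (omZ p L) d)⁻¹ * holF (omZ p L) d := by group
        _ = holJ (omZ p L) v * holF (omZ p L) d := by rw [h1]

end Cfsg.Agent.H14
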