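import Mathlib
import Cfsg.Agent.Lib.H14.BO1
import Cfsg.Agent.Lib.H25.PLem
import Cfsg.Agent.Lib.H09.Sect

/-! The bound `|V : C_V(A)| ≥ |A|²` for `S₃`-free groups with self-centralizing `2'`-core. -/

set_option autoImplicit false

namespace Cfsg.Agent.H14

open Cfsg
open Cfsg.Agent.H02 (offVal)
open scoped commutatorElement

section S3

variable {M : Type*} [Group M] [Finite M]

/-- A subgroup of the symmetric group on three points which contains an element of order three
and an element inverting it is everything. -/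
theorem perm3_surj {Ω : Type*} [Finite Ω] (hΩ : Nat.card Ω = 3) (R : Subgroup (Equiv.Perm Ω)) {y a : Equiv.Perm Ω}
    (hyR : y ∈ R) (haR : a ∈ R) (hy1 : y ≠ 1) (hy3 : y ^ 3 = 1) (hinv : a * y * a⁻¹ = y⁻¹) : R = ⊤ := by
  classical
  haveI : Fintype Ω := Fintype.ofFinite Ω
  have hc : Nat.card (Equiv.Perm Ω) = 6 := by
    rw [Nat.card_eq_fintype_card, Fintype.card_perm, ← Nat.card_eq_fintype_card, hΩ]
    rfl
  have hord : orderOf y = 3 := orderOf_eq_prime hy3 hy1
  have h3 : 3 ∣ Nat.card R := by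
    have h1 := orderOf_dvd_natCard (⟨y, hyR⟩ : R)
    rwa [Subgroup.orderOf_mk, hord] at h1
  have h6 : Nat.card R ∣ 6 := hc ▸ Subgroup.card_subgroup_dvd_card R
  have hcases : Nat.card R = 3 ∨ Nat.card R = 6 := by
    obtain ⟨k, hk⟩ := h3
    rw [hk] at h6
    have h7 : k ∣ 2 := by
      have : 3 * k ∣ 3 * 2 := h6
      exact (Nat.mul_dvd_mul_iff_left (by norm_num)).mp this
    rcases (Nat.dvd_prime Nat.prime_two).mp h7 with rfl | rfl
    · left; omega
    · right; omega
  rcases hcases with h | h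
  · exfalso
    haveI : Fact (Nat.Prime 3) := ⟨Nat.prime_three⟩
    have hcyc : IsCyclic R := isCyclic_of_prime_card h
    have hcomm : (⟨a, haR⟩ : R) * ⟨y, hyR⟩ = ⟨y, hyR⟩ * ⟨a, haR⟩ := by
      have := hcyc.isMulCommutative
      exact mul_comm' _ _
    have hcomm' : a * y = y * a := congrArg Subtype.val hcomm
    have h1 : y = y⁻¹ := by
      rw [← hinv, hcomm']
      group
    have h2 : y ^ 2 = 1 := by
      rw [sq]
      nth_rw 2 [h1]
      exact mul_inv_cancel y
    have h3' : y = 1 := by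
      have : y ^ 3 = y ^ 2 * y := pow_succ y 2
      rw [hy3, h2, one_mul] at this
      exact this.symm
    exact hy1 h3'
  · apply Subgroup.eq_top_of_card_eq
    rw [h, hc]

/-- `S₃` from an action on a four-group. -/
theorem involves_s3_of_klein {W : Type*} [Group W] [Finite W] (ρ : M →* MulAut W) (K₀ : Subgroup W)
    (hcard : Nat.card K₀ = 4) {a y : M} (haK : ∀ x ∈ K₀, ρ a x ∈ K₀) (hyK : ∀ x ∈ K₀, ρ y x ∈ K₀)
    (hy3 : ∀ x ∈ K₀, ρ y (ρ y (ρ y x)) = x) (hne : ∃ x ∈ K₀, ρ y x ≠ x)
    (hinv : ρ a * ρ y * (ρ a)⁻¹ = (ρ y)⁻¹) : Involves (Equiv.Perm (Fin 3)) M := by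
  classical
  -- the stabilizer of `K₀`
  let St : Subgroup M :=
    { carrier := {g | ∀ x, x ∈ K₀ ↔ ρ g x ∈ K₀}
      mul_mem' := by
        intro g h hg hh x
        rw [map_mul, MulAut.mul_apply, ← hg, ← hh]
      one_mem' := by
        intro x
        simp
      inv_mem' := by
        intro g hg x
        have h1 := hg ((ρ g)⁻¹ x)
        have h2 : ρ g ((ρ g)⁻¹ x) = x := by simp
        rw [h2] at h1
        rw [map_inv]
        exact h1.symm }
  have hfin : ∀ {g : M}, (∀ x ∈ K₀, ρ g x ∈ K₀) → g ∈ St := by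
    intro g hg x
    refine ⟨hg x, fun hx => ?_⟩
    -- finiteness of `K₀`
    let f : K₀ → K₀ := fun k => ⟨ρ g k, hg k k.2⟩
    have hf : Function.Injective f := fun p q h => Subtype.ext ((ρ g).injective (congrArg Subtype.val h))
    obtain ⟨k, hk⟩ := Finite.surjective_of_injective hf ⟨ρ g x, hx⟩
    have h1 : ρ g k = ρ g x := congrArg Subtype.val hk
    rw [← (ρ g).injective h1]
    exact k.2
  let Ω := {x : W // x ∈ K₀ ∧ x ≠ 1}
  have hΩ : Nat.card Ω = 3 := by
    have h1 : Nat.card K₀ = Nat.card Ω + 1 := by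
      let e : K₀ ≃ Option Ω :=
        { toFun := fun k => if h : (k : W) = 1 then none else some ⟨k, k.2, h⟩
          invFun := fun o => match o with
            | none => 1
            | some w => ⟨w.1, w.2.1⟩
          left_inv := by
            intro k
            by_cases h : (k : W) = 1
            · simp only [h, dite_true]
              exact Subtype.ext h.symm
            · simp only [h, dite_false]
          right_inv := by
            intro o
            cases o with
            | none => simp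
            | some w =>
              simp only [w.2.2, dite_false]
              rfl }
      rw [Nat.card_congr e, Finite.card_option]
    omega
  let τ₀ : St →* Equiv.Perm Ω :=
    { toFun := fun g =>
        { toFun := fun w => ⟨ρ g w.1, (g.2 w.1).mp w.2.1, fun h => w.2.2 ((ρ g).injective (by rw [h, map_one]))⟩
          invFun := fun w => ⟨(ρ g)⁻¹ w.1, (g.2 _).mpr (by simpa using w.2.1), fun h => w.2.2 (by
            have := congrArg (ρ g) h
            simpa using this)⟩
          left_inv := fun w => Subtype.ext (by simp)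
          right_inv := fun w => Subtype.ext (by simp) }
      map_one' := by
        ext w
        simp
      map_mul' := by
        intro g h
        ext w
        simp }
  have hτ₀ : ∀ (g : St) (w : Ω), ((τ₀ g w : Ω) : W) = ρ g w.1 := fun _ _ => rfl
  have hrange : τ₀.range = ⊤ := by
    have haS : a ∈ St := hfin haK
    have hyS : y ∈ St := hfin hyK
    refine perm3_surj hΩ τ₀.range (y := τ₀ ⟨y, hyS⟩) (a := τ₀ ⟨a, haS⟩) ⟨_, rfl⟩ ⟨_, rfl⟩ ?_ ?_ ?_
    · obtain ⟨x, hx, hxy⟩ := hne
      intro h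
      have hx1 : x ≠ 1 := by
        rintro rfl
        exact hxy (map_one _)
      have h1 := congrArg (fun φ : Equiv.Perm Ω => ((φ ⟨x, hx, hx1⟩ : Ω) : W)) h
      exact hxy h1
    · ext w
      have h1 := hy3 w.1 w.2.1
      simp only [pow_succ, pow_zero, one_mul, Equiv.Perm.coe_mul, Function.comp_apply]
      exact h1
    · rw [← map_inv, ← map_inv, ← map_mul, ← map_mul]
      ext w
      have h1 := congrArg (fun φ : MulAut W => φ w.1) hinv
      change ρ a (ρ y ((ρ a)⁻¹ w.1)) = (ρ y)⁻¹ w.1 at h1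
      rw [hτ₀, hτ₀]
      simp only [Subgroup.coe_mul, InvMemClass.coe_inv, map_mul, map_inv, MulAut.mul_apply]
      exact h1
  have e : Ω ≃ Fin 3 := Finite.equivFinOfCardEq hΩ
  have hsurj : Function.Surjective ((Equiv.permCongrHom e).toMonoidHom.comp τ₀) := by
    intro π
    have : ((Equiv.permCongrHom e).symm π) ∈ τ₀.range := by rw [hrange]; trivial
    obtain ⟨g, hg⟩ := this
    refine ⟨g, ?_⟩
    change (Equiv.permCongrHom e) (τ₀ g) = π
    rw [hg]
    exact MulEquiv.apply_symm_apply _ _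
  exact Cfsg.Agent.H09.involves_of_surjective St _ hsurj

end S3

section Bound

variable {G : Type*} [Group G] [Finite G] {V M K : Subgroup G}

/-- The bound. -/
theorem FFS.s3_bound [Fact (Nat.Prime 2)] (hF : FFS 2 V M K) (hs3 : ¬ Involves (Equiv.Perm (Fin 3)) ↥M) :
    ∀ (n : ℕ) (A : Subgroup G), Nat.card A = n → A ≤ M → IsElementaryAbelian 2 A →
      Nat.card A ^ 2 * Nat.card ↥(V ⊓ Subgroup.centralizer (A : Set G)) ≤ Nat.card V := by
  intro n
  induction n using Nat.strong_induction_on with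
  | _ n ih =>
  intro A hn hAM hAe
  classical
  by_cases hbot : ∀ x ∈ A, x = 1
  · have hAb : A = ⊥ := (Subgroup.eq_bot_iff_forall A).mpr hbot
    rw [hAb, Subgroup.card_bot]
    have := offVal_bot (V := V)
    unfold offVal at this
    rw [Subgroup.card_bot, one_mul] at this
    rw [one_pow, one_mul, this]
  push Not at hbot
  obtain ⟨a, ha, ha1⟩ := hbot
  have hAc : ∀ a ∈ A, ∀ b ∈ A, a * b = b * a := Cfsg.Agent.H02.commV_of_ea hAe
  have hAp : ∀ a ∈ A, a ^ 2 = 1 := hAe.2
  obtain ⟨B, hBA, hcard, haB, x, hxK, hxB, hxa⟩ :=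
    exists_hyperplane hAc hAp (hAM.trans hF.hKn) hF.hKc ha (hF.moved (hAM ha) (hAp a ha) ha1)
  have hlt : Nat.card B < n := by
    rw [← hn, hcard]
    have : 0 < Nat.card B := Nat.card_pos
    omega
  have hIH := ih _ hlt B rfl (hBA.trans hAM) ⟨⟨⟨fun c d => Subtype.ext (hAc c (hBA c.2) d (hBA d.2))⟩⟩, fun c hc => hAp c (hBA hc)⟩
  -- the inverted element
  have haa : a * a = 1 := by rw [← sq]; exact hAp a ha
  have hainv : a⁻¹ = a := inv_eq_of_mul_eq_one_left haa
  set y := x⁻¹ * (a * x * a⁻¹) with hy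
  have hyK : y ∈ K := K.mul_mem (K.inv_mem hxK) ((Subgroup.mem_normalizer_iff.mp (hF.hKn (hAM ha)) x).mp hxK)
  have hyM : y ∈ M := hF.hKH hyK
  have hyne : y ≠ 1 := by
    intro h
    apply hxa
    have h1 : a * x * a⁻¹ = x := by
      have : x⁻¹ * (a * x * a⁻¹) = 1 := h
      calc a * x * a⁻¹ = x * (x⁻¹ * (a * x * a⁻¹)) := by group
        _ = x := by rw [this, mul_one]
    calc a * x = (a * x * a⁻¹) * a := by group
      _ = x * a := by rw [h1]
  have hay : a * y * a⁻¹ = y⁻¹ := by
    rw [hy, hainv]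
    calc a * (x⁻¹ * (a * x * a)) * a = a * x⁻¹ * (a * x * a * a) := by group
      _ = a * x⁻¹ * (a * x) := by rw [mul_assoc (a * x) a a, haa, mul_one]
      _ = (x⁻¹ * (a * x * a))⁻¹ := by
        have h2 : (x⁻¹ * (a * x * a))⁻¹ = a⁻¹ * x⁻¹ * a⁻¹ * x := by group
        rw [h2, hainv]
        group
  have hycB : ∀ c ∈ B, c * y = y * c := by
    intro c hc
    have h1 := Subgroup.mem_centralizer_iff.mp hxB c hc
    have h2 := hAc a ha c (hBA hc)
    have h1' : c * x⁻¹ = x⁻¹ * c := by
      calc c * x⁻¹ = x⁻¹ * (x * c) * x⁻¹ := by group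
        _ = x⁻¹ * (c * x) * x⁻¹ := by rw [h1]
        _ = x⁻¹ * c := by group
    have h2' : c * a⁻¹ = a⁻¹ * c := by
      calc c * a⁻¹ = a⁻¹ * (a * c) * a⁻¹ := by group
        _ = a⁻¹ * (c * a) * a⁻¹ := by rw [h2]
        _ = a⁻¹ * c := by group
    rw [hy]
    calc c * (x⁻¹ * (a * x * a⁻¹)) = (c * x⁻¹) * (a * x * a⁻¹) := by group
      _ = x⁻¹ * (c * a) * x * a⁻¹ := by rw [h1']; group
      _ = x⁻¹ * a * (c * x) * a⁻¹ := by rw [← h2]; group
      _ = x⁻¹ * a * x * (c * a⁻¹) := by rw [h1]; group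
      _ = x⁻¹ * a * x * a⁻¹ * c := by rw [h2']; group
      _ = _ := by group
  -- the action
  have hVc := Cfsg.Agent.H02.commV_of_ea hF.hV
  haveI hVab : IsMulCommutative V := hF.hV.1
  let ρ : ↥M →* MulAut ↥V := V.normalizerMonoidHom.comp (Subgroup.inclusion hF.hHV)
  have hρ : ∀ (g : M) (v : V), ((ρ g v : V) : G) = g * v * (g : G)⁻¹ := fun g v => rfl
  let a' : M := ⟨a, hAM ha⟩
  let y' : M := ⟨y, hyM⟩
  have he : ∀ v : V, v * v = 1 := by
    intro v
    apply Subtype.ext
    have := hF.hV.2 v v.2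
    rw [sq] at this
    exact this
  let U : Subgroup V := (V ⊓ Subgroup.centralizer (B : Set G)).subgroupOf V
  let Y : Subgroup V := (V ⊓ Subgroup.centralizer (A : Set G)).subgroupOf V
  have hcardU : Nat.card U = Nat.card ↥(V ⊓ Subgroup.centralizer (B : Set G)) :=
    Nat.card_congr (Subgroup.subgroupOfEquivOfLe inf_le_left).toEquiv
  have hcardY : Nat.card Y = Nat.card ↥(V ⊓ Subgroup.centralizer (A : Set G)) :=
    Nat.card_congr (Subgroup.subgroupOfEquivOfLe inf_le_left).toEquiv
  have hcomm_inv : ∀ {g c : G}, c * g = g * c → c * g⁻¹ = g⁻¹ * c := by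
    intro g c h
    calc c * g⁻¹ = g⁻¹ * (g * c) * g⁻¹ := by group
      _ = g⁻¹ * (c * g) * g⁻¹ := by rw [h]
      _ = g⁻¹ * c := by group
  have hpres : ∀ g : G, (g ∈ M) → (∀ c ∈ B, c * g = g * c) → ∀ u ∈ U, ∀ h : g ∈ M, (ρ ⟨g, h⟩ u) ∈ U := by
    intro g hgM hg u hu h
    rw [Subgroup.mem_subgroupOf] at hu ⊢
    refine ⟨(ρ ⟨g, h⟩ u).2, Subgroup.mem_centralizer_iff.mpr fun c hc => ?_⟩
    rw [hρ]
    have h1 := Subgroup.mem_centralizer_iff.mp hu.2 c hc
    have h2 := hg c hc
    have h3 := hcomm_inv h2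
    change c * (g * (u : G) * g⁻¹) = (g * (u : G) * g⁻¹) * c
    calc c * (g * (u : G) * g⁻¹) = (c * g) * (u : G) * g⁻¹ := by group
      _ = g * (c * (u : G)) * g⁻¹ := by rw [h2]; group
      _ = g * ((u : G) * c) * g⁻¹ := by rw [h1]
      _ = g * (u : G) * (c * g⁻¹) := by group
      _ = (g * (u : G) * g⁻¹) * c := by rw [h3]; group
  have hYU : Y ≤ U := by
    intro u hu
    rw [Subgroup.mem_subgroupOf] at hu ⊢
    exact ⟨hu.1, Subgroup.centralizer_le hBA hu.2⟩
  have hmain : 4 * Nat.card Y ≤ Nat.card U := by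
    refine Cfsg.Agent.H25.pstep he (a := ρ a') (c := ρ y') (U := U)
      (fun u hu => hpres a (hAM ha) (fun c hc => (hAc a ha c (hBA hc)).symm) u hu _)
      (fun u hu => hpres y hyM hycB u hu _) ?_ ?_ ?_ ?_ ?_ Y hYU ?_
    · rw [← map_mul]
      have : a' * a' = 1 := Subtype.ext haa
      rw [this, map_one]
    · rw [← map_inv, ← map_inv, ← map_mul, ← map_mul]
      congr 1
      exact Subtype.ext hay
    · have h1 : orderOf (ρ y') ∣ orderOf y' := orderOf_map_dvd ρ y'
      have h2 : orderOf y' = orderOf y := Subgroup.orderOf_mk _ _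
      have h3 : orderOf y ∣ Nat.card K := by
        have := orderOf_dvd_natCard (⟨y, hyK⟩ : K)
        rwa [Subgroup.orderOf_mk] at this
      have h4 : Odd (Nat.card K) := Nat.Coprime.odd_of_right hF.hKc
      exact Odd.of_dvd_nat h4 (h1.trans (h2 ▸ h3))
    · by_contra hcon
      push Not at hcon
      apply hyne
      apply hF.eq_one_of_comm_V hyM
      have hcent : Subgroup.zpowers y ≤ Subgroup.centralizer (V : Set G) := by
        have hQc : (Nat.card (Subgroup.zpowers y)).Coprime 2 := by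
          rw [Nat.card_zpowers]
          have h1 : orderOf y ∣ Nat.card K := by
            have := orderOf_dvd_natCard (⟨y, hyK⟩ : K)
            rwa [Subgroup.orderOf_mk] at this
          exact Nat.Coprime.coprime_dvd_left h1 hF.hKc
        have hBp : IsPGroup 2 B := fun c => ⟨1, Subtype.ext (by simpa using hAp c (hBA c.2))⟩
        refine Cfsg.Agent.H01.thompson_PxQ 2 B (Subgroup.zpowers y) V hBp hQc (Cfsg.Agent.H02.ea_isPGroup hF.hV)
          (fun c hc => mem_centralizer_zpowers (hycB c hc).symm) (hBA.trans (hAM.trans hF.hHV))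
          (Subgroup.zpowers_le.mpr (hF.hHV hyM)) (fun v hv => ?_)
        refine mem_centralizer_zpowers ?_
        have h1 : ρ y' ⟨v, hv.1⟩ = ⟨v, hv.1⟩ := hcon ⟨v, hv.1⟩ (Subgroup.mem_subgroupOf.mpr hv)
        have h2 : y * v * y⁻¹ = v := congrArg Subtype.val h1
        calc y * v = (y * v * y⁻¹) * y := by group
          _ = v * y := by rw [h2]
      intro v hv
      exact (Subgroup.mem_centralizer_iff.mp (hcent (Subgroup.mem_zpowers y)) v hv).symm ▸ rfl
    · intro K₀ hK₀ hKa hKy hy3 hne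
      apply hs3
      refine involves_s3_of_klein ρ K₀ hK₀ hKa hKy hy3 hne ?_
      rw [← map_inv, ← map_inv, ← map_mul, ← map_mul]
      congr 1
      exact Subtype.ext hay
    · intro u hu
      rw [Subgroup.mem_subgroupOf] at hu
      have h1 := Subgroup.mem_centralizer_iff.mp hu.2 a ha
      apply Subtype.ext
      rw [hρ]
      change a * (u : G) * a⁻¹ = u
      rw [h1]
      group
  rw [hcardU, hcardY] at hmain
  calc Nat.card A ^ 2 * Nat.card ↥(V ⊓ Subgroup.centralizer (A : Set G))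
      = Nat.card B ^ 2 * (4 * Nat.card ↥(V ⊓ Subgroup.centralizer (A : Set G))) := by rw [hcard]; ring
    _ ≤ Nat.card B ^ 2 * Nat.card ↥(V ⊓ Subgroup.centralizer (B : Set G)) := Nat.mul_le_mul_left _ hmain
    _ ≤ Nat.card V := hIH

end Bound

end Cfsg.Agent.H14
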