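import Mathlib

/-!
# The real Schrödinger model of the plus type extraspecial 2-group
-/

set_option autoImplicit false
set_option linter.unusedSectionVars false
set_option linter.style.longLine false

namespace Cfsg.Agent.H14.CG

open Matrix

/-- The sign of an element of `ZMod 2`. -/
def sgn (s : ZMod 2) : ℝ := if s = 0 then 1 else -1

lemma zmod2_cases (s : ZMod 2) : s = 0 ∨ s = 1 := by
  revert s; decide

@[simp] lemma sgn_zero : sgn 0 = 1 := by simp [sgn]
@[simp] lemma sgn_one : sgn 1 = -1 := by simp [sgn]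

lemma sgn_add (s t : ZMod 2) : sgn (s + t) = sgn s * sgn t := by
  rcases zmod2_cases s with rfl | rfl <;> rcases zmod2_cases t with rfl | rfl
  · simp
  · simp
  · simp
  · have : (1 : ZMod 2) + 1 = 0 := by decide
    rw [this]; simp

lemma sgn_mul_self (s : ZMod 2) : sgn s * sgn s = 1 := by
  rcases zmod2_cases s with rfl | rfl <;> simp

lemma sgn_ne_zero (s : ZMod 2) : sgn s ≠ 0 := by
  rcases zmod2_cases s with rfl | rfl <;> simp

lemma sgn_inj {s t : ZMod 2} (h : sgn s = sgn t) : s = t := by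
  rcases zmod2_cases s with rfl | rfl <;> rcases zmod2_cases t with rfl | rfl
  · rfl
  · simp at h; norm_num at h
  · simp at h; norm_num at h
  · rfl

variable (n : ℕ)

/-- Coordinates. -/
abbrev EE := Fin n → ZMod 2

/-- The `2n`-dimensional space. -/
abbrev SS := EE n × EE n

variable {n}

/-- The standard plus type quadratic form. -/
def q0 (u : SS n) : ZMod 2 := u.1 ⬝ᵥ u.2

/-- The standard cocycle. -/
def bt (u v : SS n) : ZMod 2 := u.1 ⬝ᵥ v.2

/-- Signed permutation matrices. -/
def PP (u : SS n) (s : ZMod 2) : Matrix (EE n) (EE n) ℝ :=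
  fun z w => if w = z + u.1 then sgn (s + u.2 ⬝ᵥ z) else 0

lemma PP_apply (u : SS n) (s : ZMod 2) (z w : EE n) :
    PP u s z w = if w = z + u.1 then sgn (s + u.2 ⬝ᵥ z) else 0 := rfl

lemma two_eq_zero' (a : EE n) : a + a = 0 := by
  ext i
  simp only [Pi.add_apply, Pi.zero_apply]
  exact CharTwo.add_self_eq_zero _

lemma PP_mul (u v : SS n) (s t : ZMod 2) : PP u s * PP v t = PP (u + v) (s + t + bt u v) := by
  ext z w
  rw [Matrix.mul_apply]
  simp only [PP_apply, ite_mul, zero_mul, Finset.sum_ite_eq', Finset.mem_univ, if_true]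
  simp only [Prod.fst_add, Prod.snd_add, add_assoc]
  by_cases h : w = z + (u.1 + v.1)
  · rw [if_pos h, if_pos h, ← sgn_add]
    congr 1
    simp only [bt, dotProduct_add, add_dotProduct]
    rw [dotProduct_comm v.2 u.1]
    ring
  · rw [if_neg h, if_neg h, mul_zero]

lemma PP_add_right (u : SS n) (s t : ZMod 2) : PP u (s + t) = sgn t • PP u s := by
  ext z w
  simp only [PP_apply, Matrix.smul_apply, smul_eq_mul]
  split_ifs
  · rw [add_right_comm, sgn_add, mul_comm]
  · simp

lemma PP_zero_zero : PP (0 : SS n) 0 = 1 := by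
  ext z w
  simp only [PP_apply, Prod.fst_zero, add_zero, Prod.snd_zero, zero_dotProduct, sgn_zero, Matrix.one_apply]
  by_cases h : w = z
  · rw [if_pos h, if_pos h.symm]
  · rw [if_neg h, if_neg (Ne.symm h)]

lemma PP_transpose (u : SS n) (s : ZMod 2) : (PP u s)ᵀ = PP u (s + q0 u) := by
  ext z w
  simp only [Matrix.transpose_apply, PP_apply]
  have h2 := two_eq_zero' u.1
  by_cases h : w = z + u.1
  · have h1 : z = w + u.1 := by rw [h, add_assoc, h2, add_zero]
    rw [if_pos h1, if_pos h, h]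
    congr 1
    simp only [q0, dotProduct_add]
    rw [dotProduct_comm u.2 u.1]
    ring
  · have h1 : ¬ z = w + u.1 := by
      intro h1
      apply h
      rw [h1, add_assoc, h2, add_zero]
    rw [if_neg h1, if_neg h]

lemma bt_self (u : SS n) : bt u u = q0 u := rfl

lemma add_self_SS (u : SS n) : u + u = 0 := Prod.ext (two_eq_zero' _) (two_eq_zero' _)

lemma zadd_self (s : ZMod 2) : s + s = 0 := CharTwo.add_self_eq_zero s

lemma PP_transpose_mul (u : SS n) (s : ZMod 2) : (PP u s)ᵀ * PP u s = 1 := by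
  rw [PP_transpose, PP_mul, add_self_SS, bt_self]
  have : s + q0 u + s + q0 u = 0 := by
    have h1 := zadd_self s
    have h2 := zadd_self (q0 u)
    calc s + q0 u + s + q0 u = (s + s) + (q0 u + q0 u) := by ring
      _ = 0 := by rw [h1, h2, add_zero]
  rw [this, PP_zero_zero]

lemma PP_mul_transpose (u : SS n) (s : ZMod 2) : PP u s * (PP u s)ᵀ = 1 :=
  mul_eq_one_comm.1 (PP_transpose_mul u s)

/-- Nondegeneracy of the dot product. -/
lemma exists_dot_ne {x y : EE n} (h : x ≠ y) : ∃ a : EE n, a ⬝ᵥ x ≠ a ⬝ᵥ y := by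
  by_contra hcon
  push Not at hcon
  apply h
  funext i
  have := hcon (Pi.single i 1)
  simpa [single_dotProduct] using this

lemma PP_inj {u v : SS n} {s t : ZMod 2} (h : PP u s = PP v t) : u = v ∧ s = t := by
  have h0 : ∀ z w, PP u s z w = PP v t z w := fun z w => by rw [h]
  have h1 : u.1 = v.1 := by
    have := h0 0 u.1
    simp only [PP_apply, zero_add, if_true] at this
    by_contra hne
    rw [if_neg hne] at this
    exact sgn_ne_zero _ this
  have h2 : ∀ z, s + u.2 ⬝ᵥ z = t + v.2 ⬝ᵥ z := by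
    intro z
    have := h0 z (z + u.1)
    simp only [PP_apply, if_true] at this
    rw [if_pos (by rw [h1])] at this
    exact sgn_inj this
  have h3 : s = t := by simpa using h2 0
  refine ⟨Prod.ext h1 ?_, h3⟩
  by_contra hne
  obtain ⟨a, ha⟩ := exists_dot_ne hne
  apply ha
  have := h2 a
  rw [h3] at this
  have h4 := add_left_cancel this
  rw [dotProduct_comm a, dotProduct_comm a]
  exact h4

/-- Character sum. -/
lemma sum_sgn_dot {y : EE n} (hy : y ≠ 0) : ∑ z : EE n, sgn (y ⬝ᵥ z) = 0 := by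
  obtain ⟨a, ha⟩ := exists_dot_ne hy
  have ha1 : a ⬝ᵥ y = 1 := by
    rcases zmod2_cases (a ⬝ᵥ y) with h | h
    · exact absurd (by rw [h]; simp) ha
    · exact h
  have h1 : ∑ z : EE n, sgn (y ⬝ᵥ z) = ∑ z : EE n, sgn (y ⬝ᵥ (z + a)) :=
    (Equiv.sum_comp (Equiv.addRight a) _).symm
  have h2 : ∑ z : EE n, sgn (y ⬝ᵥ (z + a)) = - ∑ z : EE n, sgn (y ⬝ᵥ z) := by
    rw [← Finset.sum_neg_distrib]
    refine Finset.sum_congr rfl (fun z _ => ?_)
    rw [dotProduct_add, sgn_add, dotProduct_comm y a, ha1, sgn_one]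
    ring
  linarith

/-- The trace. -/
lemma PP_diag_sum (u : SS n) (hu : u ≠ 0) : ∑ z : EE n, PP u 0 z z = 0 := by
  simp only [PP_apply]
  by_cases h1 : u.1 = 0
  · have h2 : u.2 ≠ 0 := fun h2 => hu (Prod.ext h1 h2)
    simp only [h1, add_zero, if_true, zero_add]
    exact sum_sgn_dot h2
  · apply Finset.sum_eq_zero
    intro z _
    rw [if_neg]
    intro h
    apply h1
    have := add_left_cancel (a := z) (b := 0) (c := u.1) (by rw [add_zero]; exact h)
    exact this.symm

lemma PP_diag_sum_zero : ∑ z : EE n, PP (0 : SS n) 0 z z = Fintype.card (EE n) := by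
  rw [PP_zero_zero]
  simp [Matrix.one_apply]

/-- Commutant: a matrix commuting with all `PP u 0` is scalar. -/
lemma commutant_scalar (M : Matrix (EE n) (EE n) ℝ) (hM : ∀ u : SS n, M * PP u 0 = PP u 0 * M) :
    ∃ c : ℝ, M = c • (1 : Matrix (EE n) (EE n) ℝ) := by
  have hent : ∀ (u : SS n) (z w : EE n),
      M z (w + u.1) * sgn (u.2 ⬝ᵥ (w + u.1)) = sgn (u.2 ⬝ᵥ z) * M (z + u.1) w := by
    intro u z w
    have h := congrFun (congrFun (hM u) z) w
    rw [Matrix.mul_apply, Matrix.mul_apply] at h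
    simp only [PP_apply, zero_add, ite_mul, zero_mul, Finset.sum_ite_eq', Finset.mem_univ, if_true] at h
    rw [← h]
    have h2 := two_eq_zero' u.1
    rw [Finset.sum_eq_single (w + u.1)]
    · rw [if_pos (by rw [add_assoc, h2, add_zero])]
    · intro b _ hb
      rw [if_neg, mul_zero]
      intro hw
      apply hb
      rw [hw, add_assoc, h2, add_zero]
    · simp
  have hoff : ∀ z w : EE n, z ≠ w → M z w = 0 := by
    intro z w hzw
    obtain ⟨a, ha⟩ := exists_dot_ne hzw
    have h := hent (0, a) z w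
    simp only [add_zero] at h
    rcases zmod2_cases (a ⬝ᵥ z) with h1 | h1 <;> rcases zmod2_cases (a ⬝ᵥ w) with h2 | h2
    · exact absurd (h1.trans h2.symm) ha
    · rw [h1, h2] at h
      simp at h
      linarith
    · rw [h1, h2] at h
      simp at h
      linarith
    · exact absurd (h1.trans h2.symm) ha
  have hdiag : ∀ z : EE n, M z z = M 0 0 := by
    intro z
    have h := hent (z, 0) 0 z
    simp only [zero_dotProduct, sgn_zero, mul_one, one_mul, zero_add] at h
    rw [two_eq_zero' z] at h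
    exact h.symm
  refine ⟨M 0 0, ?_⟩
  ext z w
  simp only [Matrix.smul_apply, Matrix.one_apply, smul_eq_mul]
  by_cases h : z = w
  · subst h
    simp [hdiag]
  · rw [if_neg h, hoff z w h, mul_zero]

end Cfsg.Agent.H14.CG
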