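import Cfsg.Agent.Lib.H14.CG1

/-!
# Intertwiners for the real Schrödinger model
-/

set_option autoImplicit false
set_option linter.unusedSectionVars false
set_option linter.style.longLine false

namespace Cfsg.Agent.H14.CG

open Matrix

variable {n : ℕ}

lemma PP_sgn (u : SS n) (s : ZMod 2) : PP u s = sgn s • PP u 0 := by
  have := PP_add_right u 0 s
  rwa [zero_add] at this

/-- The averaged matrix. -/
noncomputable def TA (g : SS n → SS n) (lam : SS n → ZMod 2) (A : Matrix (EE n) (EE n) ℝ) :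
    Matrix (EE n) (EE n) ℝ :=
  ∑ u : SS n, sgn (lam u) • (PP (g u) 0 * A * (PP u 0)ᵀ)

lemma TA_intertwine (g : SS n → SS n) (hgadd : ∀ u v, g (u + v) = g u + g v) (lam : SS n → ZMod 2)
    (hl : ∀ u v, lam (u + v) = lam u + lam v + bt (g v) (g u) + bt v u)
    (A : Matrix (EE n) (EE n) ℝ) (v : SS n) :
    TA g lam A * PP v 0 = PP (g v) (lam v) * TA g lam A := by
  unfold TA
  rw [Finset.sum_mul, Finset.mul_sum]
  rw [← Equiv.sum_comp (Equiv.addLeft v)]
  refine Finset.sum_congr rfl (fun u _ => ?_)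
  simp only [Equiv.coe_addLeft]
  -- the transposed product
  have h1 : (PP (v + u) 0)ᵀ * PP v 0 = sgn (bt v u) • (PP u 0)ᵀ := by
    have h2 : PP v 0 * PP u 0 = sgn (bt v u) • PP (v + u) 0 := by
      rw [PP_mul, add_zero, zero_add, PP_sgn]
    have h3 : PP (v + u) 0 = sgn (bt v u) • (PP v 0 * PP u 0) := by
      rw [h2, smul_smul, sgn_mul_self, one_smul]
    rw [h3, Matrix.transpose_smul, Matrix.transpose_mul, Matrix.smul_mul, mul_assoc,
      PP_transpose_mul, mul_one]
  have h4 : PP (g v) (lam v) * PP (g u) 0 = sgn (lam v + bt (g v) (g u)) • PP (g v + g u) 0 := by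
    rw [PP_mul, add_zero, PP_sgn]
  rw [hgadd]
  rw [Matrix.smul_mul, Matrix.mul_smul]
  rw [mul_assoc (PP (g v + g u) 0 * A), h1]
  rw [Matrix.mul_smul, ← mul_assoc (PP (g v) (lam v)), ← mul_assoc (PP (g v) (lam v)), h4]
  rw [Matrix.smul_mul, Matrix.smul_mul, smul_smul, smul_smul]
  congr 1
  rw [add_comm v u, hl, ← sgn_add, ← sgn_add]
  congr 1
  have := zadd_self (bt v u)
  linear_combination this

lemma single_mul_apply' (X Y : Matrix (EE n) (EE n) ℝ) (i j k l : EE n) :
    (X * Matrix.single i j (1 : ℝ) * Y) k l = X k i * Y j l := by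
  rw [Matrix.mul_apply]
  simp only [Matrix.mul_apply, Matrix.single_apply, mul_ite, mul_one, mul_zero]
  rw [Finset.sum_eq_single j]
  · simp only [true_and, and_true]
    rw [Finset.sum_eq_single i]
    · simp
    · intro b _ hb
      simp [Ne.symm hb]
    · simp
  · intro b _ hb
    simp [Ne.symm hb]
  · simp

lemma exists_TA_ne (g : SS n → SS n) (hg0 : g 0 = 0) (lam : SS n → ZMod 2) (hl0 : lam 0 = 0) :
    ∃ A, TA g lam A ≠ 0 := by
  by_contra hcon
  push Not at hcon
  have hsum : ∑ i : EE n, ∑ j : EE n, (TA g lam (Matrix.single i j (1 : ℝ))) i j = 0 := by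
    simp [hcon]
  have hent : ∀ i j : EE n, (TA g lam (Matrix.single i j (1 : ℝ))) i j =
      ∑ u : SS n, sgn (lam u) * (PP (g u) 0 i i * PP u 0 j j) := by
    intro i j
    unfold TA
    rw [Matrix.sum_apply]
    refine Finset.sum_congr rfl (fun u _ => ?_)
    rw [Matrix.smul_apply, smul_eq_mul, single_mul_apply', Matrix.transpose_apply]
  have h2 : ∑ i : EE n, ∑ j : EE n, (TA g lam (Matrix.single i j (1 : ℝ))) i j =
      ∑ u : SS n, sgn (lam u) * ((∑ i : EE n, PP (g u) 0 i i) * (∑ j : EE n, PP u 0 j j)) := by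
    simp only [hent]
    have h3 : ∀ i : EE n, ∑ j : EE n, ∑ u : SS n, sgn (lam u) * (PP (g u) 0 i i * PP u 0 j j) =
        ∑ u : SS n, ∑ j : EE n, sgn (lam u) * (PP (g u) 0 i i * PP u 0 j j) :=
      fun i => Finset.sum_comm
    simp_rw [h3]
    rw [Finset.sum_comm]
    refine Finset.sum_congr rfl (fun u _ => ?_)
    rw [Finset.sum_mul_sum, Finset.mul_sum]
    refine Finset.sum_congr rfl (fun i _ => ?_)
    rw [Finset.mul_sum]
  rw [h2, Finset.sum_eq_single (0 : SS n)] at hsum
  · rw [hg0, hl0, PP_diag_sum_zero, sgn_zero, one_mul] at hsum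
    have hN : (Fintype.card (EE n) : ℝ) ≠ 0 := by
      exact_mod_cast Fintype.card_ne_zero
    exact (mul_ne_zero hN hN) hsum
  · intro u _ hu
    rw [PP_diag_sum u hu, mul_zero, mul_zero]
  · simp

/-- **Intertwiner**: from a lift, a real orthogonal intertwiner. -/
theorem exists_T (g : SS n → SS n) (hg0 : g 0 = 0) (hgadd : ∀ u v, g (u + v) = g u + g v)
    (hq : ∀ u, q0 (g u) = q0 u) (lam : SS n → ZMod 2) (hl0 : lam 0 = 0)
    (hl : ∀ u v, lam (u + v) = lam u + lam v + bt (g v) (g u) + bt v u) :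
    ∃ T : Matrix (EE n) (EE n) ℝ, T * Tᵀ = 1 ∧ ∀ v, T * PP v 0 = PP (g v) (lam v) * T := by
  obtain ⟨A, hA⟩ := exists_TA_ne g hg0 lam hl0
  set T₀ := TA g lam A with hT₀
  have hI : ∀ v, T₀ * PP v 0 = PP (g v) (lam v) * T₀ := fun v => TA_intertwine g hgadd lam hl A v
  have hI' : ∀ v, PP v 0 * T₀ᵀ = T₀ᵀ * PP (g v) (lam v) := by
    intro v
    have h := congrArg Matrix.transpose (hI v)
    rw [Matrix.transpose_mul, Matrix.transpose_mul, PP_transpose, PP_transpose, hq, zero_add,
      PP_sgn v (q0 v), PP_add_right (g v) (lam v) (q0 v), Matrix.smul_mul, Matrix.mul_smul] at h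
    have h5 := congrArg (fun X => sgn (q0 v) • X) h
    simpa only [smul_smul, sgn_mul_self, one_smul] using h5
  have hcomm : ∀ v : SS n, (T₀ᵀ * T₀) * PP v 0 = PP v 0 * (T₀ᵀ * T₀) := by
    intro v
    rw [mul_assoc, hI, ← mul_assoc, ← mul_assoc, hI']
  obtain ⟨c, hc⟩ := commutant_scalar _ hcomm
  have hdiag : ∀ z : EE n, ∑ w : EE n, T₀ w z * T₀ w z = c := by
    intro z
    have h := congrFun (congrFun hc z) z
    rw [Matrix.mul_apply] at h
    simpa [Matrix.transpose_apply, Matrix.one_apply] using h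
  have hc0 : 0 < c := by
    have hnn : 0 ≤ c := by
      rw [← hdiag 0]
      exact Finset.sum_nonneg (fun w _ => mul_self_nonneg _)
    refine lt_of_le_of_ne hnn (fun h0 => hA ?_)
    ext w z
    have h := hdiag z
    rw [← h0] at h
    have h2 := (Finset.sum_eq_zero_iff_of_nonneg (fun w _ => mul_self_nonneg (T₀ w z))).1 h w (Finset.mem_univ w)
    simpa using h2
  set r := (Real.sqrt c)⁻¹ with hr
  have hr2 : r * r * c = 1 := by
    rw [hr, ← mul_inv, Real.mul_self_sqrt hc0.le, inv_mul_cancel₀ hc0.ne']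
  refine ⟨r • T₀, ?_, fun v => ?_⟩
  · apply mul_eq_one_comm.1
    rw [Matrix.transpose_smul, Matrix.smul_mul, Matrix.mul_smul, hc, smul_smul, smul_smul, hr2, one_smul]
  · rw [Matrix.smul_mul, Matrix.mul_smul, hI]

/-- Quadratic refinement of an alternating form. -/
theorem exists_lam {V : Type*} [AddCommGroup V] [Module (ZMod 2) V] [Module.Finite (ZMod 2) V]
    (γ : V →ₗ[ZMod 2] V →ₗ[ZMod 2] ZMod 2) (hγ : ∀ u, γ u u = 0) :
    ∃ lam : V → ZMod 2, lam 0 = 0 ∧ ∀ u v, lam (u + v) = lam u + lam v + γ u v := by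
  classical
  let b := Module.finBasis (ZMod 2) V
  let d := Module.finrank (ZMod 2) V
  have hsymm : ∀ a c : V, γ a c = γ c a := by
    intro a c
    have h := hγ (a + c)
    simp only [map_add, LinearMap.add_apply, hγ, zero_add, add_zero] at h
    have h2 := zadd_self (γ c a)
    linear_combination h - h2
  let L : Fin d → Fin d → ZMod 2 := fun i j => if i < j then γ (b i) (b j) else 0
  let lam : V → ZMod 2 := fun u => ∑ i, ∑ j, L i j * (b.repr u i * b.repr u j)
  have hexp : ∀ u v : V, γ u v = ∑ i, ∑ j, (b.repr u i * b.repr v j) * γ (b i) (b j) := by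
    intro u v
    conv_lhs => rw [← b.sum_repr u, ← b.sum_repr v]
    simp only [map_sum, LinearMap.sum_apply, map_smul, LinearMap.smul_apply, smul_eq_mul]
    simp only [Finset.mul_sum]
    rw [Finset.sum_comm]
    refine Finset.sum_congr rfl (fun i _ => Finset.sum_congr rfl (fun j _ => ?_))
    ring
  refine ⟨lam, by simp [lam], fun u v => ?_⟩
  have h1 : ∀ i j, L i j * ((b.repr (u + v) i) * (b.repr (u + v) j)) =
      L i j * (b.repr u i * b.repr u j) + L i j * (b.repr v i * b.repr v j)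
        + L i j * (b.repr u i * b.repr v j) + L i j * (b.repr v i * b.repr u j) := by
    intro i j
    simp only [map_add, Finsupp.add_apply]
    ring
  have h2 : ∑ i, ∑ j, L i j * (b.repr v i * b.repr u j) = ∑ i, ∑ j, L j i * (b.repr u i * b.repr v j) := by
    rw [Finset.sum_comm]
    refine Finset.sum_congr rfl (fun i _ => Finset.sum_congr rfl (fun j _ => ?_))
    ring
  have h3 : ∀ i j, L i j + L j i = γ (b i) (b j) := by
    intro i j
    simp only [L]
    rcases lt_trichotomy i j with h | h | h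
    · rw [if_pos h, if_neg (not_lt.2 h.le), add_zero]
    · subst h
      simp [hγ]
    · rw [if_neg (not_lt.2 h.le), if_pos h, zero_add, hsymm]
  have key : ∑ i, ∑ j, L i j * (b.repr u i * b.repr v j) + ∑ i, ∑ j, L i j * (b.repr v i * b.repr u j) = γ u v := by
    rw [h2, hexp u v, ← Finset.sum_add_distrib]
    refine Finset.sum_congr rfl (fun i _ => ?_)
    rw [← Finset.sum_add_distrib]
    refine Finset.sum_congr rfl (fun j _ => ?_)
    rw [← h3 i j]
    ring
  simp only [lam, h1, Finset.sum_add_distrib]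
  rw [← key]
  ring

end Cfsg.Agent.H14.CG
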