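import Cfsg.Agent.Lib.H14.CG2

/-!
# Hyperbolic coordinates for plus type forms over the field with two elements
-/

set_option autoImplicit false
set_option linter.unusedSectionVars false
set_option linter.style.longLine false

namespace Cfsg.Agent.H14.CG

open Matrix

variable {n : ℕ}

/-- Intertwiner for a linear isometry. -/
theorem exists_T_lin (g : SS n →ₗ[ZMod 2] SS n) (hq : ∀ u, q0 (g u) = q0 u) :
    ∃ T : Matrix (EE n) (EE n) ℝ, ∃ lam : SS n → ZMod 2, T * Tᵀ = 1 ∧
      ∀ v, T * PP v 0 = PP (g v) (lam v) * T := by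
  let γ : SS n →ₗ[ZMod 2] SS n →ₗ[ZMod 2] ZMod 2 :=
    LinearMap.mk₂ (ZMod 2) (fun u v => bt (g v) (g u) + bt v u)
      (fun a b c => by
        simp only [bt, map_add, Prod.snd_add, dotProduct_add]
        ring)
      (fun c a b => by
        simp only [bt, map_smul, Prod.smul_snd, dotProduct_smul, smul_eq_mul]
        ring)
      (fun a b c => by
        simp only [bt, map_add, Prod.fst_add, add_dotProduct]
        ring)
      (fun c a b => by
        simp only [bt, map_smul, Prod.smul_fst, smul_dotProduct, smul_eq_mul]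
        ring)
  have hγ : ∀ u v, γ u v = bt (g v) (g u) + bt v u := fun _ _ => rfl
  obtain ⟨lam, hl0, hl⟩ := exists_lam γ (fun u => by
    rw [hγ, bt_self, bt_self, hq]
    exact zadd_self _)
  obtain ⟨T, h1, h2⟩ := exists_T (⇑g) (map_zero g) (map_add g) hq lam hl0 (fun u v => by
    rw [hl, hγ]; ring)
  exact ⟨T, lam, h1, h2⟩

section Coords

variable {U : Type*} [AddCommGroup U] [Module (ZMod 2) U] [Module.Finite (ZMod 2) U]

/-- Hyperbolic coordinates. -/
theorem exists_coords (hn : Module.finrank (ZMod 2) U = 2 * n) (q : QuadraticForm (ZMod 2) U)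
    (hnd : (QuadraticMap.polarBilin q).Nondegenerate)
    (hplus : ∃ W : Submodule (ZMod 2) U, Module.finrank (ZMod 2) ↥W = n ∧ ∀ w ∈ W, q w = 0) :
    ∃ φ : SS n ≃ₗ[ZMod 2] U, ∀ u, q (φ u) = q0 u := by
  classical
  obtain ⟨W, hW, hq⟩ := hplus
  let b : Module.Basis (Fin n) (ZMod 2) W := Module.finBasisOfFinrankEq (ZMod 2) W hW
  let B := QuadraticMap.polarBilin q
  have hB : ∀ x y, B x y = q (x + y) - q x - q y := fun x y => rfl
  have hadd : ∀ x y, q (x + y) = q x + q y + B x y := by
    intro x y
    rw [hB]; ring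
  have hBs : ∀ x y, B x y = B y x := by
    intro x y
    rw [hB, hB, add_comm x y]; ring
  have h2U : ∀ x : U, x + x = 0 := by
    intro x
    have : (2 : ZMod 2) • x = 0 := by
      have h : (2 : ZMod 2) = 0 := by decide
      rw [h, zero_smul]
    rwa [two_smul] at this
  have hz2 : ∀ a : ZMod 2, a + a = 0 := zadd_self
  have hBa : ∀ x, B x x = 0 := by
    intro x
    have h := hadd x x
    rw [h2U, QuadraticMap.map_zero] at h
    rw [hz2, zero_add] at h
    exact h.symm
  have hWW : ∀ x ∈ W, ∀ y ∈ W, B x y = 0 := by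
    intro x hx y hy
    rw [hB, hq _ (W.add_mem hx hy), hq x hx, hq y hy]
    simp
  -- injectivity and surjectivity of `B`
  have hinj : Function.Injective B := by
    intro x y hxy
    have : x - y = 0 := by
      apply hnd.1
      intro z
      rw [map_sub, hxy, sub_self]
      rfl
    exact sub_eq_zero.1 this
  have hsurj : Function.Surjective B :=
    (LinearMap.injective_iff_surjective_of_finrank_eq_finrank
      (Subspace.dual_finrank_eq (K := ZMod 2) (V := U)).symm).1 hinj
  -- dual vectors
  have hex : ∀ i, ∃ f : U, ∀ w : W, B f (w : U) = b.coord i w := by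
    intro i
    obtain ⟨g, hg⟩ := LinearMap.exists_extend (b.coord i)
    obtain ⟨f, hf⟩ := hsurj g
    refine ⟨f, fun w => ?_⟩
    rw [hf, ← hg]
    rfl
  choose f hf using hex
  let w : Fin n → U := fun i => (b i : U)
  have hwW : ∀ i, w i ∈ W := fun i => (b i).2
  have hfw : ∀ i j, B (f i) (w j) = if i = j then 1 else 0 := by
    intro i j
    rw [hf i (b j), Module.Basis.coord_apply, Module.Basis.repr_self_apply]
    by_cases h : i = j
    · subst h; simp
    · rw [if_neg h, if_neg (Ne.symm h)]
  let c : Fin n → Fin n → ZMod 2 := fun i j =>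
    if i = j then q (f i) else if i < j then B (f i) (f j) else 0
  let a : Fin n → U := fun i => ∑ j, c i j • w j
  have haW : ∀ i, a i ∈ W := fun i => W.sum_mem (fun j _ => W.smul_mem _ (hwW j))
  have hfa : ∀ i k, B (f i) (a k) = c k i := by
    intro i k
    simp only [a, map_sum, map_smul, hfw, smul_eq_mul, mul_ite, mul_one, mul_zero]
    simp
  let f' : Fin n → U := fun i => f i + a i
  have hwf' : ∀ i j, B (w j) (f' i) = if i = j then 1 else 0 := by
    intro i j
    simp only [f', map_add]
    rw [hWW _ (hwW j) _ (haW i), add_zero, hBs, hfw]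
  have hqf' : ∀ i, q (f' i) = 0 := by
    intro i
    simp only [f']
    rw [hadd, hq _ (haW i), add_zero, hfa]
    simp only [c, if_true]
    exact hz2 _
  have hf'f' : ∀ i k, B (f' i) (f' k) = 0 := by
    intro i k
    by_cases hik : i = k
    · subst hik; exact hBa _
    simp only [f', map_add, LinearMap.add_apply]
    rw [hWW _ (haW i) _ (haW k), add_zero, hfa, hBs (a i), hfa]
    simp only [c]
    rw [if_neg hik, if_neg (Ne.symm hik)]
    rcases lt_or_gt_of_ne hik with h | h
    · rw [if_pos h, if_neg (not_lt.2 h.le), add_zero]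
      exact hz2 _
    · rw [if_neg (not_lt.2 h.le), if_pos h, add_zero, hBs (f k) (f i)]
      exact hz2 _
  -- the sum of the `f'` is singular
  have hqsum : ∀ (y : Fin n → ZMod 2) (s : Finset (Fin n)), q (∑ i ∈ s, y i • f' i) = 0 := by
    intro y s
    induction s using Finset.induction_on with
    | empty => simp
    | insert i s hi ih =>
      rw [Finset.sum_insert hi, hadd, ih, QuadraticMap.map_smul, hqf']
      simp only [map_smul, LinearMap.smul_apply, map_sum, hf'f']
      simp
  let φ₀ : SS n →ₗ[ZMod 2] U :=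
    (Fintype.linearCombination (ZMod 2) w).coprod (Fintype.linearCombination (ZMod 2) f')
  have hφ₀ : ∀ u : SS n, φ₀ u = ∑ i, u.1 i • w i + ∑ i, u.2 i • f' i := by
    intro u
    simp [φ₀, Fintype.linearCombination_apply]
  have hqφ : ∀ u, q (φ₀ u) = q0 u := by
    intro u
    rw [hφ₀, hadd, hq _ (W.sum_mem (fun j _ => W.smul_mem _ (hwW j))), hqsum, zero_add, zero_add]
    simp only [map_sum, map_smul, LinearMap.sum_apply, LinearMap.smul_apply, hwf']
    simp only [q0, dotProduct]
    simp only [smul_eq_mul, mul_ite, mul_one, mul_zero, Finset.sum_ite_eq, Finset.mem_univ, if_true]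
    refine Finset.sum_congr rfl (fun i _ => ?_)
    first | exact mul_comm _ _ | rfl
  have hinjφ : Function.Injective φ₀ := by
    rw [injective_iff_map_eq_zero]
    intro u hu
    have hu2 : u.2 = 0 := by
      funext j
      have h := congrArg (fun x => B x (w j)) hu
      simp only [hφ₀, map_add, LinearMap.add_apply, map_zero, LinearMap.zero_apply] at h
      simp only [map_sum, map_smul, LinearMap.sum_apply, LinearMap.smul_apply, hWW _ (hwW _) _ (hwW j)] at h
      simp only [hBs (f' _) (w j), hwf'] at h
      simpa using h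
    have hu1 : u.1 = 0 := by
      funext j
      have h := congrArg (fun x => B x (f' j)) hu
      simp only [hφ₀, hu2, map_add, LinearMap.add_apply, map_zero, LinearMap.zero_apply] at h
      simp only [map_sum, map_smul, LinearMap.sum_apply, LinearMap.smul_apply, hwf'] at h
      simpa [eq_comm] using h
    exact Prod.ext hu1 hu2
  have hdim : Module.finrank (ZMod 2) (SS n) = Module.finrank (ZMod 2) U := by
    rw [hn, Module.finrank_prod, Module.finrank_fin_fun]
    ring
  have hsurjφ : Function.Surjective φ₀ :=
    (LinearMap.injective_iff_surjective_of_finrank_eq_finrank hdim).1 hinjφ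
  exact ⟨LinearEquiv.ofBijective φ₀ ⟨hinjφ, hsurjφ⟩, hqφ⟩

end Coords

end Cfsg.Agent.H14.CG
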