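import Cfsg.Agent.Lib.H14.CG3
import Cfsg.Agent.Lib.H18.Special

/-!
# The extension of the extraspecial group by a group of isometries
-/

set_option autoImplicit false
set_option linter.unusedSectionVars false
set_option linter.style.longLine false

namespace Cfsg.Agent.H14.CG

open Matrix

variable {n : ℕ} {K : Type*} [Group K]

/-- The ambient group. -/
abbrev AA (n : ℕ) := (Matrix (EE n) (EE n) ℝ)ˣ

/-- The signed permutation matrices as units. -/
noncomputable def unitPP (u : SS n) (s : ZMod 2) : AA n :=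
  ⟨PP u s, (PP u s)ᵀ, PP_mul_transpose u s, PP_transpose_mul u s⟩

/-- The data of an isometric action. -/
structure IsoAct (g : K → SS n →ₗ[ZMod 2] SS n) : Prop where
  one : ∀ u, g 1 u = u
  mul : ∀ k k' u, g (k * k') u = g k (g k' u)
  q : ∀ k u, q0 (g k u) = q0 u
  inj : ∀ k k', (∀ u, g k u = g k' u) → k = k'

/-- `T` is orthogonal and covers `k`. -/
structure IsR (g : K → SS n →ₗ[ZMod 2] SS n) (T : AA n) (k : K) : Prop where
  orth : T.val * T.valᵀ = 1
  conj : ∀ v, ∃ s, T.val * PP v 0 = PP (g k v) s * T.val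

lemma inv_val_of_orth {T : AA n} (h : T.val * T.valᵀ = 1) : (T⁻¹ : AA n).val = T.valᵀ := by
  calc (T⁻¹ : AA n).val = (T⁻¹ : AA n).val * (T.val * T.valᵀ) := by rw [h, mul_one]
    _ = T.valᵀ := by
      rw [← mul_assoc, Units.inv_mul, one_mul]

section

variable {g : K → SS n →ₗ[ZMod 2] SS n} (hg : IsoAct g)
include hg

lemma IsR.one_mem : IsR g (1 : AA n) 1 :=
  ⟨by simp, fun v => ⟨0, by simp [hg.one]⟩⟩

lemma IsR.mul' {T T' : AA n} {k k' : K} (h : IsR g T k) (h' : IsR g T' k') :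
    IsR g (T * T') (k * k') := by
  refine ⟨?_, fun v => ?_⟩
  · rw [Units.val_mul, Matrix.transpose_mul, mul_assoc, ← mul_assoc T'.val, h'.orth, one_mul, h.orth]
  · obtain ⟨s', hs'⟩ := h'.conj v
    obtain ⟨s, hs⟩ := h.conj (g k' v)
    refine ⟨s + s', ?_⟩
    rw [Units.val_mul, mul_assoc, hs', ← mul_assoc, PP_sgn (g k' v) s', Matrix.mul_smul, hs, hg.mul,
      PP_add_right, Matrix.smul_mul, Matrix.smul_mul, mul_assoc]

lemma IsR.inv' {T : AA n} {k : K} (h : IsR g T k) : IsR g T⁻¹ k⁻¹ := by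
  have hinv := inv_val_of_orth h.orth
  refine ⟨?_, fun v => ?_⟩
  · rw [hinv, Matrix.transpose_transpose]
    exact mul_eq_one_comm.1 h.orth
  · obtain ⟨s, hs⟩ := h.conj (g k⁻¹ v)
    rw [← hg.mul, mul_inv_cancel, hg.one] at hs
    refine ⟨s, ?_⟩
    have h1 : (T⁻¹ : AA n).val * PP v s = PP (g k⁻¹ v) 0 * (T⁻¹ : AA n).val := by
      calc (T⁻¹ : AA n).val * PP v s = (T⁻¹ : AA n).val * (PP v s * (T.val * (T⁻¹ : AA n).val)) := by
            rw [Units.mul_inv, mul_one]
        _ = (T⁻¹ : AA n).val * (T.val * PP (g k⁻¹ v) 0) * (T⁻¹ : AA n).val := by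
            rw [hs]; simp only [mul_assoc]
        _ = _ := by rw [← mul_assoc, Units.inv_mul, one_mul]
    rw [PP_sgn v s, Matrix.mul_smul] at h1
    have h2 := congrArg (fun X => sgn s • X) h1
    simp only [smul_smul, sgn_mul_self, one_smul] at h2
    rw [h2, PP_sgn (g k⁻¹ v) s, Matrix.smul_mul]

lemma IsR.unique {T : AA n} {k k' : K} (h : IsR g T k) (h' : IsR g T k') : k = k' := by
  apply hg.inj
  intro u
  obtain ⟨s, hs⟩ := h.conj u
  obtain ⟨s', hs'⟩ := h'.conj u
  have h1 : PP (g k u) s * T.val = PP (g k' u) s' * T.val := hs.symm.trans hs'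
  have h2 : PP (g k u) s = PP (g k' u) s' := by
    have := congrArg (fun X => X * (T⁻¹ : AA n).val) h1
    simpa [mul_assoc] using this
  exact (PP_inj h2).1

end

/-- The group `R`. -/
def Rsub {g : K → SS n →ₗ[ZMod 2] SS n} (hg : IsoAct g) : Subgroup (AA n) where
  carrier := {T | ∃ k, IsR g T k}
  mul_mem' := fun ⟨k, h⟩ ⟨k', h'⟩ => ⟨k * k', IsR.mul' hg h h'⟩
  one_mem' := ⟨1, IsR.one_mem hg⟩
  inv_mem' := fun ⟨k, h⟩ => ⟨k⁻¹, IsR.inv' hg h⟩

section

variable {g : K → SS n →ₗ[ZMod 2] SS n} (hg : IsoAct g)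

/-- The projection to `K`. -/
noncomputable def fR : ↥(Rsub hg) →* K where
  toFun T := T.2.choose
  map_one' := IsR.unique hg (1 : ↥(Rsub hg)).2.choose_spec (IsR.one_mem hg)
  map_mul' x y := IsR.unique hg (x * y).2.choose_spec (IsR.mul' hg x.2.choose_spec y.2.choose_spec)

lemma fR_spec (T : ↥(Rsub hg)) : IsR g T.1 (fR hg T) := T.2.choose_spec

lemma fR_eq {T : ↥(Rsub hg)} {k : K} (h : IsR g T.1 k) : fR hg T = k :=
  IsR.unique hg (fR_spec hg T) h

lemma fR_surj : Function.Surjective (fR hg) := by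
  intro k
  obtain ⟨T, lam, h1, h2⟩ := exists_T_lin (g k) (hg.q k)
  let T' : AA n := ⟨T, Tᵀ, h1, mul_eq_one_comm.1 h1⟩
  have h3 : IsR g T' k := ⟨h1, fun v => ⟨lam v, h2 v⟩⟩
  exact ⟨⟨T', ⟨k, h3⟩⟩, fR_eq hg h3⟩

include hg in
lemma isR_PP (u : SS n) (s : ZMod 2) : IsR g (unitPP u s) 1 := by
  refine ⟨PP_mul_transpose u s, fun v => ⟨bt u v + bt v u, ?_⟩⟩
  change PP u s * PP v 0 = PP (g 1 v) (bt u v + bt v u) * PP u s
  rw [hg.one, PP_mul, PP_mul, add_comm u v]
  congr 1
  have := zadd_self (bt v u)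
  linear_combination -this

end

/-- Additive maps on coordinates. -/
lemma additive_form (c : SS n → ZMod 2) (hc : ∀ u v, c (u + v) = c u + c v) :
    ∃ w : SS n, ∀ v, c v = bt w v + bt v w := by
  let c' : SS n →+ ZMod 2 := AddMonoidHom.mk' c hc
  let L : SS n →ₗ[ZMod 2] ZMod 2 := c'.toZModLinearMap 2
  have hL : ∀ v, L v = c v := fun _ => rfl
  let L1 : (Fin n → ZMod 2) →ₗ[ZMod 2] ZMod 2 := L.comp (LinearMap.inl _ _ _)
  let L2 : (Fin n → ZMod 2) →ₗ[ZMod 2] ZMod 2 := L.comp (LinearMap.inr _ _ _)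
  refine ⟨(fun i => L2 (Pi.single i 1), fun i => L1 (Pi.single i 1)), fun v => ?_⟩
  have h1 : ∀ x, L1 x = x ⬝ᵥ (fun i => L1 (Pi.single i 1)) := by
    intro x
    rw [LinearMap.pi_apply_eq_sum_univ]
    simp only [dotProduct, smul_eq_mul]
    refine Finset.sum_congr rfl (fun i _ => ?_)
    congr 2
    funext j
    simp [Pi.single_apply, eq_comm]
  have h2 : ∀ x, L2 x = (fun i => L2 (Pi.single i 1)) ⬝ᵥ x := by
    intro x
    rw [LinearMap.pi_apply_eq_sum_univ, dotProduct_comm]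
    simp only [dotProduct, smul_eq_mul]
    refine Finset.sum_congr rfl (fun i _ => ?_)
    congr 2
    funext j
    simp [Pi.single_apply, eq_comm]
  have h3 : v = (v.1, 0) + (0, v.2) := by simp
  rw [← hL]
  conv_lhs => rw [h3, map_add]
  change L1 v.1 + L2 v.2 = _
  rw [h1, h2]
  simp only [bt]
  ring

section

variable {g : K → SS n →ₗ[ZMod 2] SS n} (hg : IsoAct g)

include hg in
/-- Elements covering `1` are signed permutation matrices. -/
lemma eq_PP_of_isR_one {T : AA n} (h : IsR g T 1) : ∃ u s, T.val = PP u s := by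
  choose c hc using h.conj
  have hgone : ∀ v, g 1 v = v := hg.one
  simp only [hgone] at hc
  have hTinv : ∀ X Y : Matrix (EE n) (EE n) ℝ, X * T.val = Y * T.val → X = Y := by
    intro X Y hXY
    have := congrArg (fun Z => Z * (T⁻¹ : AA n).val) hXY
    simpa [mul_assoc] using this
  have hadd : ∀ u v, c (u + v) = c u + c v := by
    intro u v
    have h1 : PP u 0 * PP v 0 = PP (u + v) (bt u v) := by
      rw [PP_mul]; simp
    have h2 : T.val * (PP u 0 * PP v 0) = PP u (c u) * (PP v (c v) * T.val) := by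
      rw [← mul_assoc, hc u, mul_assoc, hc v]
    have h3 : T.val * (PP u 0 * PP v 0) = PP (u + v) (c (u + v) + bt u v) * T.val := by
      rw [h1, PP_sgn (u + v) (bt u v), Matrix.mul_smul, hc, PP_add_right, Matrix.smul_mul]
    rw [h2, ← mul_assoc, PP_mul] at h3
    have h4 := (PP_inj (hTinv _ _ h3)).2
    have h5 := zadd_self (bt u v)
    linear_combination -h4
  obtain ⟨w, hw⟩ := additive_form c hadd
  have hcomm : ∀ v, (PP w 0)ᵀ * PP v 0 = sgn (c v) • (PP v 0 * (PP w 0)ᵀ) := by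
    intro v
    rw [PP_transpose, PP_mul, PP_mul, zero_add, add_zero, add_comm v w, zero_add, ← PP_add_right]
    congr 1
    rw [hw v]
    have := zadd_self (bt v w)
    linear_combination -this
  set X := (PP w 0)ᵀ * T.val with hX
  have hXc : ∀ v, X * PP v 0 = PP v 0 * X := by
    intro v
    rw [hX, mul_assoc, hc, PP_sgn v (c v), Matrix.smul_mul, Matrix.mul_smul, ← mul_assoc, hcomm,
      Matrix.smul_mul, smul_smul, sgn_mul_self, one_smul, mul_assoc]
  obtain ⟨μ, hμ⟩ := commutant_scalar X hXc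
  have hT : T.val = μ • PP w 0 := by
    have h1 : PP w 0 * X = T.val := by
      rw [hX, ← mul_assoc, PP_mul_transpose, one_mul]
    rw [← h1, hμ, Matrix.mul_smul, mul_one]
  have hμ2 : μ * μ = 1 := by
    have h1 := h.orth
    rw [hT, Matrix.transpose_smul, Matrix.smul_mul, Matrix.mul_smul, PP_mul_transpose, smul_smul] at h1
    have h2 := congrFun (congrFun h1 0) 0
    simpa using h2
  have hμ3 : μ = 1 ∨ μ = -1 := by
    have : (μ - 1) * (μ + 1) = 0 := by linear_combination hμ2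
    rcases mul_eq_zero.1 this with h | h
    · left; linarith
    · right; linarith
  rcases hμ3 with h1 | h1
  · exact ⟨w, 0, by rw [hT, h1, one_smul]⟩
  · refine ⟨w, 1, ?_⟩
    rw [hT, h1, PP_sgn w 1, sgn_one]

end

/-! ### The extraspecial subgroup -/

section

variable {g : K → SS n →ₗ[ZMod 2] SS n} (hg : IsoAct g)

/-- The elements of the kernel from coordinates. -/
noncomputable def eQfun (x : SS n × ZMod 2) : ↥(fR hg).ker :=
  ⟨⟨unitPP x.1 x.2, ⟨1, isR_PP hg x.1 x.2⟩⟩, fR_eq hg (isR_PP hg x.1 x.2)⟩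

lemma eQfun_val (x : SS n × ZMod 2) : ((eQfun hg x : ↥(Rsub hg)) : AA n).val = PP x.1 x.2 := rfl

lemma eQfun_inj : Function.Injective (eQfun hg) := by
  intro x y h
  have h1 := congrArg (fun a : ↥(fR hg).ker => ((a : ↥(Rsub hg)) : AA n).val) h
  simp only [eQfun_val] at h1
  obtain ⟨h2, h3⟩ := PP_inj h1
  exact Prod.ext h2 h3

lemma eQfun_surj : Function.Surjective (eQfun hg) := by
  intro a
  have h1 : IsR g ((a : ↥(Rsub hg)) : AA n) 1 := by
    have := fR_spec hg (a : ↥(Rsub hg))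
    rwa [show fR hg (a : ↥(Rsub hg)) = 1 from a.2] at this
  obtain ⟨u, s, h2⟩ := eq_PP_of_isR_one hg h1
  refine ⟨(u, s), ?_⟩
  apply Subtype.ext
  apply Subtype.ext
  apply Units.ext
  exact h2.symm

/-- The parametrization of the kernel. -/
noncomputable def eQ : SS n × ZMod 2 ≃ ↥(fR hg).ker :=
  Equiv.ofBijective (eQfun hg) ⟨eQfun_inj hg, eQfun_surj hg⟩

lemma eQ_val (x : SS n × ZMod 2) : ((eQ hg x : ↥(Rsub hg)) : AA n).val = PP x.1 x.2 := rfl

lemma eQ_mul (u v : SS n) (s t : ZMod 2) :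
    eQ hg (u, s) * eQ hg (v, t) = eQ hg (u + v, s + t + bt u v) := by
  apply Subtype.ext
  apply Subtype.ext
  apply Units.ext
  exact PP_mul u v s t

lemma eQ_ext {a b : ↥(fR hg).ker} (h : ((a : ↥(Rsub hg)) : AA n).val = ((b : ↥(Rsub hg)) : AA n).val) : a = b := by
  apply Subtype.ext
  apply Subtype.ext
  exact Units.ext h

end

end Cfsg.Agent.H14.CG
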