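import Cfsg.Agent.Lib.H14.CG4

/-!
# The extension of the extraspecial group by a group of isometries: the assembly
-/

set_option autoImplicit false
set_option linter.unusedSectionVars false
set_option linter.style.longLine false

namespace Cfsg.Agent.H14.CG

open Matrix

variable {n : ℕ} {K : Type*} [Group K]

theorem main_abs [Finite K] (hn1 : 1 ≤ n) {g : K → SS n →ₗ[ZMod 2] SS n} (hg : IsoAct g) :
    ∃ (R : Type) (_ : Group R) (_ : Finite R) (Q : Subgroup R) (hN : Q.Normal) (e : R ⧸ Q ≃* K)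
      (χ : ↥Q →* Multiplicative (SS n)),
      Cfsg.IsExtraspecial 2 ↥Q ∧ Nat.card ↥Q = 2 ^ (2 * n + 1) ∧ Function.Surjective χ ∧
        χ.ker = Subgroup.center ↥Q ∧
        (∀ (r : R) (a : ↥Q), χ ⟨r * a * r⁻¹, hN.conj_mem (a : R) a.2 r⟩ =
          Multiplicative.ofAdd (g (e (r : R ⧸ Q)) (Multiplicative.toAdd (χ a)))) ∧
        ∀ a : ↥Q, a * a = 1 ↔ q0 (Multiplicative.toAdd (χ a)) = 0 := by
  classical
  set Q := (fR hg).ker with hQ
  have hN : Q.Normal := (fR hg).normal_ker
  have hcard : Nat.card ↥Q = 2 ^ (2 * n + 1) := by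
    rw [← Nat.card_congr (eQ hg)]
    rw [Nat.card_prod, Nat.card_prod, Nat.card_eq_fintype_card, Nat.card_zmod]
    simp only [EE, Fintype.card_fun, ZMod.card, Fintype.card_fin]
    ring
  haveI hfQ : Finite ↥Q := Finite.of_equiv _ (eQ hg)
  let e : ↥(Rsub hg) ⧸ Q ≃* K := QuotientGroup.quotientKerEquivOfSurjective _ (fR_surj hg)
  have he : ∀ r : ↥(Rsub hg), e (r : ↥(Rsub hg) ⧸ Q) = fR hg r := fun _ => rfl
  haveI hfq : Finite (↥(Rsub hg) ⧸ Q) := Finite.of_equiv _ e.symm.toEquiv
  haveI hfR : Finite ↥(Rsub hg) :=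
    Finite.of_equiv _ (Subgroup.groupEquivQuotientProdSubgroup (s := Q)).symm
  let χ : ↥Q →* Multiplicative (SS n) := MonoidHom.mk'
    (fun a => Multiplicative.ofAdd ((eQ hg).symm a).1) (by
      intro a b
      obtain ⟨⟨u, s⟩, rfl⟩ := (eQ hg).surjective a
      obtain ⟨⟨v, t⟩, rfl⟩ := (eQ hg).surjective b
      rw [eQ_mul]
      simp only [Equiv.symm_apply_apply]
      rfl)
  have hχ : ∀ u s, χ (eQ hg (u, s)) = Multiplicative.ofAdd u := by
    intro u s
    change Multiplicative.ofAdd ((eQ hg).symm (eQ hg (u, s))).1 = _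
    rw [Equiv.symm_apply_apply]
  have hbt0 : ∀ v : SS n, bt 0 v = 0 := fun v => by simp [bt]
  have hbt0' : ∀ v : SS n, bt v 0 = 0 := fun v => by simp [bt]
  have hone : (1 : ↥Q) = eQ hg (0, 0) := by
    apply eQ_ext
    rw [eQ_val]
    exact PP_zero_zero.symm
  have hcenter : ∀ u s, eQ hg (u, s) ∈ Subgroup.center ↥Q ↔ u = 0 := by
    intro u s
    rw [Subgroup.mem_center_iff]
    constructor
    · intro h
      have h1 : ∀ v, bt u v = bt v u := by
        intro v
        have h2 := h (eQ hg (v, 0))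
        rw [eQ_mul, eQ_mul, add_comm v u] at h2
        have h3 := congrArg Prod.snd ((eQ hg).injective h2)
        simp only [zero_add, add_zero] at h3
        exact (add_left_cancel h3).symm
      have hu1 : u.1 = 0 := by
        by_contra hne
        obtain ⟨a, ha⟩ := exists_dot_ne hne
        apply ha
        have := h1 (0, a)
        simp only [bt, zero_dotProduct] at this
        rw [dotProduct_comm, this]
        simp
      have hu2 : u.2 = 0 := by
        by_contra hne
        obtain ⟨a, ha⟩ := exists_dot_ne hne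
        apply ha
        have := h1 (a, 0)
        simp only [bt, zero_dotProduct, dotProduct_zero] at this
        rw [← this]
        simp
      exact Prod.ext hu1 hu2
    · rintro rfl x
      obtain ⟨⟨v, t⟩, rfl⟩ := (eQ hg).surjective x
      rw [eQ_mul, eQ_mul, hbt0, hbt0', zero_add, add_zero, add_zero, add_zero, add_comm]
  have hker : χ.ker = Subgroup.center ↥Q := by
    ext a
    obtain ⟨⟨u, s⟩, rfl⟩ := (eQ hg).surjective a
    rw [MonoidHom.mem_ker, hχ, hcenter]
    exact ofAdd_eq_one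
  have hsurj : Function.Surjective χ := by
    intro y
    exact ⟨eQ hg (Multiplicative.toAdd y, 0), by rw [hχ]; rfl⟩
  have hsq : ∀ a : ↥Q, a * a = 1 ↔ q0 (Multiplicative.toAdd (χ a)) = 0 := by
    intro a
    obtain ⟨⟨u, s⟩, rfl⟩ := (eQ hg).surjective a
    rw [eQ_mul, hχ, hone, add_self_SS, bt_self, zadd_self, zero_add]
    constructor
    · intro h
      have := congrArg Prod.snd ((eQ hg).injective h)
      exact this
    · intro h
      change q0 u = 0 at h
      rw [h]
  have hconj : ∀ (r : ↥(Rsub hg)) (a : ↥Q), χ ⟨r * a * r⁻¹, hN.conj_mem (a : ↥(Rsub hg)) a.2 r⟩ =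
      Multiplicative.ofAdd (g (e (r : ↥(Rsub hg) ⧸ Q)) (Multiplicative.toAdd (χ a))) := by
    intro r a
    obtain ⟨⟨u, s⟩, rfl⟩ := (eQ hg).surjective a
    rw [he, hχ]
    obtain ⟨s', hs'⟩ := (fR_spec hg r).conj u
    have hb : (⟨r * (eQ hg (u, s) : ↥(Rsub hg)) * r⁻¹, hN.conj_mem (eQ hg (u, s) : ↥(Rsub hg)) (eQ hg (u, s)).2 r⟩ : ↥Q) =
        eQ hg (g (fR hg r) u, s' + s) := by
      apply eQ_ext
      rw [eQ_val]
      change ((r : AA n).val * PP u s) * ((r⁻¹ : ↥(Rsub hg)) : AA n).val = PP (g (fR hg r) u) (s' + s)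
      have h1 : (r : AA n).val * PP u s = PP (g (fR hg r) u) (s' + s) * (r : AA n).val := by
        rw [PP_sgn u s, Matrix.mul_smul, hs', PP_add_right, Matrix.smul_mul]
      rw [h1, mul_assoc]
      have h2 : (r : AA n).val * ((r⁻¹ : ↥(Rsub hg)) : AA n).val = 1 := by
        change (r : AA n).val * ((r : AA n)⁻¹ : AA n).val = 1
        exact Units.mul_inv _
      rw [h2, mul_one]
    rw [hb, hχ]
    rfl
  have hpg : IsPGroup 2 ↥Q := IsPGroup.of_card hcard
  have hcc : Nat.card ↥(Subgroup.center ↥Q) = 2 := by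
    let φ : ZMod 2 → ↥(Subgroup.center ↥Q) := fun s => ⟨eQ hg (0, s), (hcenter 0 s).2 rfl⟩
    have hφ : Function.Bijective φ := by
      constructor
      · intro s t h
        have h1 := congrArg Subtype.val h
        have h2 := (eQ hg).injective h1
        exact congrArg Prod.snd h2
      · rintro ⟨a, ha⟩
        obtain ⟨⟨u, s⟩, rfl⟩ := (eQ hg).surjective a
        have hu := (hcenter u s).1 ha
        subst hu
        exact ⟨s, rfl⟩
    rw [← Nat.card_eq_of_bijective φ hφ, Nat.card_zmod]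
  have hes : Cfsg.IsExtraspecial 2 ↥Q := by
    apply Cfsg.Agent.H18.isExtraspecial_of hpg hcc
    · intro x
      rw [← hker, MonoidHom.mem_ker, map_pow]
      obtain ⟨⟨u, s⟩, rfl⟩ := (eQ hg).surjective x
      rw [hχ, pow_two]
      change Multiplicative.ofAdd (u + u) = 1
      rw [add_self_SS]
      rfl
    · intro x y
      rw [← hker, MonoidHom.mem_ker]
      simp only [map_mul, map_inv]
      rw [mul_comm (χ x) (χ y)]
      simp
    · have hi : 0 < n := hn1
      let i : Fin n := ⟨0, hi⟩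
      let d : EE n := Pi.single i 1
      have hdd : d ⬝ᵥ d = 1 := by simp [d]
      refine ⟨eQ hg ((d, 0), 0), eQ hg ((0, d), 0), fun h => ?_⟩
      have h1 : eQ hg ((d, 0), 0) * eQ hg ((0, d), 0) = eQ hg ((0, d), 0) * eQ hg ((d, 0), 0) := by
        have := mul_inv_eq_one.1 h
        exact mul_inv_eq_iff_eq_mul.1 this
      rw [eQ_mul, eQ_mul] at h1
      have h2 := congrArg Prod.snd ((eQ hg).injective h1)
      simp [bt, hdd] at h2
  exact ⟨↥(Rsub hg), inferInstance, hfR, Q, hN, e, χ, hes, hcard, hsurj, hker, hconj, hsq⟩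

end Cfsg.Agent.H14.CG
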