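import Mathlib
import Cfsg.Agent.S0256

/-! Automorphism groups of elementary abelian 2-groups of order at most 16 embed in `A₈`. -/

set_option autoImplicit false

namespace Cfsg.Agent.H14

open Matrix

/-- every general linear group over `ZMod 2` sits in the special linear group -/
noncomputable def glToSl : GL (Fin 4) (ZMod 2) →* SpecialLinearGroup (Fin 4) (ZMod 2) where
  toFun g := ⟨g.val, by
    have h : IsUnit (Matrix.det g.val) := by
      have := (Matrix.isUnit_iff_isUnit_det g.val).mp g.isUnit
      exact this
    have h2 : ∀ x : ZMod 2, IsUnit x → x = 1 := by decide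
    exact h2 _ h⟩
  map_one' := by apply Subtype.ext; rfl
  map_mul' a b := by apply Subtype.ext; rfl

theorem glToSl_injective : Function.Injective glToSl := by
  intro a b h
  apply Units.ext
  have := congrArg (fun s : SpecialLinearGroup (Fin 4) (ZMod 2) => s.1) h
  exact this

theorem sl_center_trivial (A : SpecialLinearGroup (Fin 4) (ZMod 2))
    (hA : A ∈ Subgroup.center (SpecialLinearGroup (Fin 4) (ZMod 2))) : A = 1 := by
  classical
  obtain ⟨r, hr, hr2⟩ := (Matrix.SpecialLinearGroup.mem_center_iff).mp hA
  have h1 : r = 1 := by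
    have h3 : ∀ x : ZMod 2, x ^ 4 = 1 → x = 1 := by decide
    apply h3
    simpa using hr
  ext i j
  have := congrFun (congrFun hr2 i) j
  rw [← this, h1]
  simp [Matrix.one_apply]

/-- the special linear group over `ZMod 2` embeds in the projective group -/
theorem slToPsl_injective : Function.Injective
    (QuotientGroup.mk' (Subgroup.center (SpecialLinearGroup (Fin 4) (ZMod 2)))) := by
  rw [injective_iff_map_eq_one]
  intro A hA
  exact sl_center_trivial A ((QuotientGroup.eq_one_iff A).mp hA)

/-- `GL₄(2)` embeds in `A₈`. -/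
theorem exists_gl4_embed :
    ∃ f : GL (Fin 4) (ZMod 2) →* ↥(alternatingGroup (Fin 8)), Function.Injective f := by
  obtain ⟨e⟩ := Cfsg.Agent.S0256.result (F := ZMod 2) (by simp [ZMod.card])
  refine ⟨(e.toMonoidHom).comp ((QuotientGroup.mk' _).comp glToSl), ?_⟩
  exact e.injective.comp (slToPsl_injective.comp glToSl_injective)

/-- A linear space of `ZMod 2`-dimension at most `4`: its automorphism group embeds in `GL₄(2)`. -/
theorem exists_linear_embed (U : Type*) [AddCommGroup U] [Module (ZMod 2) U] [Finite U]
    (hU : Nat.card U ≤ 16) :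
    ∃ f : (U ≃ₗ[ZMod 2] U) →* GL (Fin 4) (ZMod 2), Function.Injective f := by
  classical
  haveI : Module.Finite (ZMod 2) U := Module.Finite.of_finite
  set d := Module.finrank (ZMod 2) U with hd
  have hcard : Nat.card U = 2 ^ d := by
    have := Module.natCard_eq_pow_finrank (K := ZMod 2) (V := U)
    simpa [ZMod.card, Nat.card_eq_fintype_card] using this
  have hd4 : d ≤ 4 := by
    by_contra h
    push Not at h
    have h1 : 2 ^ 5 ≤ 2 ^ d := Nat.pow_le_pow_right (by norm_num) h
    rw [hcard] at hU
    omega
  -- the product with a free module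
  let W := U × (Fin (4 - d) → ZMod 2)
  have hW : Module.finrank (ZMod 2) W = 4 := by
    have : Module.finrank (ZMod 2) W = d + (4 - d) := by
      simp [W, Module.finrank_prod, hd]
    omega
  let b : W ≃ₗ[ZMod 2] (Fin 4 → ZMod 2) :=
    LinearEquiv.ofFinrankEq _ _ (by simp [hW])
  let φ : (U ≃ₗ[ZMod 2] U) →* LinearMap.GeneralLinearGroup (ZMod 2) (Fin 4 → ZMod 2) :=
    { toFun := fun σ => LinearMap.GeneralLinearGroup.ofLinearEquiv
        (b.symm.trans ((LinearEquiv.prodCongr σ (LinearEquiv.refl _ _)).trans b))
      map_one' := by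
        apply Units.ext
        apply LinearMap.ext
        intro x
        change b (LinearEquiv.prodCongr 1 (LinearEquiv.refl _ _) (b.symm x)) = x
        have h : ∀ y : W, LinearEquiv.prodCongr (1 : U ≃ₗ[ZMod 2] U)
            (LinearEquiv.refl (ZMod 2) (Fin (4 - d) → ZMod 2)) y = y := fun y => rfl
        rw [h, LinearEquiv.apply_symm_apply]
      map_mul' := fun σ τ => by
        apply Units.ext
        apply LinearMap.ext
        intro x
        change b (LinearEquiv.prodCongr (σ * τ) (LinearEquiv.refl _ _) (b.symm x)) =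
          b (LinearEquiv.prodCongr σ (LinearEquiv.refl _ _) (b.symm (b
            (LinearEquiv.prodCongr τ (LinearEquiv.refl _ _) (b.symm x)))))
        rw [LinearEquiv.symm_apply_apply]
        rfl }
  have hφ : Function.Injective φ := by
    intro σ τ h
    ext u
    have h1 := congrArg (fun g : LinearMap.GeneralLinearGroup (ZMod 2) (Fin 4 → ZMod 2) =>
      (g : (Fin 4 → ZMod 2) →ₗ[ZMod 2] (Fin 4 → ZMod 2)) (b (u, 0))) h
    change b (LinearEquiv.prodCongr σ (LinearEquiv.refl _ _) (b.symm (b (u, 0)))) =
      b (LinearEquiv.prodCongr τ (LinearEquiv.refl _ _) (b.symm (b (u, 0)))) at h1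
    rw [LinearEquiv.symm_apply_apply] at h1
    have h2 := b.injective h1
    exact congrArg Prod.fst h2
  let t := (Matrix.GeneralLinearGroup.toLin (n := Fin 4) (R := ZMod 2)).symm
  exact ⟨t.toMonoidHom.comp φ, t.injective.comp hφ⟩

/-- The automorphism group of an elementary abelian 2-group of order at most 16 embeds in `A₈`. -/
theorem exists_mulAut_embed (E : Type*) [Group E] [Finite E] (hcomm : ∀ a b : E, a * b = b * a)
    (hexp : ∀ a : E, a * a = 1) (hE : Nat.card E ≤ 16) :
    ∃ f : MulAut E →* ↥(alternatingGroup (Fin 8)), Function.Injective f := by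
  classical
  letI : CommGroup E := { (inferInstance : Group E) with mul_comm := hcomm }
  letI : Module (ZMod 2) (Additive E) := AddCommGroup.zmodModule (by
    intro x
    change Additive.ofMul (Additive.toMul x ^ 2) = 0
    rw [pow_two, hexp]; rfl)
  obtain ⟨f, hf⟩ := exists_linear_embed (Additive E) (by
    rw [show Nat.card (Additive E) = Nat.card E from Nat.card_congr Additive.toMul]
    exact hE)
  obtain ⟨g, hg⟩ := exists_gl4_embed
  -- automorphisms are linear
  let ι : MulAut E →* (Additive E ≃ₗ[ZMod 2] Additive E) :=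
    { toFun := fun σ => AddEquiv.toLinearEquiv (MulEquiv.toAdditive σ) (by
          intro c x
          obtain ⟨n, rfl⟩ := ZMod.natCast_zmod_surjective c
          rw [Nat.cast_smul_eq_nsmul, Nat.cast_smul_eq_nsmul, map_nsmul])
      map_one' := by ext x; rfl
      map_mul' := fun σ τ => by ext x; rfl }
  have hι : Function.Injective ι := by
    intro σ τ h
    ext x
    have := congrArg (fun s : Additive E ≃ₗ[ZMod 2] Additive E => s (Additive.ofMul x)) h
    exact this
  exact ⟨g.comp (f.comp ι), hg.comp (hf.comp hι)⟩

end Cfsg.Agent.H14
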