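import Mathlib
import Cfsg.Agent.Lib.H14.BO2
import Cfsg.Agent.Lib.H12.Subnormal
import Cfsg.Agent.Lib.H05.Comp
import Cfsg.Agent.Lib.H25.GpTh
/-! Two subnormal subgroups irreducible on incomparable commutator modules commute. -/
set_option autoImplicit false
set_option linter.unusedSectionVars false
set_option linter.unusedVariables false
set_option linter.style.longLine false
namespace Cfsg.Agent.H14.Irr
open Cfsg
open scoped commutatorElement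

variable {G : Type*} [Group G] [Finite G] {p : ℕ} [Fact p.Prime]

/-- Conjugate of a subgroup. -/
def cj (g : G) (X : Subgroup G) : Subgroup G := X.map (MulAut.conj g).toMonoidHom

lemma mem_cj {g x : G} {X : Subgroup G} : x ∈ cj g X ↔ g⁻¹ * x * g ∈ X := by
  constructor
  · rintro ⟨y, hy, rfl⟩
    have e : g⁻¹ * (MulAut.conj g).toMonoidHom y * g = y := by
      change g⁻¹ * (g * y * g⁻¹) * g = y
      group
    rw [e]
    exact hy
  · intro h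
    exact ⟨_, h, by
      change g * (g⁻¹ * x * g) * g⁻¹ = x
      group⟩

lemma conj_mem_cj {g x : G} {X : Subgroup G} (h : x ∈ X) : g * x * g⁻¹ ∈ cj g X := ⟨x, h, rfl⟩

lemma card_cj (g : G) (X : Subgroup G) : Nat.card (cj g X) = Nat.card X :=
  (Nat.card_congr (Subgroup.equivMapOfInjective X _ (MulAut.conj g).injective).toEquiv).symm

lemma cj_comm (g : G) (X Y : Subgroup G) : cj g ⁅X, Y⁆ = ⁅cj g X, cj g Y⁆ := Subgroup.map_commutator _ _ _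

lemma cj_of_norm {g : G} {X : Subgroup G} (h : g ∈ Subgroup.normalizer (X : Set G)) : cj g X = X := by
  ext x
  rw [mem_cj]
  have e := Subgroup.mem_normalizer_iff.mp h (g⁻¹ * x * g)
  have e2 : g * (g⁻¹ * x * g) * g⁻¹ = x := by group
  rw [e2] at e
  exact e

lemma cj_cj (g h : G) (X : Subgroup G) : cj g (cj h X) = cj (g * h) X := by
  ext x
  rw [mem_cj, mem_cj, mem_cj]
  have e : h⁻¹ * (g⁻¹ * x * g) * h = (g * h)⁻¹ * x * (g * h) := by group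
  rw [e]

lemma cj_le_iff {g : G} {X Y : Subgroup G} (h : cj g X = Y) {x : G} (hx : x ∈ X) : g * x * g⁻¹ ∈ Y := by
  rw [← h]
  exact conj_mem_cj hx

lemma norm_of_cj {g : G} {X : Subgroup G} (h : cj g X = X) : g ∈ Subgroup.normalizer (X : Set G) := by
  refine Subgroup.mem_normalizer_iff.mpr fun x => ?_
  constructor
  · intro hx
    exact cj_le_iff h hx
  · intro hx
    rw [← h, mem_cj] at hx
    have e : g⁻¹ * (g * x * g⁻¹) * g = x := by group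
    rwa [e] at hx

lemma cj_inv_self {g : G} {X : Subgroup G} (h : cj g X = X) : cj g⁻¹ X = X :=
  cj_of_norm (Subgroup.inv_mem _ (norm_of_cj h))

/-- `[V,A]` is normalized by `A`. -/
lemma norm_comm (V A : Subgroup G) : A ≤ Subgroup.normalizer ((⁅V, A⁆ : Subgroup G) : Set G) := by
  intro a ha
  apply Cfsg.Agent.H19.mem_normalizer_of_conj_le
  have hle : ⁅V, A⁆ ≤ (⁅V, A⁆ : Subgroup G).comap (MulAut.conj a).toMonoidHom := by
    rw [Subgroup.commutator_le]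
    intro v hv b hb
    change a * ⁅v, b⁆ * a⁻¹ ∈ ⁅V, A⁆
    have e : a * ⁅v, b⁆ * a⁻¹ = ⁅v, a⁆⁻¹ * ⁅v, a * b⁆ := by
      simp only [commutatorElement_def]
      group
    rw [e]
    exact Subgroup.mul_mem _ (Subgroup.inv_mem _ (Subgroup.commutator_mem_commutator hv ha))
      (Subgroup.commutator_mem_commutator hv (A.mul_mem ha hb))
  intro x hx
  exact hle hx

lemma comm_le {V A : Subgroup G} (hA : A ≤ Subgroup.normalizer (V : Set G)) : ⁅V, A⁆ ≤ V := by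
  rw [Subgroup.commutator_le]
  intro v hv a ha
  exact Cfsg.Agent.H02.comm_mem (hA ha) hv

/-- If `g` normalizes `V`, `[V,A]` conjugates to `[V,A^g]`. -/
lemma cj_comm_V {V A : Subgroup G} {g : G} (hg : g ∈ Subgroup.normalizer (V : Set G)) :
    cj g ⁅V, A⁆ = ⁅V, cj g A⁆ := by
  rw [cj_comm, cj_of_norm hg]

/-- A chain stabilizer has exponent `p`. -/
lemma pow_eq_one_of_chain {V E U : Subgroup G} (hV : IsElementaryAbelian p V) (hf : E ⊓ Subgroup.centralizer (V : Set G) = ⊥)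
    (hUV : U ≤ V) {a : G} (ha : a ∈ E) (h1 : ∀ v ∈ V, ⁅v, a⁆ ∈ U) (h2 : ∀ u ∈ U, a * u = u * a) : a ^ p = 1 := by
  have hmem : a ^ p ∈ E ⊓ Subgroup.centralizer (V : Set G) := by
    refine ⟨E.pow_mem ha p, Subgroup.mem_centralizer_iff.mpr fun v hv => ?_⟩
    have hu : ⁅v, a⁆⁻¹ ∈ U := U.inv_mem (h1 v hv)
    have h3 : a * v * a⁻¹ = ⁅v, a⁆⁻¹ * v := by
      simp only [commutatorElement_def]
      group
    have h4 := Cfsg.Agent.H14.conj_pow_of_fix h3 (h2 _ hu) p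
    have h5 : (⁅v, a⁆⁻¹) ^ p = 1 := hV.2 _ (hUV hu)
    rw [h5, one_mul] at h4
    calc v * a ^ p = a ^ p * v * (a ^ p)⁻¹ * a ^ p := by rw [h4]
      _ = a ^ p * v := by group
  rw [hf] at hmem
  exact (Subgroup.mem_bot.mp hmem)

/-- Irreducibility. -/
def IrrV (V A : Subgroup G) : Prop :=
  ∀ U : Subgroup G, U ≤ ⁅V, A⁆ → A ≤ Subgroup.normalizer (U : Set G) → U = ⊥ ∨ U = ⁅V, A⁆

/-- Subnormal in `E`. -/
def SN (E A : Subgroup G) : Prop := A ≤ E ∧ (A.subgroupOf E).IsSubnormal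

lemma SN.conj {E A : Subgroup G} (h : SN E A) {g : G} (hg : g ∈ E) : SN E (cj g A) := by
  refine ⟨?_, ?_⟩
  · rintro _ ⟨a, ha, rfl⟩
    exact E.mul_mem (E.mul_mem hg (h.1 ha)) (E.inv_mem hg)
  · have h1 := h.2.map (f := (MulAut.conj (⟨g, hg⟩ : E)).toMonoidHom) (MulAut.conj (⟨g, hg⟩ : E)).surjective
    have e : (A.subgroupOf E).map (MulAut.conj (⟨g, hg⟩ : E)).toMonoidHom = (cj g A).subgroupOf E := by
      ext ⟨x, hx⟩
      constructor
      · rintro ⟨⟨y, hy⟩, hy', hyx⟩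
        have hyx' : g * y * g⁻¹ = x := congrArg Subtype.val hyx
        change x ∈ cj g A
        rw [← hyx']
        exact conj_mem_cj hy'
      · intro h2
        rw [Subgroup.mem_subgroupOf] at h2
        have h3 := mem_cj.mp h2
        refine ⟨⟨g⁻¹ * x * g, E.mul_mem (E.mul_mem (E.inv_mem hg) hx) hg⟩, h3, Subtype.ext ?_⟩
        change g * (g⁻¹ * x * g) * g⁻¹ = x
        group
    rwa [e] at h1

lemma SN.sub {E A B : Subgroup G} (h : SN E A) (hBA : B ≤ A) (hn : A ≤ Subgroup.normalizer (B : Set G)) : SN E B := by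
  refine ⟨hBA.trans h.1, ?_⟩
  have hle : B.subgroupOf E ≤ A.subgroupOf E := Subgroup.comap_mono hBA
  refine Subgroup.IsSubnormal.step _ _ hle h.2 ?_
  refine (Subgroup.normal_subgroupOf_iff_le_normalizer hle).mpr ?_
  rintro ⟨x, hx⟩ hx'
  exact Subgroup.mem_normalizer_iff.mpr fun z => Subgroup.mem_normalizer_iff.mp (hn hx') z.1

lemma SN.pgroup {E T : Subgroup G} (hO : pCore p ↥E = ⊥) (h : SN E T) (hp : IsPGroup p T) : T = ⊥ := by
  have hT' : IsPGroup p (T.subgroupOf E) := by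
    rintro ⟨⟨x, hx⟩, hx'⟩
    obtain ⟨k, hk⟩ := hp ⟨x, hx'⟩
    refine ⟨k, Subtype.ext (Subtype.ext ?_)⟩
    simpa using congrArg Subtype.val hk
  have h1 := Cfsg.Agent.H12.le_pCore_of_isSubnormal h.2 hT'
  rw [hO] at h1
  rw [eq_bot_iff]
  intro x hx
  have h2 : (⟨x, h.1 hx⟩ : E) ∈ T.subgroupOf E := hx
  have h3 := h1 h2
  rw [Subgroup.mem_bot] at h3 ⊢
  exact congrArg Subtype.val h3

lemma SN.proper {E A F : Subgroup G} (h : SN E A) (hAF : A ≤ F) (hFE : F ≤ E) (hne : A ≠ F) :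
    ∃ D : Subgroup G, D < F ∧ F ≤ Subgroup.normalizer (D : Set G) ∧ A ≤ D := by
  have h1 : (A.subgroupOf F).IsSubnormal := Cfsg.Agent.H05.sn_restrict hFE h.2
  have hne' : A.subgroupOf F ≠ ⊤ := by
    intro h2
    apply hne
    apply le_antisymm hAF
    exact Subgroup.subgroupOf_eq_top.mp h2
  obtain ⟨K, hKn, hAK, hKt⟩ := h1.exists_normal_and_le_and_lt_top_of_ne hne'
  refine ⟨K.map F.subtype, ?_, ?_, ?_⟩
  · refine lt_of_le_of_ne (Subgroup.map_subtype_le _) ?_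
    intro h2
    apply hKt.ne
    rw [eq_top_iff]
    rintro ⟨x, hx⟩ -
    rw [← h2] at hx
    obtain ⟨⟨y, hy⟩, hy', rfl⟩ := hx
    exact hy'
  · intro x hx
    refine Subgroup.mem_normalizer_iff.mpr fun z => ?_
    constructor
    · rintro ⟨⟨y, hy⟩, hy', rfl⟩
      exact ⟨(⟨x, hx⟩ : F) * ⟨y, hy⟩ * (⟨x, hx⟩ : F)⁻¹, hKn.conj_mem _ hy' _, rfl⟩
    · rintro ⟨⟨y, hy⟩, hy', hyz⟩
      have hz : z = x⁻¹ * y * x := by
        have : y = x * z * x⁻¹ := hyz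
        rw [this]
        group
      rw [hz]
      have h3 := hKn.conj_mem _ hy' (⟨x, hx⟩ : F)⁻¹
      refine ⟨_, h3, ?_⟩
      change x⁻¹ * y * x⁻¹⁻¹ = x⁻¹ * y * x
      group
  · intro x hx
    exact ⟨⟨x, hAF hx⟩, hAK hx, rfl⟩

section sys

variable (p) {V E : Subgroup G}

/-- Standing hypotheses. -/
structure Sys (p : ℕ) (V E : Subgroup G) : Prop where
  hV : IsElementaryAbelian p V
  hEV : E ≤ Subgroup.normalizer (V : Set G)
  hf : E ⊓ Subgroup.centralizer (V : Set G) = ⊥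
  hO : pCore p ↥E = ⊥

/-- The goodness of a subgroup. -/
structure Good (V E A : Subgroup G) : Prop where
  sn : SN E A
  irr : IrrV V A
  big : 2 < Nat.card A

variable {p}

lemma Good.conj {A : Subgroup G} (hs : Sys p V E) (hA : Good V E A) {g : G} (hg : g ∈ E) : Good V E (cj g A) := by
  refine ⟨hA.sn.conj hg, ?_, by rw [card_cj]; exact hA.big⟩
  intro U hU hN
  have hgV : g ∈ Subgroup.normalizer (V : Set G) := hs.hEV hg
  rw [← cj_comm_V hgV] at hU ⊢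
  have h1 : cj g⁻¹ U ≤ ⁅V, A⁆ := by
    intro x hx
    rw [mem_cj] at hx
    have h2 := hU hx
    rw [mem_cj] at h2
    have e : g⁻¹ * (g⁻¹⁻¹ * x * g⁻¹) * g = x := by group
    rwa [e] at h2
  have h3 : A ≤ Subgroup.normalizer ((cj g⁻¹ U : Subgroup G) : Set G) := by
    intro a ha
    have h4 := hN (conj_mem_cj (g := g) ha)
    apply Cfsg.Agent.H19.mem_normalizer_of_conj_le
    intro x hx
    rw [mem_cj] at hx ⊢
    have h5 := Cfsg.Agent.H02.conj_mem_of_normalizer h4 hx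
    have e : g⁻¹⁻¹ * (a * x * a⁻¹) * g⁻¹ = g * a * g⁻¹ * (g⁻¹⁻¹ * x * g⁻¹) * (g * a * g⁻¹)⁻¹ := by group
    rw [e]
    exact h5
  have hback : ∀ W : Subgroup G, cj g⁻¹ U = W → U = cj g W := by
    rintro W rfl
    rw [cj_cj]
    simp only [mul_inv_cancel]
    ext x
    rw [mem_cj]
    simp
  rcases hA.irr _ h1 h3 with h6 | h6
  · left
    rw [hback _ h6]
    ext x
    rw [mem_cj]
    simp only [Subgroup.mem_bot]
    constructor
    · intro h7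
      have e : x = g * (g⁻¹ * x * g) * g⁻¹ := by group
      rw [e, h7]
      group
    · rintro rfl
      group
  · right
    rw [hback _ h6]

/-- No nontrivial fixed points. -/
lemma no_fix {A : Subgroup G} (hs : Sys p V E) (hA : Good V E A) {w : G} (hw : w ∈ ⁅V, A⁆)
    (hfix : ∀ a ∈ A, a * w = w * a) : w = 1 := by
  classical
  have hAE := hA.sn.1
  have hWV : ⁅V, A⁆ ≤ V := comm_le (hAE.trans hs.hEV)
  obtain ⟨C, hC⟩ : ∃ C, C = ⁅V, A⁆ ⊓ Subgroup.centralizer (A : Set G) := ⟨_, rfl⟩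
  have hCle : C ≤ ⁅V, A⁆ := by
    rw [hC]
    exact inf_le_left
  have hCn : A ≤ Subgroup.normalizer (C : Set G) := by
    intro a ha
    apply Cfsg.Agent.H19.mem_normalizer_of_conj_le
    intro x hx
    rw [hC] at hx ⊢
    refine ⟨Cfsg.Agent.H02.conj_mem_of_normalizer (norm_comm V A ha) hx.1, ?_⟩
    have hxa : a * x = x * a := Subgroup.mem_centralizer_iff.mp hx.2 a ha
    have e1 : a * x * a⁻¹ = x := by
      rw [hxa]
      group
    rw [e1]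
    exact hx.2
  have hwC : w ∈ C := by
    rw [hC]
    exact ⟨hw, Subgroup.mem_centralizer_iff.mpr hfix⟩
  rcases hA.irr C hCle hCn with h | h
  · rw [h] at hwC
    exact hwC
  · exfalso
    have hpow : ∀ a ∈ A, a ^ p = 1 := by
      intro a ha
      refine pow_eq_one_of_chain (U := ⁅V, A⁆) hs.hV hs.hf hWV (hAE ha) ?_ ?_
      · intro v hv
        exact Subgroup.commutator_mem_commutator hv ha
      · intro u hu
        rw [← h, hC] at hu
        exact Subgroup.mem_centralizer_iff.mp hu.2 a ha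
    have hAp : IsPGroup p A := by
      rintro ⟨a, ha⟩
      refine ⟨1, Subtype.ext ?_⟩
      simpa using hpow a ha
    have hbot := SN.pgroup hs.hO hA.sn hAp
    have hc := hA.big
    rw [hbot, Subgroup.card_bot] at hc
    omega

/-- Consequences of commuting. -/
lemma of_commute {E₁ E₂ : Subgroup G} (hs : Sys p V E) (h1 : Good V E E₁) (h2 : Good V E E₂)
    (h12 : ¬ ⁅V, E₁⁆ ≤ ⁅V, E₂⁆) (hc : ⁅E₁, E₂⁆ = ⊥) :
    ⁅V, E₁⁆ ⊓ ⁅V, E₂⁆ = ⊥ ∧ ∀ w ∈ ⁅V, E₂⁆, ∀ e ∈ E₁, e * w = w * e := by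
  classical
  have hE1 := h1.sn.1
  have hE2 := h2.sn.1
  have hcomm : ∀ e ∈ E₁, ∀ f ∈ E₂, e * f = f * e := by
    intro e he f hf
    have h3 : ⁅e, f⁆ ∈ ⁅E₁, E₂⁆ := Subgroup.commutator_mem_commutator he hf
    rw [hc, Subgroup.mem_bot] at h3
    exact commutatorElement_eq_one_iff_mul_comm.mp h3
  have hE1N : E₁ ≤ Subgroup.normalizer ((⁅V, E₂⁆ : Subgroup G) : Set G) := by
    intro e he
    apply Cfsg.Agent.H19.mem_normalizer_of_conj_le
    have hle : ⁅V, E₂⁆ ≤ (⁅V, E₂⁆ : Subgroup G).comap (MulAut.conj e).toMonoidHom := by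
      rw [Subgroup.commutator_le]
      intro v hv f hf
      change e * ⁅v, f⁆ * e⁻¹ ∈ ⁅V, E₂⁆
      have e1 : e * ⁅v, f⁆ * e⁻¹ = ⁅e * v * e⁻¹, f⁆ := by
        have h4 : f * e⁻¹ = e⁻¹ * f := by
          have := hcomm e he f hf
          calc f * e⁻¹ = e⁻¹ * (e * f) * e⁻¹ := by group
            _ = e⁻¹ * (f * e) * e⁻¹ := by rw [this]
            _ = e⁻¹ * f := by group
        have h5 : e * f = f * e := hcomm e he f hf
        simp only [commutatorElement_def]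
        calc e * (v * f * v⁻¹ * f⁻¹) * e⁻¹ = e * v * (f * e⁻¹) * e * v⁻¹ * f⁻¹ * e⁻¹ := by group
          _ = e * v * (e⁻¹ * f) * e * v⁻¹ * f⁻¹ * e⁻¹ := by rw [h4]
          _ = e * v * e⁻¹ * f * (e * v⁻¹ * e⁻¹) * (e * f⁻¹ * e⁻¹) := by group
          _ = e * v * e⁻¹ * f * (e * v⁻¹ * e⁻¹) * f⁻¹ := by
            have h6 : e * f⁻¹ * e⁻¹ = f⁻¹ := by
              have h7 : e * f⁻¹ = f⁻¹ * e := by
                calc e * f⁻¹ = f⁻¹ * (f * e) * f⁻¹ := by group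
                  _ = f⁻¹ * (e * f) * f⁻¹ := by rw [h5]
                  _ = f⁻¹ * e := by group
              rw [h7]
              group
            rw [h6]
          _ = e * v * e⁻¹ * f * (e * v * e⁻¹)⁻¹ * f⁻¹ := by group
      rw [e1]
      exact Subgroup.commutator_mem_commutator (Cfsg.Agent.H02.conj_mem_of_normalizer (hs.hEV (hE1 he)) hv) hf
    intro x hx
    exact hle hx
  have hinf : ⁅V, E₁⁆ ⊓ ⁅V, E₂⁆ = ⊥ := by
    have hinv : E₁ ≤ Subgroup.normalizer ((⁅V, E₁⁆ ⊓ ⁅V, E₂⁆ : Subgroup G) : Set G) := by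
      intro e he
      apply Cfsg.Agent.H19.mem_normalizer_of_conj_le
      intro x hx
      exact ⟨Cfsg.Agent.H02.conj_mem_of_normalizer (norm_comm V E₁ he) hx.1,
        Cfsg.Agent.H02.conj_mem_of_normalizer (hE1N he) hx.2⟩
    rcases h1.irr (⁅V, E₁⁆ ⊓ ⁅V, E₂⁆) inf_le_left hinv with h3 | h3
    · exact h3
    · exact absurd (inf_eq_left.mp h3) h12
  refine ⟨hinf, fun w hw e he => ?_⟩
  have hwV : w ∈ V := comm_le (hE2.trans hs.hEV) hw
  have h3 : ⁅w, e⁆ ∈ ⁅V, E₁⁆ := Subgroup.commutator_mem_commutator hwV he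
  have h4 : ⁅w, e⁆ ∈ ⁅V, E₂⁆ := by
    have e2 : ⁅w, e⁆ = w * (e * w⁻¹ * e⁻¹) := by
      rw [commutatorElement_def]
      group
    have h5 := Cfsg.Agent.H02.conj_mem_of_normalizer (hE1N he) (Subgroup.inv_mem _ hw)
    rw [e2]
    exact Subgroup.mul_mem _ hw h5
  have h5 : ⁅w, e⁆ ∈ ⁅V, E₁⁆ ⊓ ⁅V, E₂⁆ := ⟨h3, h4⟩
  rw [hinf, Subgroup.mem_bot] at h5
  exact (commutatorElement_eq_one_iff_mul_comm.mp h5).symm

/-- The mixed case: `y₀` moves `W₁`, `E₁` normalizes `W₂`. -/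
lemma case_B {E₁ E₂ : Subgroup G} (hs : Sys p V E) (h1 : Good V E E₁) (h2 : Good V E E₂)
    (h12 : ¬ ⁅V, E₁⁆ ≤ ⁅V, E₂⁆) {y₀ : G} (hy₀ : y₀ ∈ E₂)
    (hfix : ∀ w ∈ cj y₀ ⁅V, E₁⁆, ∀ e ∈ E₁, e * w = w * e)
    (hN : E₁ ≤ Subgroup.normalizer ((⁅V, E₂⁆ : Subgroup G) : Set G)) : False := by
  classical
  have hE1 := h1.sn.1
  have hE2 := h2.sn.1
  have hinv : E₁ ≤ Subgroup.normalizer ((⁅V, E₁⁆ ⊓ ⁅V, E₂⁆ : Subgroup G) : Set G) := by
    intro e he
    apply Cfsg.Agent.H19.mem_normalizer_of_conj_le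
    intro x hx
    exact ⟨Cfsg.Agent.H02.conj_mem_of_normalizer (norm_comm V E₁ he) hx.1,
      Cfsg.Agent.H02.conj_mem_of_normalizer (hN he) hx.2⟩
  have hinf : ⁅V, E₁⁆ ⊓ ⁅V, E₂⁆ = ⊥ := by
    rcases h1.irr (⁅V, E₁⁆ ⊓ ⁅V, E₂⁆) inf_le_left hinv with h3 | h3
    · exact h3
    · exact absurd (inf_eq_left.mp h3) h12
  have hfix2 : ∀ w ∈ ⁅V, E₂⁆, ∀ e ∈ E₁, e * w = w * e := by
    intro w hw e he
    have hwV : w ∈ V := comm_le (hE2.trans hs.hEV) hw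
    have h3 : ⁅w, e⁆ ∈ ⁅V, E₁⁆ := Subgroup.commutator_mem_commutator hwV he
    have h4 : ⁅w, e⁆ ∈ ⁅V, E₂⁆ := by
      have e2 : ⁅w, e⁆ = w * (e * w⁻¹ * e⁻¹) := by
        rw [commutatorElement_def]
        group
      have h5 := Cfsg.Agent.H02.conj_mem_of_normalizer (hN he) (Subgroup.inv_mem _ hw)
      rw [e2]
      exact Subgroup.mul_mem _ hw h5
    have h5 : ⁅w, e⁆ ∈ ⁅V, E₁⁆ ⊓ ⁅V, E₂⁆ := ⟨h3, h4⟩
    rw [hinf, Subgroup.mem_bot] at h5
    exact (commutatorElement_eq_one_iff_mul_comm.mp h5).symm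
  apply h12
  intro u hu
  have huV : u ∈ V := comm_le (hE1.trans hs.hEV) hu
  have hu1 : u = 1 := by
    apply no_fix hs h1 hu
    intro e he
    have h3 : ⁅u, y₀⁆ ∈ ⁅V, E₂⁆ := Subgroup.commutator_mem_commutator huV hy₀
    have h4 := hfix2 _ h3 e he
    have h5 : y₀ * u⁻¹ * y₀⁻¹ ∈ cj y₀ ⁅V, E₁⁆ := conj_mem_cj (Subgroup.inv_mem _ hu)
    have h6 := hfix _ h5 e he
    have e1 : ⁅u, y₀⁆ = u * (y₀ * u⁻¹ * y₀⁻¹) := by
      rw [commutatorElement_def]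
      group
    rw [e1] at h4
    obtain ⟨z, hz⟩ : ∃ z, z = y₀ * u⁻¹ * y₀⁻¹ := ⟨_, rfl⟩
    rw [← hz] at h4 h6
    calc e * u = e * (u * z) * z⁻¹ := by group
      _ = u * z * e * z⁻¹ := by rw [h4]
      _ = u * (z * e) * z⁻¹ := by group
      _ = u * (e * z) * z⁻¹ := by rw [h6]
      _ = u * e := by group
  rw [hu1]
  exact Subgroup.one_mem _

lemma card_arith {a b c d : ℕ} (ha : 0 < a) (hb : 0 < b) (hd : 0 < d) (h1 : a * a ≤ c) (h2 : b * b ≤ c)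
    (h3 : c * d = a * b) : d = 1 ∧ a = b ∧ c = a * a := by
  have h4 : a * d ≤ b := by
    have h5 : a * (a * d) ≤ a * b := by
      rw [← h3]
      calc a * (a * d) = (a * a) * d := by ring
        _ ≤ c * d := Nat.mul_le_mul_right d h1
    exact Nat.le_of_mul_le_mul_left h5 ha
  have h4' : b * d ≤ a := by
    have h5 : b * (b * d) ≤ b * a := by
      rw [mul_comm b a, ← h3]
      calc b * (b * d) = (b * b) * d := by ring
        _ ≤ c * d := Nat.mul_le_mul_right d h2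
    exact Nat.le_of_mul_le_mul_left h5 hb
  have hd1 : d = 1 := by
    have h5 : a * (d * d) ≤ a * 1 := by
      calc a * (d * d) = (a * d) * d := by ring
        _ ≤ b * d := Nat.mul_le_mul_right d h4
        _ ≤ a := h4'
        _ = a * 1 := by ring
    have h6 := Nat.le_of_mul_le_mul_left h5 ha
    nlinarith
  subst hd1
  have hab : a = b := by
    simp only [mul_one] at h4 h4'
    omega
  subst hab
  refine ⟨rfl, rfl, ?_⟩
  simpa using h3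

/-- The final counting. -/
lemma case_C {E₁ E₂ : Subgroup G} (hs : Sys p V E) (h1 : Good V E E₁) (h2 : Good V E E₂)
    {y₀ x₀ : G} (hy₀ : y₀ ∈ E₂) (hx₀ : x₀ ∈ E₁)
    (hmove1 : cj y₀ ⁅V, E₁⁆ ≠ ⁅V, E₁⁆) (hmove2 : cj x₀ ⁅V, E₂⁆ ≠ ⁅V, E₂⁆)
    (hI1 : ∀ y ∈ E₂, cj y ⁅V, E₁⁆ ≠ ⁅V, E₁⁆ →
      ⁅V, E₁⁆ ⊓ cj y ⁅V, E₁⁆ = ⊥ ∧ ∀ w ∈ cj y ⁅V, E₁⁆, ∀ e ∈ E₁, e * w = w * e)
    (hI2 : ∀ x ∈ E₁, cj x ⁅V, E₂⁆ ≠ ⁅V, E₂⁆ →
      ⁅V, E₂⁆ ⊓ cj x ⁅V, E₂⁆ = ⊥ ∧ ∀ w ∈ cj x ⁅V, E₂⁆, ∀ e ∈ E₂, e * w = w * e) : False := by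
  classical
  have hE1 := h1.sn.1
  have hE2 := h2.sn.1
  obtain ⟨W₁, hW₁⟩ : ∃ W₁, W₁ = ⁅V, E₁⁆ := ⟨_, rfl⟩
  obtain ⟨W₂, hW₂⟩ : ∃ W₂, W₂ = ⁅V, E₂⁆ := ⟨_, rfl⟩
  rw [← hW₁] at hmove1 hI1
  rw [← hW₂] at hmove2 hI2
  have hW₁V : W₁ ≤ V := by
    rw [hW₁]
    exact comm_le (hE1.trans hs.hEV)
  have hW₂V : W₂ ≤ V := by
    rw [hW₂]
    exact comm_le (hE2.trans hs.hEV)
  have hVc := Cfsg.Agent.H02.commV_of_ea hs.hV
  have hmem1 : ∀ v ∈ V, ∀ e ∈ E₁, ⁅v, e⁆ ∈ W₁ := fun v hv e he => by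
    rw [hW₁]
    exact Subgroup.commutator_mem_commutator hv he
  have hmem2 : ∀ v ∈ V, ∀ e ∈ E₂, ⁅v, e⁆ ∈ W₂ := fun v hv e he => by
    rw [hW₂]
    exact Subgroup.commutator_mem_commutator hv he
  have hVN : ∀ g ∈ E, ∀ v ∈ V, g * v * g⁻¹ ∈ V := fun g hg v hv =>
    Cfsg.Agent.H02.conj_mem_of_normalizer (hs.hEV hg) hv
  obtain ⟨U, hU⟩ : ∃ U, U = W₁ ⊔ W₂ := ⟨_, rfl⟩
  have hUV : U ≤ V := by
    rw [hU]
    exact sup_le hW₁V hW₂V
  have hW₁U : W₁ ≤ U := by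
    rw [hU]
    exact le_sup_left
  have hW₂U : W₂ ≤ U := by
    rw [hU]
    exact le_sup_right
  have hconj1 : ∀ y ∈ E₂, cj y W₁ ≤ U := by
    intro y hy x hx
    rw [mem_cj] at hx
    obtain ⟨u, hu⟩ : ∃ u, u = y⁻¹ * x * y := ⟨_, rfl⟩
    rw [← hu] at hx
    have e1 : x = ⁅u, y⁆⁻¹ * u := by
      rw [hu, commutatorElement_def]
      group
    rw [e1]
    exact U.mul_mem (U.inv_mem (hW₂U (hmem2 u (hW₁V hx) y hy))) (hW₁U hx)
  have hconj2 : ∀ y ∈ E₁, cj y W₂ ≤ U := by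
    intro y hy x hx
    rw [mem_cj] at hx
    obtain ⟨u, hu⟩ : ∃ u, u = y⁻¹ * x * y := ⟨_, rfl⟩
    rw [← hu] at hx
    have e1 : x = ⁅u, y⁆⁻¹ * u := by
      rw [hu, commutatorElement_def]
      group
    rw [e1]
    exact U.mul_mem (U.inv_mem (hW₁U (hmem1 u (hW₂V hx) y hy))) (hW₂U hx)
  -- orders
  have hVab : ∀ {X Y : Subgroup G}, X ≤ V → Y ≤ V → Y ≤ Subgroup.normalizer (X : Set G) := by
    intro X Y hX hY y hy
    apply Cfsg.Agent.H19.mem_normalizer_of_conj_le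
    intro x hx
    have e1 : y * x * y⁻¹ = x := by
      rw [hVc y (hY hy) x (hX hx)]
      group
    rw [e1]
    exact hx
  have hcount : ∀ {X Y : Subgroup G}, X ≤ U → Y ≤ U → X ⊓ Y = ⊥ →
      Nat.card X * Nat.card Y ≤ Nat.card U := by
    intro X Y hX hY hXY
    have h3 := Cfsg.Agent.H25.card_sup_mul_inf (hVab (hX.trans hUV) (hY.trans hUV))
    rw [hXY, Subgroup.card_bot, mul_one] at h3
    rw [← h3]
    exact Subgroup.card_le_of_le (sup_le hX hY)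
  have hA1 := (hI1 y₀ hy₀ hmove1).1
  have hB1 := (hI2 x₀ hx₀ hmove2).1
  have hcU := Cfsg.Agent.H25.card_sup_mul_inf (X := W₁) (Y := W₂) (hVab hW₁V hW₂V)
  rw [← hU] at hcU
  have ha1 : Nat.card W₁ * Nat.card W₁ ≤ Nat.card U := by
    have := hcount hW₁U (hconj1 y₀ hy₀) hA1
    rwa [card_cj] at this
  have ha2 : Nat.card W₂ * Nat.card W₂ ≤ Nat.card U := by
    have := hcount hW₂U (hconj2 x₀ hx₀) hB1
    rwa [card_cj] at this
  obtain ⟨hd, hab, hcUa⟩ := card_arith Nat.card_pos Nat.card_pos Nat.card_pos ha1 ha2 hcU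
  have hinf : W₁ ⊓ W₂ = ⊥ := Subgroup.card_eq_one.mp hd
  -- the second conjugate
  obtain ⟨A, hA⟩ : ∃ A, A = cj y₀ W₁ := ⟨_, rfl⟩
  have hAU : A ≤ U := by
    rw [hA]
    exact hconj1 y₀ hy₀
  have hAc : Nat.card A = Nat.card W₁ := by
    rw [hA, card_cj]
  have hAinf : W₁ ⊓ A = ⊥ := by
    rw [hA]
    exact hA1
  have huniq : ∀ y ∈ E₂, cj y W₁ ≠ W₁ → cj y W₁ = A := by
    intro y hy hne
    obtain ⟨C, hC⟩ : ∃ C, C = U ⊓ Subgroup.centralizer (E₁ : Set G) := ⟨_, rfl⟩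
    have hcen : ∀ z ∈ E₂, cj z W₁ ≠ W₁ → cj z W₁ ≤ C := by
      intro z hz hne' w hw
      rw [hC]
      refine ⟨hconj1 z hz hw, Subgroup.mem_centralizer_iff.mpr fun e he => ?_⟩
      exact (hI1 z hz hne').2 w hw e he
    have hCU : C ≤ U := by
      rw [hC]
      exact inf_le_left
    have hCinf : W₁ ⊓ C = ⊥ := by
      rw [eq_bot_iff]
      intro x hx
      have hxC := hx.2
      rw [hC] at hxC
      rw [Subgroup.mem_bot]
      apply no_fix hs h1 (by rw [← hW₁]; exact hx.1)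
      intro e he
      exact Subgroup.mem_centralizer_iff.mp hxC.2 e he
    have hcC : Nat.card W₁ * Nat.card C ≤ Nat.card W₁ * Nat.card W₁ := by
      rw [← hcUa]
      exact hcount hW₁U hCU hCinf
    have hcC' : Nat.card C ≤ Nat.card W₁ := Nat.le_of_mul_le_mul_left hcC Nat.card_pos
    have e1 : cj y W₁ = C := Subgroup.eq_of_le_of_card_ge (hcen y hy hne) (by rwa [card_cj])
    have e2 : A = C := by
      rw [hA]
      exact Subgroup.eq_of_le_of_card_ge (hcen y₀ hy₀ hmove1) (by rwa [card_cj])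
    rw [e1, e2]
  have hN2 : ∀ y ∈ E₂, ∀ z ∈ W₂, y * z * y⁻¹ ∈ W₂ := by
    intro y hy z hz
    rw [hW₂] at hz ⊢
    exact Cfsg.Agent.H02.conj_mem_of_normalizer (norm_comm V E₂ hy) hz
  have hAW₂ : A ⊓ W₂ = ⊥ := by
    rw [eq_bot_iff]
    intro x hx
    have h3 : x ∈ A := hx.1
    rw [hA, mem_cj] at h3
    have h4 : y₀⁻¹ * x * y₀ ∈ W₂ := by
      have := hN2 y₀⁻¹ (E₂.inv_mem hy₀) x hx.2
      simpa using this
    have h5 : y₀⁻¹ * x * y₀ ∈ W₁ ⊓ W₂ := ⟨h3, h4⟩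
    rw [hinf, Subgroup.mem_bot] at h5
    rw [Subgroup.mem_bot]
    have e1 : x = y₀ * (y₀⁻¹ * x * y₀) * y₀⁻¹ := by group
    rw [e1, h5]
    group
  have hUeq : W₁ ⊔ A = U := by
    have h3 := Cfsg.Agent.H25.card_sup_mul_inf (X := W₁) (Y := A) (hVab hW₁V (hAU.trans hUV))
    rw [hAinf, Subgroup.card_bot, mul_one, hAc] at h3
    exact Subgroup.eq_of_le_of_card_ge (sup_le hW₁U hAU) (by rw [h3, hcUa])
  -- stabilizer is trivial
  have hstab : ∀ y ∈ E₂, cj y W₁ = W₁ → ∀ z ∈ U, y * z = z * y := by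
    intro y hy hyW z hz
    have hc1 : ∀ u ∈ W₁, y * u = u * y := by
      intro u hu
      have h3 : ⁅u, y⁆ ∈ W₂ := hmem2 u (hW₁V hu) y hy
      have h4 : ⁅u, y⁆ ∈ W₁ := by
        have e1 : ⁅u, y⁆ = u * (y * u⁻¹ * y⁻¹) := by
          rw [commutatorElement_def]
          group
        rw [e1]
        refine W₁.mul_mem hu ?_
        rw [← hyW]
        exact conj_mem_cj (W₁.inv_mem hu)
      have h5 : ⁅u, y⁆ ∈ W₁ ⊓ W₂ := ⟨h4, h3⟩
      rw [hinf, Subgroup.mem_bot] at h5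
      exact (commutatorElement_eq_one_iff_mul_comm.mp h5).symm
    have hyA : cj y A = A := by
      have hy' : y * y₀ ∈ E₂ := E₂.mul_mem hy hy₀
      rw [hA, cj_cj]
      have hne : cj (y * y₀) W₁ ≠ W₁ := by
        intro h3
        apply hmove1
        have h4 : cj y₀ W₁ = cj y⁻¹ (cj (y * y₀) W₁) := by
          rw [cj_cj]
          congr 1
          group
        rw [h4, h3]
        exact cj_inv_self hyW
      rw [← hA]
      exact huniq _ hy' hne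
    have hc2 : ∀ u ∈ A, y * u = u * y := by
      intro u hu
      have h3 : ⁅u, y⁆ ∈ W₂ := hmem2 u (hUV (hAU hu)) y hy
      have h4 : ⁅u, y⁆ ∈ A := by
        have e1 : ⁅u, y⁆ = u * (y * u⁻¹ * y⁻¹) := by
          rw [commutatorElement_def]
          group
        rw [e1]
        refine A.mul_mem hu ?_
        rw [← hyA]
        exact conj_mem_cj (A.inv_mem hu)
      have h5 : ⁅u, y⁆ ∈ A ⊓ W₂ := ⟨h4, h3⟩
      rw [hAW₂, Subgroup.mem_bot] at h5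
      exact (commutatorElement_eq_one_iff_mul_comm.mp h5).symm
    have hle : U ≤ Subgroup.centralizer {y} := by
      rw [← hUeq]
      apply sup_le
      · intro u hu
        exact Subgroup.mem_centralizer_singleton_iff.mpr (hc1 u hu).symm
      · intro u hu
        exact Subgroup.mem_centralizer_singleton_iff.mpr (hc2 u hu).symm
    exact (Subgroup.mem_centralizer_singleton_iff.mp (hle hz)).symm
  -- the kernel
  obtain ⟨T, hT⟩ : ∃ T, T = E₂ ⊓ Subgroup.centralizer (U : Set G) := ⟨_, rfl⟩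
  have hUN : ∀ y ∈ E₂, ∀ z ∈ U, y * z * y⁻¹ ∈ U := by
    intro y hy
    have hle : U ≤ U.comap (MulAut.conj y).toMonoidHom := by
      conv_lhs => rw [hU]
      apply sup_le
      · intro z hz
        exact hconj1 y hy (conj_mem_cj hz)
      · intro z hz
        exact hW₂U (hN2 y hy z hz)
    intro z hz
    exact hle hz
  have hTn : E₂ ≤ Subgroup.normalizer (T : Set G) := by
    intro y hy
    apply Cfsg.Agent.H19.mem_normalizer_of_conj_le
    intro t ht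
    rw [hT] at ht ⊢
    refine ⟨E₂.mul_mem (E₂.mul_mem hy ht.1) (E₂.inv_mem hy), Subgroup.mem_centralizer_iff.mpr fun z hz => ?_⟩
    have h3 := hUN y⁻¹ (E₂.inv_mem hy) z hz
    have h4 := Subgroup.mem_centralizer_iff.mp ht.2 _ h3
    have h5 : y⁻¹ * z * y⁻¹⁻¹ * t = t * (y⁻¹ * z * y⁻¹⁻¹) := h4
    calc z * (y * t * y⁻¹) = y * (y⁻¹ * z * y⁻¹⁻¹ * t) * y⁻¹ := by group
      _ = y * (t * (y⁻¹ * z * y⁻¹⁻¹)) * y⁻¹ := by rw [h5]
      _ = y * t * y⁻¹ * z := by group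
  have hTp : IsPGroup p T := by
    rintro ⟨t, ht⟩
    refine ⟨1, Subtype.ext ?_⟩
    have ht' := ht
    rw [hT] at ht'
    have h3 : t ^ p = 1 := by
      refine pow_eq_one_of_chain (U := U) hs.hV hs.hf hUV (hE2 ht'.1) ?_ ?_
      · intro v hv
        exact hW₂U (hmem2 v hv t ht'.1)
      · intro u hu
        exact (Subgroup.mem_centralizer_iff.mp ht'.2 u hu).symm
    simpa using h3
  have hTbot : T = ⊥ := SN.pgroup hs.hO (h2.sn.sub (by rw [hT]; exact inf_le_left) hTn) hTp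
  have hstab' : ∀ y ∈ E₂, cj y W₁ = W₁ → y = 1 := by
    intro y hy hyW
    have h3 : y ∈ T := by
      rw [hT]
      refine ⟨hy, Subgroup.mem_centralizer_iff.mpr fun z hz => ?_⟩
      exact (hstab y hy hyW z hz).symm
    rw [hTbot, Subgroup.mem_bot] at h3
    exact h3
  have hsub : (E₂ : Set G) ⊆ {1, y₀} := by
    intro y hy
    by_cases hyW : cj y W₁ = W₁
    · left
      exact hstab' y hy hyW
    · right
      have h3 := huniq y hy hyW
      have h4 : cj (y₀⁻¹ * y) W₁ = W₁ := by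
        rw [← cj_cj, h3, hA, cj_cj]
        simp only [inv_mul_cancel]
        ext x
        rw [mem_cj]
        simp
      have h5 := hstab' _ (E₂.mul_mem (E₂.inv_mem hy₀) hy) h4
      have h6 : y = y₀ * (y₀⁻¹ * y) := by group
      rw [h6, h5, mul_one]
      rfl
  have hcard : Nat.card E₂ ≤ 2 := by
    have h3 : (E₂ : Set G).ncard ≤ ({1, y₀} : Set G).ncard := Set.ncard_le_ncard hsub (Set.toFinite _)
    have h4 : ({1, y₀} : Set G).ncard ≤ 2 := by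
      refine (Set.ncard_insert_le _ _).trans ?_
      rw [Set.ncard_singleton]
    have h5 : Nat.card E₂ = (E₂ : Set G).ncard := Nat.card_coe_set_eq (E₂ : Set G)
    omega
  have := h2.big
  omega

/-- The main theorem: the subgroups commute. -/
theorem main_comm (hs : Sys p V E) : ∀ (n : ℕ) (E₁ E₂ : Subgroup G), Nat.card ↥(E₁ ⊔ E₂) = n →
    Good V E E₁ → Good V E E₂ → ¬ ⁅V, E₁⁆ ≤ ⁅V, E₂⁆ → ¬ ⁅V, E₂⁆ ≤ ⁅V, E₁⁆ → ⁅E₁, E₂⁆ = ⊥ := by
  classical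
  intro n
  induction n using Nat.strong_induction_on with
  | _ n ih =>
  intro E₁ E₂ hn h1 h2 h12 h21
  have hE1 := h1.sn.1
  have hE2 := h2.sn.1
  have hFE : E₁ ⊔ E₂ ≤ E := sup_le hE1 hE2
  have hne1 : E₁ ≠ E₁ ⊔ E₂ := by
    intro h
    apply h21
    exact Subgroup.commutator_mono le_rfl (by rw [h]; exact le_sup_right)
  have hne2 : E₂ ≠ E₁ ⊔ E₂ := by
    intro h
    apply h12
    exact Subgroup.commutator_mono le_rfl (by rw [h]; exact le_sup_left)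
  obtain ⟨D₁, hD₁lt, hD₁n, hD₁⟩ := h1.sn.proper le_sup_left hFE hne1
  obtain ⟨D₂, hD₂lt, hD₂n, hD₂⟩ := h2.sn.proper le_sup_right hFE hne2
  have hpair : ∀ {A D : Subgroup G}, Good V E A → A ≤ D → D < E₁ ⊔ E₂ → E₁ ⊔ E₂ ≤ Subgroup.normalizer (D : Set G) →
      ∀ y ∈ E₁ ⊔ E₂, cj y ⁅V, A⁆ ≠ ⁅V, A⁆ → ⁅V, A⁆ ⊓ cj y ⁅V, A⁆ = ⊥ ∧ ∀ w ∈ cj y ⁅V, A⁆, ∀ e ∈ A, e * w = w * e := by
    intro A D hA hAD hDlt hDn y hy hne
    have hyE := hFE hy
    have hyV := hs.hEV hyE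
    have hB := hA.conj hs hyE
    have hBw : ⁅V, cj y A⁆ = cj y ⁅V, A⁆ := (cj_comm_V hyV).symm
    have hcard : Nat.card (cj y ⁅V, A⁆) = Nat.card (⁅V, A⁆ : Subgroup G) := card_cj _ _
    have hinc1 : ¬ ⁅V, A⁆ ≤ ⁅V, cj y A⁆ := by
      rw [hBw]
      intro h
      exact hne (Subgroup.eq_of_le_of_card_ge h (by rw [hcard])).symm
    have hinc2 : ¬ ⁅V, cj y A⁆ ≤ ⁅V, A⁆ := by
      rw [hBw]
      intro h
      exact hne (Subgroup.eq_of_le_of_card_ge h (by rw [hcard]))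
    have hBD : cj y A ≤ D := by
      rintro _ ⟨a, ha, rfl⟩
      exact Cfsg.Agent.H02.conj_mem_of_normalizer (hDn hy) (hAD ha)
    have hlt : Nat.card ↥(A ⊔ cj y A) < n := by
      rw [← hn]
      refine lt_of_le_of_lt (Subgroup.card_le_of_le (sup_le hAD hBD)) ?_
      exact lt_of_le_of_ne (Subgroup.card_le_of_le hDlt.le)
        (fun h => hDlt.ne (Subgroup.eq_of_le_of_card_ge hDlt.le h.ge))
    have hcm := ih _ hlt A (cj y A) rfl hA hB hinc1 hinc2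
    have h3 := of_commute hs hA hB hinc1 hcm
    rw [hBw] at h3
    exact h3
  have hI1 : ∀ y ∈ E₂, cj y ⁅V, E₁⁆ ≠ ⁅V, E₁⁆ → _ := fun y hy hne => hpair h1 hD₁ hD₁lt hD₁n y (Subgroup.mem_sup_right hy) hne
  have hI2 : ∀ x ∈ E₁, cj x ⁅V, E₂⁆ ≠ ⁅V, E₂⁆ → _ := fun x hx hne => hpair h2 hD₂ hD₂lt hD₂n x (Subgroup.mem_sup_left hx) hne
  by_cases m1 : ∃ y ∈ E₂, cj y ⁅V, E₁⁆ ≠ ⁅V, E₁⁆
  · by_cases m2 : ∃ x ∈ E₁, cj x ⁅V, E₂⁆ ≠ ⁅V, E₂⁆
    · obtain ⟨y₀, hy₀, hm1⟩ := m1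
      obtain ⟨x₀, hx₀, hm2⟩ := m2
      exact (case_C hs h1 h2 hy₀ hx₀ hm1 hm2 hI1 hI2).elim
    · exfalso
      push Not at m2
      obtain ⟨y₀, hy₀, hm1⟩ := m1
      exact case_B hs h1 h2 h12 hy₀ (hI1 y₀ hy₀ hm1).2 (fun x hx => norm_of_cj (m2 x hx))
  · by_cases m2 : ∃ x ∈ E₁, cj x ⁅V, E₂⁆ ≠ ⁅V, E₂⁆
    · exfalso
      push Not at m1
      obtain ⟨x₀, hx₀, hm2⟩ := m2
      exact case_B hs h2 h1 h21 hx₀ (hI2 x₀ hx₀ hm2).2 (fun y hy => norm_of_cj (m1 y hy))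
    · push Not at m1 m2
      have hN12 : E₂ ≤ Subgroup.normalizer ((⁅V, E₁⁆ : Subgroup G) : Set G) := fun y hy => norm_of_cj (m1 y hy)
      have hN21 : E₁ ≤ Subgroup.normalizer ((⁅V, E₂⁆ : Subgroup G) : Set G) := fun x hx => norm_of_cj (m2 x hx)
      have hinv : E₁ ≤ Subgroup.normalizer ((⁅V, E₁⁆ ⊓ ⁅V, E₂⁆ : Subgroup G) : Set G) := by
        intro e he
        apply Cfsg.Agent.H19.mem_normalizer_of_conj_le
        intro x hx
        exact ⟨Cfsg.Agent.H02.conj_mem_of_normalizer (norm_comm V E₁ he) hx.1,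
          Cfsg.Agent.H02.conj_mem_of_normalizer (hN21 he) hx.2⟩
      have hinf : ⁅V, E₁⁆ ⊓ ⁅V, E₂⁆ = ⊥ := by
        rcases h1.irr (⁅V, E₁⁆ ⊓ ⁅V, E₂⁆) inf_le_left hinv with h3 | h3
        · exact h3
        · exact absurd (inf_eq_left.mp h3) h12
      have h3 : ⁅⁅V, E₁⁆, E₂⁆ = ⊥ := by
        rw [eq_bot_iff, Subgroup.commutator_le]
        intro w hw e he
        have hwV : w ∈ V := comm_le (hE1.trans hs.hEV) hw
        have h4 : ⁅w, e⁆ ∈ ⁅V, E₂⁆ := Subgroup.commutator_mem_commutator hwV he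
        have h5 : ⁅w, e⁆ ∈ ⁅V, E₁⁆ := by
          have e2 : ⁅w, e⁆ = w * (e * w⁻¹ * e⁻¹) := by
            rw [commutatorElement_def]
            group
          rw [e2]
          exact Subgroup.mul_mem _ hw (Cfsg.Agent.H02.conj_mem_of_normalizer (hN12 he) (Subgroup.inv_mem _ hw))
        have h6 : ⁅w, e⁆ ∈ ⁅V, E₁⁆ ⊓ ⁅V, E₂⁆ := ⟨h5, h4⟩
        rw [hinf] at h6
        exact h6
      have h4 : ⁅⁅E₂, V⁆, E₁⁆ = ⊥ := by
        rw [Subgroup.commutator_comm E₂ V, eq_bot_iff, Subgroup.commutator_le]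
        intro w hw e he
        have hwV : w ∈ V := comm_le (hE2.trans hs.hEV) hw
        have h4 : ⁅w, e⁆ ∈ ⁅V, E₁⁆ := Subgroup.commutator_mem_commutator hwV he
        have h5 : ⁅w, e⁆ ∈ ⁅V, E₂⁆ := by
          have e2 : ⁅w, e⁆ = w * (e * w⁻¹ * e⁻¹) := by
            rw [commutatorElement_def]
            group
          rw [e2]
          exact Subgroup.mul_mem _ hw (Cfsg.Agent.H02.conj_mem_of_normalizer (hN21 he) (Subgroup.inv_mem _ hw))
        have h6 : ⁅w, e⁆ ∈ ⁅V, E₁⁆ ⊓ ⁅V, E₂⁆ := ⟨h4, h5⟩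
        rw [hinf] at h6
        exact h6
      have h5 := Subgroup.commutator_commutator_eq_bot_of_rotate h4 h3
      rw [eq_bot_iff, ← hs.hf]
      intro x hx
      refine ⟨?_, Subgroup.mem_centralizer_iff.mpr fun v hv => ?_⟩
      · have h6 : ⁅E₁, E₂⁆ ≤ E := by
          rw [Subgroup.commutator_le]
          intro a ha b hb
          rw [commutatorElement_def]
          exact E.mul_mem (E.mul_mem (E.mul_mem (hE1 ha) (hE2 hb)) (E.inv_mem (hE1 ha))) (E.inv_mem (hE2 hb))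
        exact h6 hx
      · have h6 : ⁅x, v⁆ ∈ ⁅⁅E₁, E₂⁆, V⁆ := Subgroup.commutator_mem_commutator hx hv
        rw [h5, Subgroup.mem_bot] at h6
        exact (commutatorElement_eq_one_iff_mul_comm.mp h6).symm

theorem main_all {E₁ E₂ : Subgroup G} (hV : IsElementaryAbelian p V) (hEV : E ≤ Subgroup.normalizer (V : Set G))
    (hf : E ⊓ Subgroup.centralizer (V : Set G) = ⊥) (hgen : E = E₁ ⊔ E₂)
    (hs₁ : (E₁.subgroupOf E).IsSubnormal) (hs₂ : (E₂.subgroupOf E).IsSubnormal) (hOp : pCore p ↥E = ⊥)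
    (hirr₁ : ∀ U : Subgroup G, U ≤ ⁅V, E₁⁆ → E₁ ≤ Subgroup.normalizer (U : Set G) → U = ⊥ ∨ U = ⁅V, E₁⁆)
    (hirr₂ : ∀ U : Subgroup G, U ≤ ⁅V, E₂⁆ → E₂ ≤ Subgroup.normalizer (U : Set G) → U = ⊥ ∨ U = ⁅V, E₂⁆)
    (h12 : ¬ ⁅V, E₁⁆ ≤ ⁅V, E₂⁆) (h21 : ¬ ⁅V, E₂⁆ ≤ ⁅V, E₁⁆) (hc₁ : 2 < Nat.card E₁) (hc₂ : 2 < Nat.card E₂) :
    ⁅E₁, E₂⁆ = ⊥ ∧ E₁ ⊓ E₂ = ⊥ ∧ ⁅V, E₁⁆ ⊓ ⁅V, E₂⁆ = ⊥ ∧ ⁅V, E⁆ = ⁅V, E₁⁆ ⊔ ⁅V, E₂⁆ := by
  classical
  have hE1 : E₁ ≤ E := by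
    rw [hgen]
    exact le_sup_left
  have hE2 : E₂ ≤ E := by
    rw [hgen]
    exact le_sup_right
  have hs : Sys p V E := ⟨hV, hEV, hf, hOp⟩
  have h1 : Good V E E₁ := ⟨⟨hE1, hs₁⟩, hirr₁, hc₁⟩
  have h2 : Good V E E₂ := ⟨⟨hE2, hs₂⟩, hirr₂, hc₂⟩
  have hc := main_comm hs _ E₁ E₂ rfl h1 h2 h12 h21
  obtain ⟨hinf, hfix⟩ := of_commute hs h1 h2 h12 hc
  refine ⟨hc, ?_, hinf, ?_⟩
  · rw [eq_bot_iff, ← hf]
    intro x hx
    refine ⟨hE1 hx.1, Subgroup.mem_centralizer_iff.mpr fun v hv => ?_⟩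
    have h3 : ⁅v, x⁆ ∈ ⁅V, E₁⁆ ⊓ ⁅V, E₂⁆ :=
      ⟨Subgroup.commutator_mem_commutator hv hx.1, Subgroup.commutator_mem_commutator hv hx.2⟩
    rw [hinf, Subgroup.mem_bot] at h3
    exact commutatorElement_eq_one_iff_mul_comm.mp h3
  · apply le_antisymm
    · rw [Subgroup.commutator_le]
      intro v hv g hg
      have hcomm : ∀ e ∈ E₁, ∀ f ∈ E₂, e * f = f * e := by
        intro e he f hf
        have h3 : ⁅e, f⁆ ∈ ⁅E₁, E₂⁆ := Subgroup.commutator_mem_commutator he hf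
        rw [hc, Subgroup.mem_bot] at h3
        exact commutatorElement_eq_one_iff_mul_comm.mp h3
      have hNE : E₂ ≤ Subgroup.normalizer (E₁ : Set G) := by
        intro f hf
        apply Cfsg.Agent.H19.mem_normalizer_of_conj_le
        intro e he
        have e1 : f * e * f⁻¹ = e := by
          rw [← hcomm e he f hf]
          group
        rw [e1]
        exact he
      rw [hgen] at hg
      obtain ⟨e, he, f, hf', rfl⟩ := Cfsg.Agent.H01.exists_mul_of_mem_sup hNE hg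
      rw [Cfsg.Agent.H02.comm_mul_eq]
      refine Subgroup.mul_mem _ (Subgroup.mem_sup_right (Subgroup.commutator_mem_commutator hv hf')) ?_
      exact Subgroup.mem_sup_left (Subgroup.commutator_mem_commutator
        (Cfsg.Agent.H02.conj_mem_of_normalizer (hEV (hE2 hf')) hv) he)
    · exact sup_le (Subgroup.commutator_mono le_rfl hE1) (Subgroup.commutator_mono le_rfl hE2)

end sys

end Cfsg.Agent.H14.Irr
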