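import Mathlib

set_option autoImplicit false

namespace Cfsg.Agent.H14.ItoProd

open scoped commutatorElement

variable {H : Type*} [Group H]

private def cc (a b : H) : H := a * b * a⁻¹ * b⁻¹

/-- Itô's theorem in subgroup form: a product of two abelian subgroups is metabelian. -/
theorem ito_sub (P Q S : Subgroup H)
    (hP : ∀ x ∈ P, ∀ y ∈ P, x * y = y * x) (hQ : ∀ x ∈ Q, ∀ y ∈ Q, x * y = y * x)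
    (hPS : P ≤ S) (hQS : Q ≤ S)
    (hS : ∀ s ∈ S, ∃ p ∈ P, ∃ q ∈ Q, s = p * q) :
    ⁅⁅S, S⁆, ⁅S, S⁆⁆ = ⊥ := by
  -- the other factorisation
  have hS' : ∀ s ∈ S, ∃ q ∈ Q, ∃ p ∈ P, s = q * p := by
    intro s hs
    obtain ⟨p, hp, q, hq, e⟩ := hS _ (S.inv_mem hs)
    refine ⟨q⁻¹, Q.inv_mem hq, p⁻¹, P.inv_mem hp, ?_⟩
    have : s = (p * q)⁻¹ := by rw [← e, inv_inv]
    rw [this, mul_inv_rev]
  -- claim A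
  have cA : ∀ a ∈ P, ∀ a₁ ∈ P, ∀ b ∈ Q, ∃ b₂ ∈ Q, ∃ a₂ ∈ P, a₁ * b * a₁⁻¹ = b₂ * a₂ ∧
      a₁ * (a * b * a⁻¹ * b⁻¹) * a₁⁻¹ = a * b₂ * a⁻¹ * b₂⁻¹ := by
    intro a ha a₁ ha₁ b hb
    obtain ⟨b₂, hb₂, a₂, ha₂, e⟩ := hS' (a₁ * b * a₁⁻¹)
      (S.mul_mem (S.mul_mem (hPS ha₁) (hQS hb)) (S.inv_mem (hPS ha₁)))
    refine ⟨b₂, hb₂, a₂, ha₂, e, ?_⟩
    have h1 : a₁ * (a * b * a⁻¹ * b⁻¹) * a₁⁻¹ = a * (a₁ * b * a₁⁻¹) * a⁻¹ * (a₁ * b * a₁⁻¹)⁻¹ := by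
      have hc : a₁ * a = a * a₁ := hP _ ha₁ _ ha
      have hc' : a₁ * a⁻¹ = a⁻¹ * a₁ := hP _ ha₁ _ (P.inv_mem ha)
      calc a₁ * (a * b * a⁻¹ * b⁻¹) * a₁⁻¹
          = (a₁ * a) * b * a⁻¹ * b⁻¹ * a₁⁻¹ := by group
        _ = a * a₁ * b * a⁻¹ * b⁻¹ * a₁⁻¹ := by rw [hc]
        _ = a * a₁ * b * (a⁻¹ * a₁⁻¹ * a₁) * b⁻¹ * a₁⁻¹ := by group
        _ = a * a₁ * b * (a₁⁻¹ * a⁻¹ * a₁) * b⁻¹ * a₁⁻¹ := by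
              rw [show a⁻¹ * a₁⁻¹ = a₁⁻¹ * a⁻¹ from hP _ (P.inv_mem ha) _ (P.inv_mem ha₁)]
        _ = a * (a₁ * b * a₁⁻¹) * a⁻¹ * (a₁ * b * a₁⁻¹)⁻¹ := by group
    rw [h1, e]
    have hc : a₂ * a⁻¹ = a⁻¹ * a₂ := hP _ ha₂ _ (P.inv_mem ha)
    calc a * (b₂ * a₂) * a⁻¹ * (b₂ * a₂)⁻¹
        = a * b₂ * (a₂ * a⁻¹) * a₂⁻¹ * b₂⁻¹ := by group
      _ = a * b₂ * (a⁻¹ * a₂) * a₂⁻¹ * b₂⁻¹ := by rw [hc]
      _ = a * b₂ * a⁻¹ * b₂⁻¹ := by group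
  -- claim B
  have cB : ∀ a ∈ P, ∀ b ∈ Q, ∀ b₁ ∈ Q, ∃ a₃ ∈ P, ∃ b₃ ∈ Q, b₁ * a * b₁⁻¹ = a₃ * b₃ ∧
      b₁ * (a * b * a⁻¹ * b⁻¹) * b₁⁻¹ = a₃ * b * a₃⁻¹ * b⁻¹ := by
    intro a ha b hb b₁ hb₁
    obtain ⟨a₃, ha₃, b₃, hb₃, e⟩ := hS (b₁ * a * b₁⁻¹)
      (S.mul_mem (S.mul_mem (hQS hb₁) (hPS ha)) (S.inv_mem (hQS hb₁)))
    refine ⟨a₃, ha₃, b₃, hb₃, e, ?_⟩
    have h1 : b₁ * (a * b * a⁻¹ * b⁻¹) * b₁⁻¹ = (b₁ * a * b₁⁻¹) * b * (b₁ * a * b₁⁻¹)⁻¹ * b⁻¹ := by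
      have hc : b₁ * b = b * b₁ := hQ _ hb₁ _ hb
      have hc' : b₁ * b⁻¹ = b⁻¹ * b₁ := hQ _ hb₁ _ (Q.inv_mem hb)
      calc b₁ * (a * b * a⁻¹ * b⁻¹) * b₁⁻¹
          = b₁ * a * (b₁⁻¹ * (b₁ * b)) * a⁻¹ * b⁻¹ * b₁⁻¹ := by group
        _ = b₁ * a * (b₁⁻¹ * (b * b₁)) * a⁻¹ * (b⁻¹ * b₁⁻¹) := by rw [hc]; group
        _ = b₁ * a * (b₁⁻¹ * (b * b₁)) * a⁻¹ * (b₁⁻¹ * b⁻¹) := by
              rw [show b⁻¹ * b₁⁻¹ = b₁⁻¹ * b⁻¹ from hQ _ (Q.inv_mem hb) _ (Q.inv_mem hb₁)]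
        _ = (b₁ * a * b₁⁻¹) * b * (b₁ * a * b₁⁻¹)⁻¹ * b⁻¹ := by group
    rw [h1, e]
    have hc : b₃ * b = b * b₃ := hQ _ hb₃ _ hb
    calc (a₃ * b₃) * b * (a₃ * b₃)⁻¹ * b⁻¹
        = a₃ * (b₃ * b) * b₃⁻¹ * a₃⁻¹ * b⁻¹ := by group
      _ = a₃ * (b * b₃) * b₃⁻¹ * a₃⁻¹ * b⁻¹ := by rw [hc]
      _ = a₃ * b * a₃⁻¹ * b⁻¹ := by group
  -- generators
  let gens : Set H := {x | ∃ a ∈ P, ∃ b ∈ Q, x = a * b * a⁻¹ * b⁻¹}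
  let T : Subgroup H := Subgroup.closure gens
  have hT_gen : ∀ a ∈ P, ∀ b ∈ Q, a * b * a⁻¹ * b⁻¹ ∈ T := fun a ha b hb =>
    Subgroup.subset_closure ⟨a, ha, b, hb, rfl⟩
  -- T stable under conjugation by P and Q
  have conj_gens : ∀ s : H, (s ∈ P ∨ s ∈ Q) → ∀ t ∈ T, s * t * s⁻¹ ∈ T := by
    intro s hs t ht
    induction ht using Subgroup.closure_induction with
    | mem x hx =>
      obtain ⟨a, ha, b, hb, rfl⟩ := hx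
      rcases hs with hs | hs
      · obtain ⟨b₂, hb₂, a₂, ha₂, _, e⟩ := cA a ha s hs b hb
        rw [e]; exact hT_gen _ ha _ hb₂
      · obtain ⟨a₃, ha₃, b₃, hb₃, _, e⟩ := cB a ha b hb s hs
        rw [e]; exact hT_gen _ ha₃ _ hb
    | one => simp
    | mul x y _ _ hx hy =>
      have : s * (x * y) * s⁻¹ = (s * x * s⁻¹) * (s * y * s⁻¹) := by group
      rw [this]; exact T.mul_mem hx hy
    | inv x _ hx =>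
      have : s * x⁻¹ * s⁻¹ = (s * x * s⁻¹)⁻¹ := by group
      rw [this]; exact T.inv_mem hx
  have conj_S : ∀ s ∈ S, ∀ t ∈ T, s * t * s⁻¹ ∈ T := by
    intro s hs t ht
    obtain ⟨p, hp, q, hq, rfl⟩ := hS s hs
    have h1 := conj_gens q (Or.inr hq) t ht
    have h2 := conj_gens p (Or.inl hp) _ h1
    have : p * q * t * (p * q)⁻¹ = p * (q * t * q⁻¹) * p⁻¹ := by group
    rw [this]; exact h2
  -- S' ≤ T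
  have comm_PP : ∀ x ∈ S, ∀ p' ∈ P, ∀ q' ∈ Q, ⁅x, p' * q'⁆ ∈ T := by
    intro x hx p' hp' q' hq'
    obtain ⟨p, hp, q, hq, rfl⟩ := hS x hx
    -- split [pq, r]
    have e1 : ⁅p * q, p' * q'⁆ = p * ⁅q, p' * q'⁆ * p⁻¹ * ⁅p, p' * q'⁆ := by
      simp only [commutatorElement_def]; group
    have e2 : ⁅q, p' * q'⁆ = ⁅q, p'⁆ := by
      have hc : q * q' = q' * q := hQ _ hq _ hq'
      simp only [commutatorElement_def]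
      calc q * (p' * q') * q⁻¹ * (p' * q')⁻¹
          = q * p' * (q' * q⁻¹) * q'⁻¹ * p'⁻¹ := by group
        _ = q * p' * (q⁻¹ * q') * q'⁻¹ * p'⁻¹ := by
              rw [show q' * q⁻¹ = q⁻¹ * q' from hQ _ hq' _ (Q.inv_mem hq)]
        _ = q * p' * q⁻¹ * p'⁻¹ := by group
    have e3 : ⁅p, p' * q'⁆ = p' * ⁅p, q'⁆ * p'⁻¹ := by
      have hc : p * p' = p' * p := hP _ hp _ hp'
      simp only [commutatorElement_def]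
      calc p * (p' * q') * p⁻¹ * (p' * q')⁻¹
          = (p * p') * q' * p⁻¹ * q'⁻¹ * p'⁻¹ := by group
        _ = (p' * p) * q' * p⁻¹ * q'⁻¹ * p'⁻¹ := by rw [hc]
        _ = p' * (p * q' * p⁻¹ * q'⁻¹) * p'⁻¹ := by group
    have m1 : ⁅q, p'⁆ ∈ T := by
      have : ⁅q, p'⁆ = (p' * q * p'⁻¹ * q⁻¹)⁻¹ := by
        simp only [commutatorElement_def]; group
      rw [this]; exact T.inv_mem (hT_gen _ hp' _ hq)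
    have m2 : ⁅p, q'⁆ ∈ T := by
      simp only [commutatorElement_def]; exact hT_gen _ hp _ hq'
    rw [e1, e2, e3]
    exact T.mul_mem (conj_S _ (hPS hp) _ m1) (conj_S _ (hPS hp') _ m2)
  have hle : ⁅S, S⁆ ≤ T := by
    rw [Subgroup.commutator_le]
    intro x hx y hy
    obtain ⟨p', hp', q', hq', rfl⟩ := hS y hy
    exact comm_PP x hx p' hp' q' hq'
  -- generators commute
  have key : ∀ a ∈ P, ∀ b ∈ Q, ∀ a₁ ∈ P, ∀ b₁ ∈ Q,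
      (a * b * a⁻¹ * b⁻¹) * (a₁ * b₁ * a₁⁻¹ * b₁⁻¹) = (a₁ * b₁ * a₁⁻¹ * b₁⁻¹) * (a * b * a⁻¹ * b⁻¹) := by
    intro a ha b hb a₁' ha₁' b₁' hb₁'
    -- set a₁ = a₁'⁻¹ , b₁ = b₁'⁻¹
    set a₁ := a₁'⁻¹ with ha₁d
    set b₁ := b₁'⁻¹ with hb₁d
    have ha₁ : a₁ ∈ P := P.inv_mem ha₁'
    have hb₁ : b₁ ∈ Q := Q.inv_mem hb₁'
    set x := a * b * a⁻¹ * b⁻¹ with hx
    -- (b₁ a₁) • x
    obtain ⟨b₂, hb₂, a₂, ha₂, e₁, e₂⟩ := cA a ha a₁ ha₁ b hb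
    obtain ⟨a₃, ha₃, b₃, hb₃, e₃, e₄⟩ := cB a ha b hb b₁ hb₁
    -- b₁ • c(a, b₂) = c(a₃, b₂)
    have f1 : b₁ * (a₁ * x * a₁⁻¹) * b₁⁻¹ = a₃ * b₂ * a₃⁻¹ * b₂⁻¹ := by
      rw [e₂]
      obtain ⟨a₃', ha₃', b₃', hb₃', e₃', e₄'⟩ := cB a ha b₂ hb₂ b₁ hb₁
      -- compare decompositions directly
      have h1 : b₁ * (a * b₂ * a⁻¹ * b₂⁻¹) * b₁⁻¹ = (b₁ * a * b₁⁻¹) * b₂ * (b₁ * a * b₁⁻¹)⁻¹ * b₂⁻¹ := by
        have hc : b₁ * b₂ = b₂ * b₁ := hQ _ hb₁ _ hb₂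
        calc b₁ * (a * b₂ * a⁻¹ * b₂⁻¹) * b₁⁻¹
            = b₁ * a * (b₁⁻¹ * (b₁ * b₂)) * a⁻¹ * b₂⁻¹ * b₁⁻¹ := by group
          _ = b₁ * a * (b₁⁻¹ * (b₂ * b₁)) * a⁻¹ * (b₂⁻¹ * b₁⁻¹) := by rw [hc]; group
          _ = b₁ * a * (b₁⁻¹ * (b₂ * b₁)) * a⁻¹ * (b₁⁻¹ * b₂⁻¹) := by
                rw [show b₂⁻¹ * b₁⁻¹ = b₁⁻¹ * b₂⁻¹ from hQ _ (Q.inv_mem hb₂) _ (Q.inv_mem hb₁)]
          _ = (b₁ * a * b₁⁻¹) * b₂ * (b₁ * a * b₁⁻¹)⁻¹ * b₂⁻¹ := by group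
      rw [h1, e₃]
      have hc : b₃ * b₂ = b₂ * b₃ := hQ _ hb₃ _ hb₂
      calc (a₃ * b₃) * b₂ * (a₃ * b₃)⁻¹ * b₂⁻¹
          = a₃ * (b₃ * b₂) * b₃⁻¹ * a₃⁻¹ * b₂⁻¹ := by group
        _ = a₃ * (b₂ * b₃) * b₃⁻¹ * a₃⁻¹ * b₂⁻¹ := by rw [hc]
        _ = a₃ * b₂ * a₃⁻¹ * b₂⁻¹ := by group
    -- a₁ • c(a₃, b) = c(a₃, b₂)
    have f2 : a₁ * (b₁ * x * b₁⁻¹) * a₁⁻¹ = a₃ * b₂ * a₃⁻¹ * b₂⁻¹ := by
      rw [e₄]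
      obtain ⟨b₂', hb₂', a₂', ha₂', e₁', e₂'⟩ := cA a₃ ha₃ a₁ ha₁ b hb
      rw [e₂']
      -- b₂' a₂' = b₂ a₂ so b₂⁻¹ b₂' = a₂ a₂'⁻¹ ∈ P ∩ Q
      have heq : b₂' * a₂' = b₂ * a₂ := by rw [← e₁', e₁]
      have hd : b₂' = b₂ * (a₂ * a₂'⁻¹) := by
        calc b₂' = (b₂' * a₂') * a₂'⁻¹ := by group
          _ = b₂ * (a₂ * a₂'⁻¹) := by rw [heq]; group
      have hda : a₂ * a₂'⁻¹ ∈ P := P.mul_mem ha₂ (P.inv_mem ha₂')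
      have hcd : a₃ * (a₂ * a₂'⁻¹) = (a₂ * a₂'⁻¹) * a₃ := hP _ ha₃ _ hda
      rw [hd]
      set d := a₂ * a₂'⁻¹ with hdd
      calc a₃ * (b₂ * d) * a₃⁻¹ * (b₂ * d)⁻¹
          = a₃ * b₂ * (d * a₃⁻¹) * d⁻¹ * b₂⁻¹ := by group
        _ = a₃ * b₂ * (a₃⁻¹ * d) * d⁻¹ * b₂⁻¹ := by
              rw [show d * a₃⁻¹ = a₃⁻¹ * d from hP _ hda _ (P.inv_mem ha₃)]
        _ = a₃ * b₂ * a₃⁻¹ * b₂⁻¹ := by group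
    have f3 : b₁ * (a₁ * x * a₁⁻¹) * b₁⁻¹ = a₁ * (b₁ * x * b₁⁻¹) * a₁⁻¹ := by rw [f1, f2]
    -- translate
    have hc : a₁' * b₁' * a₁'⁻¹ * b₁'⁻¹ = (b₁ * a₁)⁻¹ * (a₁ * b₁) := by
      rw [ha₁d, hb₁d]; group
    rw [hc]
    have f4 : (b₁ * a₁) * x * (b₁ * a₁)⁻¹ = (a₁ * b₁) * x * (a₁ * b₁)⁻¹ := by
      calc (b₁ * a₁) * x * (b₁ * a₁)⁻¹ = b₁ * (a₁ * x * a₁⁻¹) * b₁⁻¹ := by group
        _ = a₁ * (b₁ * x * b₁⁻¹) * a₁⁻¹ := f3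
        _ = (a₁ * b₁) * x * (a₁ * b₁)⁻¹ := by group
    have f5 : x * ((b₁ * a₁)⁻¹ * (a₁ * b₁)) = (b₁ * a₁)⁻¹ * ((a₁ * b₁) * x * (a₁ * b₁)⁻¹) * (a₁ * b₁)
        := by
      rw [← f4]; group
    rw [f5]; group
  -- T abelian
  have comm_T : ∀ s ∈ T, ∀ t ∈ T, s * t = t * s := by
    intro s hs t ht
    have h1 : ∀ g ∈ gens, ∀ t ∈ T, Commute g t := by
      intro g hg t ht
      obtain ⟨a, ha, b, hb, rfl⟩ := hg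
      induction ht using Subgroup.closure_induction with
      | mem y hy =>
        obtain ⟨a₁, ha₁, b₁, hb₁, rfl⟩ := hy
        exact key a ha b hb a₁ ha₁ b₁ hb₁
      | one => exact Commute.one_right _
      | mul x y _ _ hx hy => exact hx.mul_right hy
      | inv x _ hx => exact hx.inv_right
    have h2 : Commute s t := by
      induction hs using Subgroup.closure_induction with
      | mem y hy => exact h1 y hy t ht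
      | one => exact Commute.one_left _
      | mul x y _ _ hx hy => exact hx.mul_left hy
      | inv x _ hx => exact hx.inv_left
    exact h2
  rw [eq_bot_iff, Subgroup.commutator_le]
  intro x hx y hy
  rw [Subgroup.mem_bot, commutatorElement_eq_one_iff_mul_comm]
  exact comm_T x (hle hx) y (hle hy)

/-- Itô modulo a normal subgroup. -/
theorem ito_mod {G : Type*} [Group G] (P Q S M : Subgroup G) [M.Normal]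
    (hP : ⁅P, P⁆ ≤ M) (hQ : ⁅Q, Q⁆ ≤ M)
    (hPS : P ≤ S) (hQS : Q ≤ S)
    (hS : ∀ s ∈ S, ∃ p ∈ P, ∃ q ∈ Q, s = p * q) :
    ⁅⁅S, S⁆, ⁅S, S⁆⁆ ≤ M := by
  let π := QuotientGroup.mk' M
  have key := ito_sub (P.map π) (Q.map π) (S.map π)
    (by
      rintro _ ⟨x, hx, rfl⟩ _ ⟨y, hy, rfl⟩
      have : ⁅x, y⁆ ∈ M := hP (Subgroup.commutator_mem_commutator hx hy)
      have h2 : π ⁅x, y⁆ = 1 := (QuotientGroup.eq_one_iff _).2 this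
      rw [map_commutatorElement, commutatorElement_eq_one_iff_mul_comm] at h2
      exact h2)
    (by
      rintro _ ⟨x, hx, rfl⟩ _ ⟨y, hy, rfl⟩
      have : ⁅x, y⁆ ∈ M := hQ (Subgroup.commutator_mem_commutator hx hy)
      have h2 : π ⁅x, y⁆ = 1 := (QuotientGroup.eq_one_iff _).2 this
      rw [map_commutatorElement, commutatorElement_eq_one_iff_mul_comm] at h2
      exact h2)
    (Subgroup.map_mono hPS) (Subgroup.map_mono hQS)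
    (by
      rintro _ ⟨s, hs, rfl⟩
      obtain ⟨p, hp, q, hq, rfl⟩ := hS s hs
      exact ⟨π p, ⟨p, hp, rfl⟩, π q, ⟨q, hq, rfl⟩, map_mul _ _ _⟩)
  rw [← Subgroup.map_commutator, ← Subgroup.map_commutator] at key
  intro x hx
  have h1 : π x ∈ (⁅⁅S, S⁆, ⁅S, S⁆⁆ : Subgroup G).map π := ⟨x, hx, rfl⟩
  rw [key, Subgroup.mem_bot] at h1
  exact (QuotientGroup.eq_one_iff _).1 h1

end Cfsg.Agent.H14.ItoProd
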