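import Mathlib
import Cfsg.Agent.Lib.H14.Sim360
import Cfsg.Agent.Lib.H15.ChzFour2

set_option autoImplicit false

/-! Simple groups of order 360: Sylow 3-subgroups are TI; no elements of order 6. -/

namespace Cfsg.Agent.H14.Sim360

open MulAction

variable {G : Type*} [Group G] [Finite G] [IsSimpleGroup G]

omit [IsSimpleGroup G] in
theorem card_sylow2 (h : Nat.card G = 360) (P : Sylow 2 G) : Nat.card (P : Subgroup G) = 8 := by
  haveI : Fact (Nat.Prime 2) := ⟨Nat.prime_two⟩
  obtain ⟨k, hk⟩ := IsPGroup.iff_card.1 P.isPGroup'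
  have hm := (P : Subgroup G).card_mul_index
  have hnd := P.not_dvd_index
  rw [h, hk] at hm
  rcases k with _ | _ | _ | _ | k
  · exfalso
    apply hnd
    have h1 : (P : Subgroup G).index = 360 := by simpa using hm
    rw [h1]
    norm_num
  · exfalso
    apply hnd
    have h1 : (P : Subgroup G).index = 180 := by
      have : 2 * (P : Subgroup G).index = 360 := by simpa using hm
      omega
    rw [h1]
    norm_num
  · exfalso
    apply hnd
    have h1 : (P : Subgroup G).index = 90 := by
      have : 4 * (P : Subgroup G).index = 360 := by simpa using hm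
      omega
    rw [h1]
    norm_num
  · simpa using hk
  · exfalso
    have h1 : 16 ∣ 360 := by
      refine ⟨2 ^ k * (P : Subgroup G).index, ?_⟩
      rw [← hm]
      ring
    norm_num at h1

/-- Sylow 3-subgroups of a simple group of order 360 are TI. -/
theorem ti_all (h : Nat.card G = 360) (P Q : Sylow 3 G) (x : G) (hPQ : P ≠ Q)
    (hxP : x ∈ (P : Subgroup G)) (hxQ : x ∈ (Q : Subgroup G)) : x = 1 := by
  classical
  by_contra hx1
  haveI : Fact (Nat.Prime 3) := ⟨Nat.prime_three⟩
  haveI : Fact (Nat.Prime 2) := ⟨Nat.prime_two⟩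
  have h36 := card_centralizer_eq_36 h hPQ hxP hxQ hx1
  set X := Subgroup.centralizer ({x} : Set G) with hX
  have hPX : (P : Subgroup G) ≤ X := fun y hy =>
    Subgroup.mem_centralizer_singleton_iff.2 (sylow3_comm h P hy hxP)
  have hQX : (Q : Subgroup G) ≤ X := fun y hy =>
    Subgroup.mem_centralizer_singleton_iff.2 (sylow3_comm h Q hy hxQ)
  have key : ∀ A : Sylow 3 G, (A : Subgroup G) ≤ X → ∃ R : Sylow 3 X,
      (R : Subgroup X).map X.subtype = (A : Subgroup G) := by
    intro A hA
    have hpA : IsPGroup 3 ((A : Subgroup G).subgroupOf X) :=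
      A.isPGroup'.comap_of_injective X.subtype X.subtype_injective
    obtain ⟨R, hR⟩ := hpA.exists_le_sylow
    refine ⟨R, ?_⟩
    have hpR : IsPGroup 3 ((R : Subgroup X).map X.subtype) := R.isPGroup'.map _
    have hle : (A : Subgroup G) ≤ (R : Subgroup X).map X.subtype := by
      intro y hy
      exact ⟨⟨y, hA hy⟩, hR (by rw [Subgroup.mem_subgroupOf]; exact hy), rfl⟩
    exact A.is_maximal' hpR hle
  obtain ⟨R₁, hR₁⟩ := key P hPX
  obtain ⟨R₂, hR₂⟩ := key Q hQX
  have hne : R₁ ≠ R₂ := by
    intro he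
    apply hPQ
    apply Sylow.ext
    rw [← hR₁, ← hR₂, he]
  have hR₁c : Nat.card (R₁ : Subgroup X) = 9 := by
    have h1 : Nat.card ((R₁ : Subgroup X).map X.subtype) = Nat.card (R₁ : Subgroup X) :=
      Nat.card_congr ((R₁ : Subgroup X).equivMapOfInjective X.subtype X.subtype_injective).toEquiv.symm
    rw [← h1, hR₁]
    exact card_sylow3 h P
  have hm1 := (R₁ : Subgroup X).card_mul_index
  rw [hR₁c, h36] at hm1
  have hidx4 : (R₁ : Subgroup X).index = 4 := by omega
  have hn1 := card_sylow_modEq_one 3 X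
  have hnd := R₁.card_dvd_index
  rw [hidx4] at hnd
  have hN : Nat.card (Sylow 3 X) = (Subgroup.normalizer ((R₁ : Subgroup X) : Set X)).index :=
    R₁.card_eq_index_normalizer
  have hn_ne : Nat.card (Sylow 3 X) ≠ 1 := by
    intro h1
    haveI : Subsingleton (Sylow 3 X) := (Nat.card_eq_one_iff_unique.1 h1).1
    exact hne (Subsingleton.elim _ _)
  have hmod : Nat.card (Sylow 3 X) % 3 = 1 := hn1
  have hn4 : Nat.card (Sylow 3 X) = 4 := by
    have hle := Nat.le_of_dvd (by norm_num) hnd
    interval_cases hh : Nat.card (Sylow 3 X) <;> omega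
  -- `R₁` is self-normalizing in `X`
  have hNP : Subgroup.normalizer ((R₁ : Subgroup X) : Set X) ≤ (R₁ : Subgroup X) := by
    have hm2 := (Subgroup.normalizer ((R₁ : Subgroup X) : Set X)).card_mul_index
    rw [← hN, hn4, h36] at hm2
    have hm3 : Nat.card (Subgroup.normalizer ((R₁ : Subgroup X) : Set X)) = 9 := by omega
    have hle : (R₁ : Subgroup X) ≤ Subgroup.normalizer ((R₁ : Subgroup X) : Set X) :=
      Subgroup.le_normalizer
    have h5 : (R₁ : Subgroup X) = Subgroup.normalizer ((R₁ : Subgroup X) : Set X) :=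
      Subgroup.eq_of_le_of_card_ge hle (by rw [hm3, hR₁c])
    exact h5.ge
  have hRcomm : ∀ a ∈ (R₁ : Subgroup X), ∀ b ∈ (R₁ : Subgroup X), a * b = b * a := by
    intro a ha b hb
    apply Subtype.ext
    have ha' : (a : G) ∈ (P : Subgroup G) := by rw [← hR₁]; exact ⟨a, ha, rfl⟩
    have hb' : (b : G) ∈ (P : Subgroup G) := by rw [← hR₁]; exact ⟨b, hb, rfl⟩
    exact sylow3_comm h P ha' hb'
  have hcen : Subgroup.normalizer ((R₁ : Subgroup X) : Set X) ≤
      Subgroup.centralizer ((R₁ : Subgroup X) : Set X) := by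
    intro g hg
    rw [Subgroup.mem_centralizer_iff]
    intro y hy
    exact hRcomm _ hy _ (hNP hg)
  obtain ⟨K, hKn, hKc⟩ : ∃ K : Subgroup X, K.Normal ∧ Nat.card K = 4 := by
    have hcompl := MonoidHom.ker_transferSylow_isComplement' R₁ hcen
    refine ⟨(MonoidHom.transferSylow R₁ hcen).ker, inferInstance, ?_⟩
    have hci := hcompl.card_mul_card
    rw [hR₁c, h36] at hci
    omega
  set V : Subgroup G := K.map X.subtype with hV
  have hVc : Nat.card V = 4 := by
    rw [hV, Nat.card_congr (K.equivMapOfInjective X.subtype X.subtype_injective).toEquiv.symm, hKc]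
  have hVp : IsPGroup 2 V := IsPGroup.of_card (n := 2) (by rw [hVc]; norm_num)
  obtain ⟨S, hS⟩ := hVp.exists_le_sylow
  have hSc := card_sylow2 h S
  have hXN : X ≤ Subgroup.normalizer (V : Set G) := by
    intro g hg
    rw [Subgroup.mem_normalizer_iff]
    intro v
    constructor
    · intro hv
      obtain ⟨k, hk, rfl⟩ := Subgroup.mem_map.1 hv
      refine Subgroup.mem_map.2 ⟨(⟨g, hg⟩ : X) * k * (⟨g, hg⟩ : X)⁻¹, hKn.conj_mem k hk ⟨g, hg⟩, ?_⟩
      simp
    · intro hv
      obtain ⟨k, hk, hkv⟩ := Subgroup.mem_map.1 hv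
      refine Subgroup.mem_map.2 ⟨(⟨g, hg⟩ : X)⁻¹ * k * (⟨g, hg⟩ : X), ?_, ?_⟩
      · have := hKn.conj_mem k hk (⟨g, hg⟩ : X)⁻¹
        simpa using this
      · have h7 : (k : G) = g * v * g⁻¹ := hkv
        simp only [Subgroup.coe_subtype, Subgroup.coe_mul, InvMemClass.coe_inv]
        rw [h7]
        group
  have hSN : (S : Subgroup G) ≤ Subgroup.normalizer (V : Set G) := by
    have hi : (V.subgroupOf (S : Subgroup G)).index = 2 := by
      have h1 := (V.subgroupOf (S : Subgroup G)).card_mul_index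
      rw [Nat.card_congr (Subgroup.subgroupOfEquivOfLe hS).toEquiv, hVc, hSc] at h1
      omega
    have hnn : (V.subgroupOf (S : Subgroup G)).Normal := Subgroup.normal_of_index_eq_two hi
    exact (Subgroup.normal_subgroupOf_iff_le_normalizer hS).1 hnn
  have hd1 : 36 ∣ Nat.card (Subgroup.normalizer (V : Set G)) := by
    rw [← h36]
    exact Subgroup.card_dvd_of_le hXN
  have hd2 : 8 ∣ Nat.card (Subgroup.normalizer (V : Set G)) := by
    rw [← hSc]
    exact Subgroup.card_dvd_of_le hSN
  have hd3 : 72 ∣ Nat.card (Subgroup.normalizer (V : Set G)) :=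
    (by
      have h9 : Nat.lcm 36 8 ∣ Nat.card (Subgroup.normalizer (V : Set G)) := Nat.lcm_dvd hd1 hd2
      have h10 : Nat.lcm 36 8 = 72 := by norm_num
      rwa [h10] at h9)
  have hNtop : Subgroup.normalizer (V : Set G) = ⊤ := by
    by_contra hne
    have h6 := six_le_index h _ hne
    have h7 := (Subgroup.normalizer (V : Set G)).card_mul_index
    rw [h] at h7
    obtain ⟨c, hc⟩ := hd3
    rw [hc] at h7
    have h8 : c * (Subgroup.normalizer (V : Set G)).index = 5 := by nlinarith
    have h9 : (Subgroup.normalizer (V : Set G)).index ≤ 5 :=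
      Nat.le_of_dvd (by norm_num) ⟨c, by rw [← h8]; ring⟩
    omega
  have hVn : V.Normal := Subgroup.normalizer_eq_top_iff.1 hNtop
  rcases hVn.eq_bot_or_eq_top with h3 | h3
  · rw [h3] at hVc
    simp at hVc
  · rw [h3] at hVc
    simp only [Subgroup.card_top] at hVc
    omega

omit [Finite G] [IsSimpleGroup G] in
theorem conj_mem_smul3 (α : Sylow 3 G) (g w : G) (h : w ∈ (α : Subgroup G)) :
    g * w * g⁻¹ ∈ ((g • α : Sylow 3 G) : Subgroup G) := by
  rw [Sylow.coe_subgroup_smul]
  exact Subgroup.smul_mem_pointwise_smul w (MulAut.conj g) (α : Subgroup G) h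

omit [Finite G] [IsSimpleGroup G] in
/-- The sign of an involution moving six points. -/
theorem sign_of_six {α : Type*} [Fintype α] [DecidableEq α] (σ : Equiv.Perm α) (h2 : σ ^ 2 = 1)
    (h6 : σ.support.card = 6) : Equiv.Perm.sign σ = -1 := by
  have hall : ∀ n ∈ σ.cycleType, n = 2 := by
    intro n hn
    have h1 : n ∣ 2 := (Equiv.Perm.dvd_of_mem_cycleType hn).trans (orderOf_dvd_of_pow_eq_one h2)
    have h3 := Equiv.Perm.two_le_of_mem_cycleType hn
    have h4 := Nat.le_of_dvd (by norm_num) h1
    omega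
  have hrep : σ.cycleType = Multiset.replicate (Multiset.card σ.cycleType) 2 :=
    Multiset.eq_replicate.2 ⟨rfl, hall⟩
  have hsum := Equiv.Perm.sum_cycleType σ
  rw [hrep, Multiset.sum_replicate, h6] at hsum
  simp only [Multiset.card_replicate, smul_eq_mul] at hsum
  have hc : Multiset.card σ.cycleType = 3 := by omega
  rw [Equiv.Perm.sign_of_cycleType, Equiv.Perm.sum_cycleType, h6, hc]
  decide

/-- No involution commutes with a nontrivial 3-element. -/
theorem no_six (h : Nat.card G = 360) (a : Sylow 3 G) (x : G) (hxa : x ∈ (a : Subgroup G))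
    (hx1 : x ≠ 1) (t : G) (ht : orderOf t = 2) : t * x ≠ x * t := by
  classical
  intro htx
  haveI : Fact (Nat.Prime 3) := ⟨Nat.prime_three⟩
  haveI : Fact (Nat.Prime 2) := ⟨Nat.prime_two⟩
  haveI : Fintype (Sylow 3 G) := Fintype.ofFinite _
  have hTI := @ti_all G _ _ _ h
  have hΩ : Nat.card (Sylow 3 G) = 10 := card_sylow_eq_ten h
  have hΩ' : Fintype.card (Sylow 3 G) = 10 := by rw [← Nat.card_eq_fintype_card]; exact hΩ
  have ht2 : t * t = 1 := by
    have := pow_orderOf_eq_one t
    rwa [ht, pow_two] at this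
  have ht1 : t ≠ 1 := by
    intro h0
    rw [h0, orderOf_one] at ht
    omega
  have hmem : ∀ (a b : Sylow 3 G) (p : G), p ∈ (a : Subgroup G) → p • b = b → p ∈ (b : Subgroup G) := by
    intro a b p hpa hpb
    have hn : p ∈ Subgroup.normalizer ((b : Subgroup G) : Set G) := Sylow.smul_eq_iff_mem_normalizer.1 hpb
    have hz : IsPGroup 3 (Subgroup.zpowers p) :=
      a.isPGroup'.to_le (Subgroup.zpowers_le.2 hpa)
    have hs := hz.to_sup_of_normal_right' b.isPGroup' (Subgroup.zpowers_le.2 hn)
    have he := b.is_maximal' hs le_sup_right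
    rw [← he]
    exact (le_sup_left : Subgroup.zpowers p ≤ _) (Subgroup.mem_zpowers p)
  have hinj : ∀ (a b : Sylow 3 G), a ≠ b → ∀ p ∈ (a : Subgroup G), ∀ q ∈ (a : Subgroup G),
      p • b = q • b → p = q := by
    intro a b hab p hp q hq hpq
    have h1 : (q⁻¹ * p) • b = b := by rw [mul_smul, hpq, ← mul_smul]; simp
    have h2 : q⁻¹ * p ∈ (a : Subgroup G) := a.1.mul_mem (a.1.inv_mem hq) hp
    have h3 := hTI a b (q⁻¹ * p) hab h2 (hmem a b _ h2 h1)
    rw [inv_mul_eq_one] at h3
    exact h3.symm
  have hself : ∀ (a : Sylow 3 G) (p : G), p ∈ (a : Subgroup G) → p • a = a := by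
    intro a p hp
    exact Sylow.smul_eq_iff_mem_normalizer.2 (Subgroup.le_normalizer hp)
  have hsurj : ∀ (a b c : Sylow 3 G), a ≠ b → a ≠ c → ∃ p ∈ (a : Subgroup G), p • b = c := by
    intro a b c hab hac
    let f : ↥(a : Subgroup G) → {d : Sylow 3 G // d ≠ a} := fun p => ⟨(p : G) • b, by
      intro he
      apply hab
      have h1 : (p : G) • a = a := hself a p p.2
      have h2 : (p : G) • b = (p : G) • a := by rw [he, h1]
      exact (MulAction.injective (p : G) h2).symm⟩
    have hf : Function.Injective f := by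
      intro p q hpq
      have h1 : (p : G) • b = (q : G) • b := congrArg Subtype.val hpq
      exact Subtype.ext (hinj a b hab p p.2 q q.2 h1)
    have hcard : Nat.card {d : Sylow 3 G // d ≠ a} ≤ Nat.card (a : Subgroup G) := by
      rw [card_sylow3 h a, Nat.card_eq_fintype_card, Fintype.card_subtype_compl]
      simp only [Fintype.card_unique, hΩ']
      norm_num
    obtain ⟨p, hp⟩ := (hf.bijective_of_nat_card_le hcard).2 ⟨c, hac.symm⟩
    exact ⟨p, p.2, congrArg Subtype.val hp⟩
  -- `t` fixes `a`
  have hta : t • a = a := by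
    by_contra hne
    have h1 : t * x * t⁻¹ ∈ ((t • a : Sylow 3 G) : Subgroup G) :=
      conj_mem_smul3 a t x hxa
    have h2 : t * x * t⁻¹ = x := by rw [htx]; group
    rw [h2] at h1
    exact hx1 (hTI (t • a) a x hne h1 hxa)
  have htn : t ∈ Subgroup.normalizer ((a : Subgroup G) : Set G) := Sylow.smul_eq_iff_mem_normalizer.1 hta
  -- the permutation
  let φ : G →* Equiv.Perm (Sylow 3 G) := MulAction.toPermHom G (Sylow 3 G)
  have hφv : ∀ g c, φ g c = g • c := fun g c => rfl
  let σ := φ t
  have hσ2 : σ ^ (2 ^ 1) = 1 := by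
    rw [pow_one, pow_two, ← map_mul, ht2, map_one]
  have hsup : ∀ c, c ∈ σ.supportᶜ ↔ t • c = c := by
    intro c
    rw [Finset.mem_compl, Equiv.Perm.mem_support, not_not]
    rfl
  have hmod := Equiv.Perm.card_compl_support_modEq hσ2
  have hmod' : σ.supportᶜ.card % 2 = 0 := by
    rw [hΩ'] at hmod
    exact hmod
  have haS : a ∈ σ.supportᶜ := (hsup a).2 hta
  have hS2 : 1 < σ.supportᶜ.card := by
    have h0 : 0 < σ.supportᶜ.card := Finset.card_pos.2 ⟨a, haS⟩
    omega
  obtain ⟨b, hbS, hba⟩ := Finset.exists_mem_ne hS2 a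
  have htb : t • b = b := (hsup b).1 hbS
  have hab : a ≠ b := hba.symm
  -- the fixed points of `t` on `a`
  set Ca : Subgroup G := (a : Subgroup G) ⊓ Subgroup.centralizer ({t} : Set G) with hCa
  have hCamem : ∀ p, p ∈ Ca ↔ p ∈ (a : Subgroup G) ∧ p * t = t * p := by
    intro p
    rw [hCa, Subgroup.mem_inf, Subgroup.mem_centralizer_singleton_iff]
  have htib : t⁻¹ • b = b := by
    conv_lhs => rw [← htb]
    simp
  haveI : Fintype Ca := Fintype.ofFinite _
  -- description of fixed points
  have hfix : σ.supportᶜ = insert a ((Finset.univ : Finset ↥Ca).image (fun p : ↥Ca => (p : G) • b)) := by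
    ext c
    rw [hsup, Finset.mem_insert, Finset.mem_image]
    constructor
    · intro htc
      by_cases hca : c = a
      · exact Or.inl hca
      · right
        obtain ⟨p, hp, hpb⟩ := hsurj a b c hab (Ne.symm hca)
        have h1 : t * p * t⁻¹ ∈ (a : Subgroup G) := (Subgroup.mem_normalizer_iff.1 htn p).1 hp
        have h2 : (t * p * t⁻¹) • b = p • b := by
          rw [mul_smul, mul_smul, htib, hpb, htc]
        have h3 := hinj a b hab _ h1 _ hp h2
        have h4 : p * t = t * p := by
          calc p * t = (t * p * t⁻¹) * t := by rw [h3]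
            _ = t * p := by group
        exact ⟨⟨p, (hCamem p).2 ⟨hp, h4⟩⟩, Finset.mem_univ _, hpb⟩
    · rintro (rfl | ⟨p, -, rfl⟩)
      · exact hta
      · have hp := (hCamem p).1 p.2
        rw [← mul_smul, ← hp.2, mul_smul, htb]
  have hCaa : Ca ≤ (a : Subgroup G) := inf_le_left
  have hdvd : Nat.card Ca ∣ 9 := by
    rw [← card_sylow3 h a]
    exact Subgroup.card_dvd_of_le hCaa
  have hcard : σ.supportᶜ.card = Nat.card Ca + 1 := by
    have hi : Function.Injective (fun p : ↥Ca => (p : G) • b) := by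
      intro p q hpq
      exact Subtype.ext (hinj a b hab p (hCaa p.2) q (hCaa q.2) hpq)
    have hni : a ∉ (Finset.univ : Finset ↥Ca).image (fun p : ↥Ca => (p : G) • b) := by
      rw [Finset.mem_image]
      rintro ⟨p, -, hp⟩
      apply hab
      have h1 : (p : G)⁻¹ • a = a := by
        have h2 := hself a ((p : G)⁻¹) (a.1.inv_mem (hCaa p.2))
        exact h2
      have h3 : b = (p : G)⁻¹ • a := by rw [← hp]; simp
      rw [h3, h1]
    rw [hfix, Finset.card_insert_of_notMem hni, Finset.card_image_of_injective _ hi, Finset.card_univ,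
      Nat.card_eq_fintype_card]
  have hCa1 : Nat.card Ca ≠ 1 := by
    intro h1
    have hsub : Subsingleton Ca := (Nat.card_eq_one_iff_unique.1 h1).1
    have hxC : x ∈ Ca := (hCamem x).2 ⟨hxa, htx.symm⟩
    have := Subsingleton.elim (⟨x, hxC⟩ : Ca) 1
    exact hx1 (congrArg Subtype.val this)
  have hker : φ.ker = ⊥ := by
    rcases (inferInstance : φ.ker.Normal).eq_bot_or_eq_top with h' | h'
    · exact h'
    · exfalso
      have hnt : Subgroup.normalizer ((a : Subgroup G) : Set G) = ⊤ := by
        rw [eq_top_iff]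
        intro g _
        have hg' : g ∈ φ.ker := by rw [h']; trivial
        have h1 : φ g = 1 := hg'
        have h3 : φ g a = a := by rw [h1]; rfl
        exact Sylow.smul_eq_iff_mem_normalizer.1 h3
      have hin : Nat.card (Sylow 3 G) = (Subgroup.normalizer ((a : Subgroup G) : Set G)).index :=
        a.card_eq_index_normalizer
      rw [hnt, Subgroup.index_top, hΩ] at hin
      omega
  have hφinj : Function.Injective φ := (MonoidHom.ker_eq_bot_iff φ).1 hker
  have hσ1 : σ ≠ 1 := by
    intro h1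
    exact ht1 (hφinj (by rw [map_one]; exact h1))
  have hCa3 : Nat.card Ca = 3 := by
    have h9 : Nat.card Ca ≠ 9 := by
      intro h9
      apply hσ1
      have h1 : σ.supportᶜ = Finset.univ := by
        apply Finset.eq_univ_of_card
        rw [hcard, h9, hΩ']
      rw [← Equiv.Perm.support_eq_empty_iff]
      rw [← Finset.compl_univ, ← h1, compl_compl]
    have hle := Nat.le_of_dvd (by norm_num) hdvd
    have h0 : Nat.card Ca ≠ 0 := Nat.card_pos.ne'
    interval_cases hh : Nat.card Ca <;> first | omega | (exfalso; revert hdvd; decide)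
  have hsupc : σ.support.card = 6 := by
    have h1 := Finset.card_add_card_compl σ.support
    rw [hcard, hCa3, hΩ'] at h1
    omega
  have hsign : Equiv.Perm.sign σ = -1 := sign_of_six σ (by simpa using hσ2) hsupc
  let ψ : G →* ℤˣ := Equiv.Perm.sign.comp φ
  have hψt : ψ t = -1 := hsign
  have hψ : ψ.ker = ⊥ := by
    rcases (inferInstance : ψ.ker.Normal).eq_bot_or_eq_top with h' | h'
    · exact h'
    · exfalso
      have ht' : t ∈ ψ.ker := by rw [h']; trivial
      have h1 : ψ t = 1 := ht'
      rw [hψt] at h1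
      exact absurd h1 (by decide)
  have hψinj : Function.Injective ψ := (MonoidHom.ker_eq_bot_iff ψ).1 hψ
  have hle := Nat.card_le_card_of_injective ψ hψinj
  rw [h, Nat.card_eq_fintype_card, Fintype.card_units_int] at hle
  omega

/-- A simple group of order 360 is the alternating group of degree 6. -/
theorem a6_of_simple (h : Nat.card G = 360) : Nonempty (G ≃* alternatingGroup (Fin 6)) :=
  a6_of_ti h (fun P Q x hPQ hxP hxQ => ti_all h P Q x hPQ hxP hxQ)
    (fun a x hxa hx1 t ht => no_six h a x hxa hx1 t ht)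

end Cfsg.Agent.H14.Sim360
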