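import Mathlib
import Cfsg.Agent.Lib.H14.GT
import Cfsg.Agent.Lib.H25.GpTh

/-! Thompson's normal `p`-complement theorem (with `J` generated by the abelian subgroups of largest
order), for odd `p` or for `S₄`-free groups.  The local analysis is `H25.frob_of_local`; here is the
global induction. -/

set_option autoImplicit false

namespace Cfsg.Agent.H14

open Cfsg Cfsg.Agent.H13 ZJFam

universe u

/-- `Z(S)` as a subgroup of the ambient group. -/
abbrev ZC {G : Type*} [Group G] (S : Subgroup G) : Subgroup G :=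
  S ⊓ Subgroup.centralizer (S : Set G)

/-- The statement of the theorem, for the induction. -/
def ThStmt (p m : ℕ) : Prop :=
  ∀ (G : Type u) [Group G] [Finite G], Nat.card G < m → ∀ P : Sylow p G,
    (p ≠ 2 ∨ ¬ Involves (Equiv.Perm (Fin 4)) G) →
    FC p (Subgroup.centralizer (ZC (P : Subgroup G) : Set G)) →
    FC p (Subgroup.normalizer (((elFam G 0).jj (P : Subgroup G) : Subgroup G) : Set G)) →
    FrobCond p G

section Gen

variable {G H : Type*} [Group G] [Group H] (f : G →* H) (D : Subgroup G)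

lemma zc_map (hf : ∀ x ∈ D, f x = 1 → x = 1) : ZC (D.map f) = (ZC D).map f := by
  apply le_antisymm
  · rintro y ⟨⟨z, hz, rfl⟩, h2⟩
    refine ⟨z, ⟨hz, ?_⟩, rfl⟩
    refine Subgroup.mem_centralizer_iff.mpr ?_
    intro a ha
    have h4 := (Subgroup.mem_centralizer_iff.mp h2) (f a) ⟨a, ha, rfl⟩
    apply injOn_of_ker f D hf (D.mul_mem ha hz) (D.mul_mem hz ha)
    rw [map_mul, map_mul]
    exact h4
  · rintro _ ⟨z, ⟨h1, h2⟩, rfl⟩
    refine ⟨⟨z, h1, rfl⟩, ?_⟩
    refine Subgroup.mem_centralizer_iff.mpr ?_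
    rintro _ ⟨a, ha, rfl⟩
    rw [← map_mul, ← map_mul, (Subgroup.mem_centralizer_iff.mp h2) a ha]

lemma zc_ne_bot {p : ℕ} [Fact p.Prime] [Finite G] {S : Subgroup G} (hSp : IsPGroup p S) (hne : S ≠ ⊥) :
    ZC S ≠ ⊥ := by
  haveI : Nontrivial S := (Subgroup.nontrivial_iff_ne_bot S).mpr hne
  haveI := hSp.center_nontrivial
  obtain ⟨z, hz⟩ := exists_ne (1 : Subgroup.center S)
  intro h
  apply hz
  have h1 : ((z : S) : G) ∈ ZC S := by
    refine ⟨(z : S).2, ?_⟩
    refine Subgroup.mem_centralizer_iff.mpr ?_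
    intro a ha
    have h2 := (Subgroup.mem_center_iff.mp z.2) ⟨a, ha⟩
    exact congrArg Subtype.val h2
  rw [h, Subgroup.mem_bot] at h1
  exact Subtype.ext (Subtype.ext h1)

lemma jj_ne_bot {p : ℕ} [Fact p.Prime] [Finite G] {S : Subgroup G} (hSp : IsPGroup p S) (hne : S ≠ ⊥) :
    (elFam G 0).jj S ≠ ⊥ := by
  intro h
  apply zz_ne_bot (p := p) 0 (Or.inl rfl) hSp hne
  rw [eq_bot_iff, ← h]
  exact zz_le_jj S

lemma zc_normalized {S : Subgroup G} {g : G} (hg : g ∈ Subgroup.normalizer (S : Set G)) :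
    g ∈ Subgroup.normalizer (ZC S : Set G) := by
  have key : ∀ h ∈ Subgroup.normalizer (S : Set G), ∀ x ∈ ZC S, h * x * h⁻¹ ∈ ZC S := by
    intro h hh x hx
    obtain ⟨h1, h2⟩ := hx
    refine ⟨(Subgroup.mem_normalizer_iff.mp hh x).mp h1, ?_⟩
    refine Subgroup.mem_centralizer_iff.mpr ?_
    intro a ha
    have h3 : h⁻¹ * a * h ∈ S := by
      have := (Subgroup.mem_normalizer_iff.mp (Subgroup.inv_mem _ hh) a).mp ha
      simpa using this
    have h4 := Subgroup.mem_centralizer_iff.mp h2 _ h3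
    calc a * (h * x * h⁻¹) = h * ((h⁻¹ * a * h) * x) * h⁻¹ := by group
      _ = h * (x * (h⁻¹ * a * h)) * h⁻¹ := by rw [h4]
      _ = h * x * h⁻¹ * a := by group
  rw [Subgroup.mem_normalizer_iff]
  intro x
  constructor
  · exact fun hx => key g hg x hx
  · intro hx
    have := key _ (Subgroup.inv_mem _ hg) _ hx
    simpa [mul_assoc] using this

lemma jj_normalized [Finite G] {S : Subgroup G} {g : G} (hg : g ∈ Subgroup.normalizer (S : Set G)) :
    g ∈ Subgroup.normalizer (((elFam G 0).jj S : Subgroup G) : Set G) := by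
  rw [Subgroup.mem_normalizer_iff]
  intro x
  constructor
  · exact fun hx => jj_conj hg hx
  · intro hx
    have := jj_conj (Subgroup.inv_mem _ hg) hx
    simpa [mul_assoc] using this

end Gen

section Sub

variable {G : Type u} [Group G] [Finite G] {p : ℕ} [Fact p.Prime]

/-- Applying the inductive statement to a proper subgroup. -/
theorem th_fc_subgroup (hIH : ThStmt.{u} p (Nat.card G))
    (hs4 : p ≠ 2 ∨ ¬ Involves (Equiv.Perm (Fin 4)) G) {H S : Subgroup G} (hH : H ≠ ⊤)
    (hSH : S ≤ H) (hSp : IsPGroup p S) (hS : ¬ p ∣ S.relIndex H)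
    (hfc₁ : FC p (H ⊓ Subgroup.centralizer (ZC S : Set G)))
    (hfc₂ : FC p (H ⊓ Subgroup.normalizer (((elFam G 0).jj S : Subgroup G) : Set G))) : FC p H := by
  apply FC_of_frobCond
  have hcard : Nat.card H < Nat.card G := by
    have hlt : H < ⊤ := lt_top_iff_ne_top.mpr hH
    have h1 := card_lt_of_lt hlt
    rwa [Subgroup.card_top] at h1
  have hpg : IsPGroup p (S.subgroupOf H) := hSp.comap_subtype
  let P' : Sylow p H := hpg.toSylow hS
  have hP' : (P' : Subgroup H) = S.subgroupOf H := rfl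
  have hmap : (S.subgroupOf H).map H.subtype = S := by
    rw [Subgroup.subgroupOf_map_subtype]
    exact inf_eq_left.mpr hSH
  have hinj : ∀ x ∈ S.subgroupOf H, H.subtype x = 1 → x = 1 := fun x _ hx => Subtype.ext hx
  refine hIH H hcard P' ?_ ?_ ?_
  · refine hs4.imp_right fun h1 h2 => h1 (H09.Involves.trans' h2 (H09.involves_subgroup H))
  · rw [hP']
    have hz : (ZC (S.subgroupOf H)).map H.subtype = ZC S := by
      rw [← zc_map H.subtype _ hinj, hmap]
    apply FC_of_frobCond
    let K := Subgroup.centralizer (ZC (S.subgroupOf H) : Set H)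
    let f : K →* ↥(H ⊓ Subgroup.centralizer (ZC S : Set G)) :=
      { toFun := fun k => ⟨k.1.1, k.1.2, by
          refine Subgroup.mem_centralizer_iff.mpr ?_
          intro z hz'
          rw [← hz] at hz'
          obtain ⟨z₁, hz₁, rfl⟩ := hz'
          have := Subgroup.mem_centralizer_iff.mp k.2 z₁ hz₁
          exact congrArg Subtype.val this⟩
        map_one' := rfl
        map_mul' := fun _ _ => rfl }
    have hf : Function.Injective f := by
      intro a b h
      have h1 : a.1.1 = b.1.1 := congrArg (fun x => x.1) h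
      exact Subtype.ext (Subtype.ext h1)
    exact frobCond_of_injective f hf (frobCond_of_FC hfc₁)
  · rw [hP']
    have hz : ((elFam H 0).jj (S.subgroupOf H)).map H.subtype = (elFam G 0).jj S := by
      rw [← jj_map 0 H.subtype _ hinj, hmap]
    apply FC_of_frobCond
    let K := Subgroup.normalizer (((elFam H 0).jj (S.subgroupOf H) : Subgroup H) : Set H)
    let f : K →* ↥(H ⊓ Subgroup.normalizer (((elFam G 0).jj S : Subgroup G) : Set G)) :=
      { toFun := fun k => ⟨k.1.1, k.1.2, by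
          have h1 := Subgroup.le_normalizer_map H.subtype ⟨k.1, k.2, rfl⟩
          rw [hz] at h1
          exact h1⟩
        map_one' := rfl
        map_mul' := fun _ _ => rfl }
    have hf : Function.Injective f := by
      intro a b h
      have h1 : a.1.1 = b.1.1 := congrArg (fun x => x.1) h
      exact Subtype.ext (Subtype.ext h1)
    exact frobCond_of_injective f hf (frobCond_of_FC hfc₂)

/-- Lifting a normalizing element modulo a normal `p'`-subgroup (Frattini). -/
theorem lift_normalizer {L : Subgroup G} [hLn : L.Normal] (hLc : (Nat.card L).Coprime p) {W : Subgroup G}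
    (hWp : IsPGroup p W) (g : G)
    (hg : QuotientGroup.mk' L g ∈ Subgroup.normalizer ((W.map (QuotientGroup.mk' L) : Subgroup (G ⧸ L)) : Set (G ⧸ L))) :
    ∃ ℓ ∈ L, ℓ * g ∈ Subgroup.normalizer (W : Set G) := by
  classical
  let π := QuotientGroup.mk' L
  have hπ1 : ∀ x : G, π x = 1 ↔ x ∈ L := fun x => QuotientGroup.eq_one_iff x
  have hle : W.map (MulAut.conj g).toMonoidHom ≤ W ⊔ L := by
    rintro _ ⟨w, hw, rfl⟩
    have h1 : π (g * w * g⁻¹) ∈ W.map π := by
      have := (Subgroup.mem_normalizer_iff.mp hg (π w)).mp ⟨w, hw, rfl⟩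
      have e0 : π (g * w * g⁻¹) = π g * π w * (π g)⁻¹ := by simp only [map_mul, map_inv]
      rw [e0]
      exact this
    obtain ⟨w', hw', e⟩ := h1
    have h2 : w'⁻¹ * (g * w * g⁻¹) ∈ L := by
      rw [← hπ1, map_mul, map_inv, e, inv_mul_cancel]
    have e2 : g * w * g⁻¹ = w' * (w'⁻¹ * (g * w * g⁻¹)) := by group
    change g * w * g⁻¹ ∈ W ⊔ L
    rw [e2]
    exact Subgroup.mul_mem _ (Subgroup.mem_sup_left hw') (Subgroup.mem_sup_right h2)
  have hp2 : IsPGroup p (W.map (MulAut.conj g).toMonoidHom) := hWp.map _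
  obtain ⟨ℓ, hℓ, hle2⟩ := exists_conj_of_le_sup hWp hLn hLc hp2 hle
  have hmem : ℓ * g ∈ Subgroup.normalizer (W : Set G) := by
    apply mem_normalizer_of_map_conj_le
    rintro _ ⟨w, hw, rfl⟩
    have h3 : ℓ * (g * w * g⁻¹) * ℓ⁻¹ ∈ W := hle2 ⟨g * w * g⁻¹, ⟨w, hw, rfl⟩, rfl⟩
    have e3 : (ℓ * g) * w * (ℓ * g)⁻¹ = ℓ * (g * w * g⁻¹) * ℓ⁻¹ := by group
    change (ℓ * g) * w * (ℓ * g)⁻¹ ∈ W
    rw [e3]
    exact h3
  exact ⟨ℓ, hℓ, hmem⟩

/-- Passing to the quotient by a normal `p'`-subgroup. -/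
theorem th_frobCond_of_pprime_quotient (hIH : ThStmt.{u} p (Nat.card G))
    (hs4 : p ≠ 2 ∨ ¬ Involves (Equiv.Perm (Fin 4)) G) (P : Sylow p G)
    (hfc₁ : FC p (Subgroup.centralizer (ZC (P : Subgroup G) : Set G)))
    (hfc₂ : FC p (Subgroup.normalizer (((elFam G 0).jj (P : Subgroup G) : Subgroup G) : Set G)))
    {L : Subgroup G} (hLn : L.Normal) (hLc : (Nat.card L).Coprime p) (hne : L ≠ ⊥) :
    FrobCond p G := by
  classical
  have hp : p.Prime := Fact.out
  haveI := hLn
  let π := QuotientGroup.mk' L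
  have hπs : Function.Surjective π := QuotientGroup.mk'_surjective L
  have hπ1 : ∀ x : G, π x = 1 ↔ x ∈ L := fun x => QuotientGroup.eq_one_iff x
  apply frobCond_lift_pprime hLc
  have hcardlt : Nat.card (G ⧸ L) < Nat.card G := by
    have h1 : Nat.card G = Nat.card (G ⧸ L) * Nat.card L := Subgroup.card_eq_card_quotient_mul_card_subgroup L
    have h2 : 1 < Nat.card L := by
      rw [Subgroup.one_lt_card_iff_ne_bot]
      exact hne
    have h3 : 0 < Nat.card (G ⧸ L) := Nat.card_pos
    rw [h1]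
    nlinarith
  have hPp : IsPGroup p (P : Subgroup G) := P.isPGroup'
  have hinj : ∀ x ∈ (P : Subgroup G), π x = 1 → x = 1 := by
    intro x hx h
    obtain ⟨k, hk⟩ := hPp ⟨x, hx⟩
    exact eq_one_of_mem_coprime ((hπ1 x).mp h) hLc (congrArg Subtype.val hk)
  let Pb : Sylow p (G ⧸ L) := P.mapSurjective hπs
  have hPb : (Pb : Subgroup (G ⧸ L)) = (P : Subgroup G).map π := Sylow.coe_mapSurjective hπs P
  refine hIH (G ⧸ L) hcardlt Pb ?_ ?_ ?_
  · refine hs4.imp_right fun h1 h2 => h1 (H09.Involves.trans' h2 (H09.involves_quotient L))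
  · rw [hPb, zc_map π _ hinj]
    set Z := ZC (P : Subgroup G) with hZ
    have hZP : Z ≤ (P : Subgroup G) := inf_le_left
    have hZp : IsPGroup p Z := hPp.to_le hZP
    apply FC_of_frobCond
    let f : Subgroup.centralizer (Z : Set G) →* Subgroup.centralizer ((Z.map π : Subgroup _) : Set _) :=
      { toFun := fun k => ⟨π k.1, by
            rw [Subgroup.mem_centralizer_iff]
            rintro _ ⟨z, hz, rfl⟩
            rw [← map_mul, ← map_mul, Subgroup.mem_centralizer_iff.mp k.2 z hz]⟩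
        map_one' := Subtype.ext (map_one π)
        map_mul' := fun a b => Subtype.ext (map_mul π a.1 b.1) }
    have hf : Function.Surjective f := by
      rintro ⟨gb, hgb⟩
      obtain ⟨g, rfl⟩ := hπs gb
      have hgn : π g ∈ Subgroup.normalizer ((Z.map π : Subgroup _) : Set _) :=
        Subgroup.centralizer_le_normalizer _ hgb
      obtain ⟨ℓ, hℓ, hN⟩ := lift_normalizer hLc hZp g hgn
      have hπℓ : π ℓ = 1 := (hπ1 ℓ).mpr hℓ
      have hmem : ℓ * g ∈ Subgroup.centralizer (Z : Set G) := by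
        rw [Subgroup.mem_centralizer_iff]
        intro z hz
        have h1 : (ℓ * g) * z * (ℓ * g)⁻¹ ∈ Z := (Subgroup.mem_normalizer_iff.mp hN z).mp hz
        have h2 : ((ℓ * g) * z * (ℓ * g)⁻¹) * z⁻¹ ∈ Z := Z.mul_mem h1 (Z.inv_mem hz)
        have h3 : π (((ℓ * g) * z * (ℓ * g)⁻¹) * z⁻¹) = 1 := by
          have h4 := Subgroup.mem_centralizer_iff.mp hgb (π z) ⟨z, hz, rfl⟩
          simp only [map_mul, map_inv, hπℓ, one_mul]
          rw [← h4]
          group
        have h5 := hinj _ (hZP h2) h3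
        have h6 : (ℓ * g) * z * (ℓ * g)⁻¹ = z := by
          rwa [mul_inv_eq_one] at h5
        calc z * (ℓ * g) = ((ℓ * g) * z * (ℓ * g)⁻¹) * (ℓ * g) := by rw [h6]
          _ = (ℓ * g) * z := by group
      refine ⟨⟨ℓ * g, hmem⟩, ?_⟩
      apply Subtype.ext
      change π (ℓ * g) = π g
      rw [map_mul, hπℓ, one_mul]
    exact frobCond_of_surjective f hf (frobCond_of_FC hfc₁)
  · rw [hPb, jj_map 0 π _ hinj]
    set W := (elFam G 0).jj (P : Subgroup G) with hW
    have hWp : IsPGroup p W := hPp.to_le (jj_le _)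
    apply FC_of_frobCond
    let f : Subgroup.normalizer (W : Set G) →* Subgroup.normalizer ((W.map π : Subgroup _) : Set _) :=
      { toFun := fun k => ⟨π k.1, Subgroup.le_normalizer_map π ⟨k.1, k.2, rfl⟩⟩
        map_one' := Subtype.ext (map_one π)
        map_mul' := fun a b => Subtype.ext (map_mul π a.1 b.1) }
    have hf : Function.Surjective f := by
      rintro ⟨gb, hgb⟩
      obtain ⟨g, rfl⟩ := hπs gb
      obtain ⟨ℓ, hℓ, hN⟩ := lift_normalizer hLc hWp g hgb
      refine ⟨⟨ℓ * g, hN⟩, ?_⟩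
      apply Subtype.ext
      change π (ℓ * g) = π g
      rw [map_mul, (hπ1 ℓ).mpr hℓ, one_mul]
    exact frobCond_of_surjective f hf (frobCond_of_FC hfc₂)

/-- The normalizer of a good subgroup maximal for `muT` contains `P`: the measure step. -/
theorem th_partC_aux (P : Sylow p G) {T₀ : Subgroup G}
    (hmax : ∀ T, GoodT p P T → muT P T ≤ muT P T₀) {S W₁ : Subgroup G}
    (hS : S = (P : Subgroup G) ⊓ NN T₀) (hSne : S ≠ (P : Subgroup G))
    (hW₁p : IsPGroup p W₁) (hW₁ne : W₁ ≠ ⊥)
    (hRW : (P : Subgroup G) ⊓ NN S ≤ NN W₁) (hnotFC : ¬ FC p (NN W₁)) : False := by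
  classical
  have hSP : S ≤ (P : Subgroup G) := by rw [hS]; exact inf_le_left
  obtain ⟨y, hyT, hyt⟩ := exists_tame P hW₁p
  set W' := W₁.map (MulAut.conj y).toMonoidHom with hW'
  have hW'good : GoodT p P W' := by
    refine ⟨?_, hyT, hyt, ?_⟩
    · intro h
      exact hW₁ne ((Subgroup.map_eq_bot_iff_of_injective W₁ (MulAut.conj y).injective).mp h)
    · intro h
      apply hnotFC
      rw [NN, hW', normalizer_conj] at h
      exact FC.of_conj y h
  have hle := hmax W' hW'good
  let R : Subgroup G := (P : Subgroup G) ⊓ NN S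
  have hRp : IsPGroup p R := P.isPGroup'.to_le inf_le_left
  obtain ⟨u, huP, huS, huN⟩ := Cfsg.Agent.H14.exists_mem_normalizer_of_pgroup P.isPGroup' hSP hSne
  have hSR : S < R := by
    refine lt_of_le_of_ne (le_inf hSP Subgroup.le_normalizer) ?_
    intro h
    apply huS
    rw [h]
    exact ⟨huP, huN⟩
  have hN' : NN W' = (NN W₁).map (MulAut.conj y).toMonoidHom := normalizer_conj W₁ y
  have hR'le : R.map (MulAut.conj y).toMonoidHom ≤ NN W' := by
    rw [hN']
    exact Subgroup.map_mono hRW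
  have hcardR : Nat.card R ≤ Nat.card ((P : Subgroup G) ⊓ NN W' : Subgroup G) := by
    have h1 := card_le_of_relIndex (inf_le_right : (P : Subgroup G) ⊓ NN W' ≤ NN W') hyt
      (hRp.map (MulAut.conj y).toMonoidHom) hR'le
    have h2 : Nat.card (R.map (MulAut.conj y).toMonoidHom) = Nat.card R :=
      (Nat.card_congr ((MulAut.conj y).subgroupMap R).toEquiv).symm
    rwa [h2] at h1
  have hcardS : Nat.card S < Nat.card R := card_lt_of_lt hSR
  have hT₀card : Nat.card T₀ ≤ Nat.card G := Subgroup.card_le_card_group T₀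
  unfold muT at hle
  have hstep : (Nat.card S + 1) * (Nat.card G + 1) ≤
      Nat.card ((P : Subgroup G) ⊓ NN W' : Subgroup G) * (Nat.card G + 1) :=
    Nat.mul_le_mul_right _ (by omega)
  have e : (P : Subgroup G) ⊓ NN T₀ = S := hS.symm
  rw [e] at hle
  nlinarith

/-- One step of the induction. -/
theorem th_step (hIH : ThStmt.{u} p (Nat.card G)) (P : Sylow p G)
    (hs4 : p ≠ 2 ∨ ¬ Involves (Equiv.Perm (Fin 4)) G)
    (hfc₁ : FC p (Subgroup.centralizer (ZC (P : Subgroup G) : Set G)))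
    (hfc₂ : FC p (Subgroup.normalizer (((elFam G 0).jj (P : Subgroup G) : Subgroup G) : Set G))) :
    FrobCond p G := by
  classical
  have hp : p.Prime := Fact.out
  by_contra hnot
  have hnotTop : ¬ FC p (⊤ : Subgroup G) := fun h => hnot (FC_top_iff.mp h)
  have hL : ∀ L : Subgroup G, L.Normal → (Nat.card L).Coprime p → L = ⊥ := by
    intro L hLn hLc
    by_contra hne
    exact hnot (th_frobCond_of_pprime_quotient hIH hs4 P hfc₁ hfc₂ hLn hLc hne)
  have hne𝒯 : {T : Subgroup G | GoodT p P T}.Nonempty := by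
    have h1 : ¬ FrobCond p G := hnot
    unfold FrobCond at h1
    push Not at h1
    obtain ⟨T, hT, g, hg, hgc, hgn⟩ := h1
    have hne : T ≠ ⊥ := by
      rintro rfl
      apply hgn
      rw [Subgroup.mem_centralizer_iff]
      intro h hh
      rw [Subgroup.mem_bot.mp hh, one_mul, mul_one]
    have hnf : ¬ FC p (NN T) := fun h => hgn (h T hT Subgroup.le_normalizer g hg hg hgc)
    obtain ⟨y, hy⟩ := exists_good_of_not_FC P hT hne hnf
    exact ⟨_, hy⟩
  obtain ⟨T₀, hT₀, hmax⟩ := Set.exists_max_image _ (muT P) (Set.toFinite _) hne𝒯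
  have hmax' : ∀ T, GoodT p P T → muT P T ≤ muT P T₀ := fun T hT => hmax T hT
  have hT₀g : GoodT p P T₀ := hT₀
  obtain ⟨hT₀ne, hT₀P, hT₀tame, hT₀fc⟩ := hT₀g
  -- the normalizer contains `P`
  have hPT₀ : (P : Subgroup G) ≤ NN T₀ := by
    by_contra hPN
    obtain ⟨S, hS⟩ : ∃ S, S = (P : Subgroup G) ⊓ NN T₀ := ⟨_, rfl⟩
    have hSP : S ≤ (P : Subgroup G) := by rw [hS]; exact inf_le_left
    have hSH : S ≤ NN T₀ := by rw [hS]; exact inf_le_right
    have hSp : IsPGroup p S := P.isPGroup'.to_le hSP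
    have hSne : S ≠ (P : Subgroup G) := by
      intro h
      apply hPN
      rw [← h]
      exact hSH
    have hSbot : S ≠ ⊥ := by
      intro h
      apply hT₀ne
      rw [eq_bot_iff, ← h, hS]
      exact le_inf hT₀P Subgroup.le_normalizer
    have hHne : NN T₀ ≠ ⊤ := by
      intro h
      apply hPN
      rw [h]
      exact le_top
    by_cases hc : FC p (Subgroup.centralizer (ZC S : Set G))
    · by_cases hj : FC p (NN ((elFam G 0).jj S))
      · apply hT₀fc
        apply th_fc_subgroup hIH hs4 hHne hSH hSp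
        · rw [hS]
          exact hT₀tame
        · exact hc.mono inf_le_right
        · exact hj.mono inf_le_right
      · refine th_partC_aux P hmax' hS hSne (hSp.to_le (jj_le _)) (jj_ne_bot hSp hSbot) ?_ hj
        intro v hv
        exact jj_normalized hv.2
    · have hnfz : ¬ FC p (NN (ZC S)) := fun h => hc (h.mono (Subgroup.centralizer_le_normalizer _))
      refine th_partC_aux P hmax' hS hSne (hSp.to_le inf_le_left) (zc_ne_bot hSp hSbot) ?_ hnfz
      intro v hv
      exact zc_normalized hv.2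
  -- `T₀` is normal
  have hPidx : ¬ p ∣ (P : Subgroup G).relIndex (⊤ : Subgroup G) := by
    rw [Subgroup.relIndex_top_right]
    exact P.not_dvd_index
  have hidxH : ∀ H : Subgroup G, (P : Subgroup G) ≤ H → ¬ p ∣ (P : Subgroup G).relIndex H := by
    intro H hPH h
    apply P.not_dvd_index
    have h1 : (P : Subgroup G).relIndex H * H.index = (P : Subgroup G).index :=
      Subgroup.relIndex_mul_index hPH
    rw [← h1]
    exact h.mul_right _
  have hmin : ∀ H : Subgroup G, H ≠ ⊤ → (P : Subgroup G) ≤ H → FC p H := by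
    intro H hH hPH
    apply th_fc_subgroup hIH hs4 hH hPH P.isPGroup' (hidxH H hPH)
    · exact hfc₁.mono inf_le_right
    · exact hfc₂.mono inf_le_right
  have hT₀top : NN T₀ = ⊤ := by
    by_contra hne
    exact hT₀fc (hmin _ hne hPT₀)
  have hT₀n : T₀.Normal := Subgroup.normalizer_eq_top_iff.mp hT₀top
  set Q := Cfsg.pCore p G with hQ
  have hQn : Q.Normal := Cfsg.Agent.H01.pCore_normal p
  have hQp : IsPGroup p Q := Cfsg.Agent.H01.pCore_isPGroup p
  have hQP : Q ≤ (P : Subgroup G) := Cfsg.Agent.H01.pCore_le_sylow p P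
  have hT₀Q : T₀ ≤ Q := Cfsg.Agent.H01.le_pCore hT₀n (P.isPGroup'.to_le hT₀P)
  have hQne : Q ≠ ⊥ := by
    intro h
    rw [h] at hT₀Q
    exact hT₀ne (le_bot_iff.mp hT₀Q)
  have hNQ : NN Q = ⊤ := Subgroup.normalizer_eq_top_iff.mpr hQn
  have hmuT₀ : muT P T₀ = Nat.card (P : Subgroup G) * (Nat.card G + 1) + Nat.card T₀ := by
    unfold muT
    rw [hT₀top, inf_top_eq]
  have hQgood : GoodT p P Q := by
    refine ⟨hQne, hQP, ?_, ?_⟩
    · rw [hNQ, inf_top_eq]
      exact hPidx
    · rw [hNQ]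
      exact hnotTop
  have hT₀eq : T₀ = Q := by
    have h1 := hmax' Q hQgood
    have h2 : muT P Q = Nat.card (P : Subgroup G) * (Nat.card G + 1) + Nat.card Q := by
      unfold muT
      rw [hNQ, inf_top_eq]
    rw [h2, hmuT₀] at h1
    exact Subgroup.eq_of_le_of_card_ge hT₀Q (by omega)
  -- larger subgroups normalized by `P`
  have hK : ∀ R : Subgroup G, Q < R → R ≤ (P : Subgroup G) → (P : Subgroup G) ≤ NN R → FC p (NN R) := by
    intro R hQR hRP hPR
    by_contra hnfc
    have hRgood : GoodT p P R := by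
      refine ⟨?_, hRP, ?_, hnfc⟩
      · intro h
        rw [h] at hQR
        exact not_lt_bot hQR
      · rw [inf_eq_left.mpr hPR]
        exact hidxH _ hPR
    have h1 := hmax' R hRgood
    have h2 : muT P R = Nat.card (P : Subgroup G) * (Nat.card G + 1) + Nat.card R := by
      unfold muT
      rw [inf_eq_left.mpr hPR]
    rw [h2, hmuT₀, hT₀eq] at h1
    have h3 := card_lt_of_lt hQR
    omega
  -- the quotient
  haveI := hQn
  let π := QuotientGroup.mk' Q
  have hπs : Function.Surjective π := QuotientGroup.mk'_surjective Q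
  have hπ1 : ∀ x : G, π x = 1 ↔ x ∈ Q := fun x => QuotientGroup.eq_one_iff x
  have hkerπ : (⊥ : Subgroup (G ⧸ Q)).comap π = Q := by
    ext x
    rw [Subgroup.mem_comap, Subgroup.mem_bot]
    exact hπ1 x
  have hQcomap : ∀ K : Subgroup (G ⧸ Q), Q ≤ K.comap π := by
    intro K x hx
    rw [Subgroup.mem_comap, (hπ1 x).mpr hx]
    exact K.one_mem
  let Pb : Sylow p (G ⧸ Q) := P.mapSurjective hπs
  have hPb : (Pb : Subgroup (G ⧸ Q)) = (P : Subgroup G).map π := Sylow.coe_mapSurjective hπs P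
  have hcardlt : Nat.card (G ⧸ Q) < Nat.card G := by
    have h1 : Nat.card G = Nat.card (G ⧸ Q) * Nat.card Q := Subgroup.card_eq_card_quotient_mul_card_subgroup Q
    have h2 : 1 < Nat.card Q := by
      rw [Subgroup.one_lt_card_iff_ne_bot]
      exact hQne
    have h3 : 0 < Nat.card (G ⧸ Q) := Nat.card_pos
    rw [h1]
    nlinarith
  have hPcomap : (P : Subgroup G) = ((Pb : Subgroup (G ⧸ Q))).comap π := by
    apply le_antisymm
    · intro u hu
      rw [Subgroup.mem_comap, hPb]
      exact ⟨u, hu, rfl⟩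
    · intro u hu
      rw [Subgroup.mem_comap, hPb] at hu
      obtain ⟨v, hv, e⟩ := hu
      have h1 : v⁻¹ * u ∈ Q := by
        rw [← hπ1, map_mul, map_inv, e, inv_mul_cancel]
      have h2 := Subgroup.mul_mem _ hv (hQP h1)
      simpa using h2
  -- the subgroups normalized by `Pb`
  have hKb : ∀ Zb : Subgroup (G ⧸ Q), Zb ≠ ⊥ → Zb ≤ (Pb : Subgroup (G ⧸ Q)) →
      (Pb : Subgroup (G ⧸ Q)) ≤ NN Zb → FC p (NN Zb) := by
    intro Zb hZ hZbPb hPbZ
    let R : Subgroup G := Zb.comap π
    have hQR : Q < R := by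
      refine lt_of_le_of_ne (hQcomap Zb) ?_
      intro h
      apply hZ
      apply Subgroup.comap_injective hπs
      exact h.symm.trans hkerπ.symm
    have hRP : R ≤ (P : Subgroup G) := by
      rw [hPcomap]
      exact Subgroup.comap_mono hZbPb
    have hNR : NN R = (NN Zb).comap π := (Subgroup.comap_normalizer_eq_of_surjective Zb hπs).symm
    have hPR : (P : Subgroup G) ≤ NN R := by
      rw [hNR]
      intro u hu
      have h1 : π u ∈ (Pb : Subgroup (G ⧸ Q)) := by
        rw [hPb]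
        exact ⟨u, hu, rfl⟩
      exact hPbZ h1
    have hRfc := hK R hQR hRP hPR
    let f : NN R →* NN Zb :=
      { toFun := fun k => ⟨π k.1, hNR.le k.2⟩
        map_one' := Subtype.ext (map_one π)
        map_mul' := fun a b => Subtype.ext (map_mul π a.1 b.1) }
    have hf : Function.Surjective f := by
      rintro ⟨gb, hgb⟩
      obtain ⟨g, rfl⟩ := hπs gb
      have hg : g ∈ NN R := by
        rw [hNR]
        exact hgb
      exact ⟨⟨g, hg⟩, rfl⟩
    exact FC_of_frobCond (frobCond_of_surjective f hf (frobCond_of_FC hRfc))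
  have hFrobQuot : FrobCond p (G ⧸ Q) := by
    by_cases hPbbot : (Pb : Subgroup (G ⧸ Q)) = ⊥
    · intro T hT g _ _
      obtain ⟨P₁, hP₁⟩ := hT.exists_le_sylow
      have h1 : Nat.card (P₁ : Subgroup (G ⧸ Q)) = Nat.card (Pb : Subgroup (G ⧸ Q)) :=
        P₁.card_eq_multiplicity.trans Pb.card_eq_multiplicity.symm
      rw [hPbbot, Subgroup.card_bot] at h1
      have h2 : (P₁ : Subgroup (G ⧸ Q)) = ⊥ := Subgroup.card_eq_one.mp h1
      rw [Subgroup.mem_centralizer_iff]
      intro t ht
      have h3 := hP₁ ht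
      rw [h2, Subgroup.mem_bot] at h3
      rw [h3, one_mul, mul_one]
    · refine hIH (G ⧸ Q) hcardlt Pb ?_ ?_ ?_
      · exact hs4.imp_right fun h1 h2 => h1 (H09.Involves.trans' h2 (H09.involves_quotient Q))
      · have hPbp := Pb.isPGroup'
        have h1 := hKb _ (zc_ne_bot hPbp hPbbot) inf_le_left (fun u hu =>
          zc_normalized ((Subgroup.le_normalizer (H := (Pb : Subgroup (G ⧸ Q)))) hu))
        exact h1.mono (Subgroup.centralizer_le_normalizer _)
      · have hPbp := Pb.isPGroup'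
        exact hKb _ (jj_ne_bot hPbp hPbbot) (jj_le _) (fun u hu =>
          jj_normalized ((Subgroup.le_normalizer (H := (Pb : Subgroup (G ⧸ Q)))) hu))
  -- the normal complement
  obtain ⟨Nb, hNbn, hNbc, k, hk⟩ := npc_iff.mp (hasNormalPComplement_of_frobCond hFrobQuot)
  let X : Subgroup G := Nb.comap π
  have hXn : X.Normal := hNbn.comap π
  have hXidx : X.index = p ^ k := by
    rw [← hk]
    exact Subgroup.index_comap_of_surjective Nb hπs
  have hXpel : ∀ x ∈ X, ∀ j : ℕ, x ^ p ^ j = 1 → x ∈ Q := by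
    intro x hx j hj
    rw [← hπ1]
    have h1 : π x ∈ Nb := hx
    exact eq_one_of_mem_coprime h1 hNbc (by rw [← map_pow, hj, map_one])
  -- `C_G(Q) ≤ Q`
  have hC₁ : Subgroup.centralizer (Q : Set G) ⊓ X ≤ Q := by
    have hCn : (Subgroup.centralizer (Q : Set G) ⊓ X).Normal := by
      haveI : (Subgroup.centralizer (Q : Set G)).Normal := Subgroup.normal_centralizer
      haveI := hXn
      infer_instance
    have hFC₁ : FC p (Subgroup.centralizer (Q : Set G) ⊓ X) := by
      intro T hT hTC g hg _ _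
      rw [Subgroup.mem_centralizer_iff]
      intro t ht
      have h1 : t ∈ Q := by
        obtain ⟨j, hj⟩ := hT ⟨t, ht⟩
        exact hXpel t (hTC ht).2 j (congrArg Subtype.val hj)
      exact (Subgroup.mem_centralizer_iff.mp hg.1) t h1
    have hpg := isPGroup_of_FC_normal hCn hFC₁ hL
    exact Cfsg.Agent.H01.le_pCore hCn hpg
  have hcQ : Subgroup.centralizer (Q : Set G) ≤ Q := by
    haveI : (Subgroup.centralizer (Q : Set G)).Normal := Subgroup.normal_centralizer
    apply Cfsg.Agent.H01.le_pCore inferInstance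
    rintro ⟨g, hg⟩
    obtain ⟨a, ha⟩ := exists_pprime_part (p := p) g
    have h1 : (g ^ p ^ a) ^ p ^ k ∈ X := by
      rw [← hXidx]
      exact Subgroup.pow_index_mem X _
    have h2 : g ^ p ^ a ∈ X := mem_of_pow_mem_coprime h1 (Nat.Coprime.pow_left k ha.symm)
    have h3 : g ^ p ^ a ∈ Q := hC₁ ⟨Subgroup.pow_mem _ hg _, h2⟩
    obtain ⟨j, hj⟩ := hQp ⟨_, h3⟩
    have h4 : g ^ p ^ a = 1 := eq_one_of_coprime_order (congrArg Subtype.val hj) ha
    exact ⟨a, Subtype.ext h4⟩
  apply hnot
  refine Cfsg.Agent.H25.frob_of_local P hFrobQuot hcQ hmin hs4 hfc₁ ?_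
  rw [← thompsonSubgroupAOf_eq_jj, thompsonSubgroupAOf_eq_jj0]
  exact hfc₂

theorem th_all : ∀ m : ℕ, ThStmt.{u} p m := by
  intro m
  induction m with
  | zero =>
    intro G _ _ h
    omega
  | succ m ih =>
    intro G _ _ h P hs4 hfc₁ hfc₂
    refine th_step ?_ P hs4 hfc₁ hfc₂
    intro G' _ _ h' P' hs4' h1 h2
    exact ih G' (by omega) P' hs4' h1 h2

/-- **Thompson's normal `p`-complement theorem**. -/
theorem thompson_npc (P : Sylow p G) (hs4 : p ≠ 2 ∨ ¬ Involves (Equiv.Perm (Fin 4)) G)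
    (hC : HasNormalPComplement p (Subgroup.centralizer (ZC (P : Subgroup G) : Set G)))
    (hN : HasNormalPComplement p (Subgroup.normalizer ((thompsonSubgroupAOf (P : Subgroup G)) : Set G))) :
    HasNormalPComplement p G := by
  apply hasNormalPComplement_of_frobCond
  refine th_all (Nat.card G + 1) G (by omega) P hs4 (FC_of_frobCond (frobCond_of_hasNormalPComplement hC)) ?_
  rw [← thompsonSubgroupAOf_eq_jj0]
  exact FC_of_frobCond (frobCond_of_hasNormalPComplement hN)

end Sub

end Cfsg.Agent.H14
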