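import Mathlib
import Cfsg.Agent.Lib.H18.ChevW
import Cfsg.Agent.Lib.Lead.Burnside

set_option autoImplicit false

namespace Cfsg.Agent.H14.ThreeInv

/-- congruence of sizes of invariant subsets under a permutation of prime order -/
theorem count_mod {α : Type*} [Finite α] {r : ℕ} [hr : Fact r.Prime] (σ : Equiv.Perm α)
    (hσ : σ ^ r = 1) (S : Set α) (hS : ∀ x, x ∈ S ↔ σ x ∈ S) :
    Nat.card S ≡ Nat.card {x : α // x ∈ S ∧ σ x = x} [MOD r] := by
  classical
  letI := Fintype.ofFinite α
  let τ : Equiv.Perm S := σ.subtypePerm (fun x => (hS x).symm)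
  have hτ : τ ^ r ^ 1 = 1 := by
    rw [pow_one]
    ext x
    simp only [τ, Equiv.Perm.subtypePerm_pow, Equiv.Perm.coe_one, id, Equiv.Perm.subtypePerm_apply, hσ]
  have h := Equiv.Perm.card_compl_support_modEq hτ
  have h1 : Nat.card {x : α // x ∈ S ∧ σ x = x} = (Equiv.Perm.support τ)ᶜ.card := by
    have e : {x : α // x ∈ S ∧ σ x = x} ≃ {y : S // y ∈ (Equiv.Perm.support τ)ᶜ} :=
      { toFun := fun x => ⟨⟨x.1, x.2.1⟩, by
          simp only [Finset.mem_compl, Equiv.Perm.mem_support, not_not]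
          exact Subtype.ext x.2.2⟩
        invFun := fun y => ⟨y.1.1, y.1.2, by
          have := y.2
          simp only [Finset.mem_compl, Equiv.Perm.mem_support, not_not] at this
          exact congrArg Subtype.val this⟩
        left_inv := fun x => rfl
        right_inv := fun y => rfl }
    rw [Nat.card_congr e, Nat.card_eq_fintype_card, Fintype.card_coe]
  rw [h1, Nat.card_eq_fintype_card]
  exact h.symm

section Quad

variable {W D : Type*} [Group W] [Group D]

/-- anisotropic-type contradiction -/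
theorem aniso (hD2 : ∀ d : D, d ^ 2 = 1) (hW2 : ∀ w : W, w ^ 2 = 1)
    (hWc : ∀ a b : W, a * b = b * a) (hDc : ∀ a b : D, a * b = b * a)
    (s : W → D) (Bf : W → W → D) (hs : ∀ a b, s (a * b) = s a * s b * Bf a b)
    (hB2 : ∀ a b c, Bf a (b * c) = Bf a b * Bf a c)
    (H : Subgroup W) [Finite H] (hH : 4 < Nat.card H) (N : Set D)
    (hN1 : ∀ a ∈ N, ∀ b ∈ N, a * b ∉ N) (hN3 : ∀ a ∈ N, ∀ b ∈ N, ∀ e ∈ N, a * b * e ∈ N)
    (hsH : ∀ x ∈ H, x ≠ 1 → s x ∈ N) : False := by
  classical
  -- pick elements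
  have hinv : ∀ w : W, w⁻¹ = w := fun w => by
    have := hW2 w
    rw [pow_two] at this
    exact inv_eq_of_mul_eq_one_left this
  have hinvD : ∀ w : D, w⁻¹ = w := fun w => by
    have := hD2 w
    rw [pow_two] at this
    exact inv_eq_of_mul_eq_one_left this
  have hpick : ∀ (T : Finset W), T.card ≤ 4 → ∃ x ∈ H, x ∉ T := by
    intro T hT
    by_contra hcon
    push Not at hcon
    have : Nat.card H ≤ T.card := by
      have hinj : Function.Injective (fun x : H => (⟨x.1, hcon x.1 x.2⟩ : T)) := by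
        intro a b hab
        exact Subtype.ext (congrArg (fun z : T => z.1) hab)
      have := Nat.card_le_card_of_injective _ hinj
      simpa using this
    omega
  obtain ⟨u, huH, hu⟩ := hpick {1} (by simp)
  obtain ⟨v, hvH, hv⟩ := hpick {1, u} (by
    refine (Finset.card_insert_le _ _).trans ?_
    simp)
  obtain ⟨w, hwH, hw⟩ := hpick {1, u, v, u * v} (by
    refine (Finset.card_le_four).trans ?_
    simp)
  simp only [Finset.mem_singleton, Finset.mem_insert, not_or] at hu hv hw
  -- key: for x ∈ H, x ≠ 1, x ≠ u, Bf u x ∈ N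
  have key : ∀ x ∈ H, x ≠ 1 → x ≠ u → Bf u x ∈ N := by
    intro x hx h1 h2
    have hux : u * x ≠ 1 := by
      intro h
      apply h2
      have : x = u⁻¹ := eq_inv_of_mul_eq_one_right h
      rw [this, hinv]
    have h3 := hsH _ (H.mul_mem huH hx) hux
    have h4 := hsH _ huH hu
    have h5 := hsH _ hx h1
    have h6 := hN3 _ h3 _ h4 _ h5
    rw [hs] at h6
    convert h6 using 1
    have e1 : s u * s u = 1 := by rw [← pow_two, hD2]
    have e2 : s x * s x = 1 := by rw [← pow_two, hD2]
    rw [mul_assoc (s u) (s x) (Bf u x), hDc (s u) (s x * Bf u x), mul_assoc (s x * Bf u x) (s u) (s u), e1,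
      mul_one, hDc (s x) (Bf u x), mul_assoc, e2, mul_one]
  have h1 := key v hvH hv.1 hv.2
  have h2 := key w hwH hw.1 hw.2.1
  have hvw : v * w ≠ 1 := by
    intro h
    apply hw.2.2.1
    have : w = v⁻¹ := eq_inv_of_mul_eq_one_right h
    rw [this, hinv]
  have hvw2 : v * w ≠ u := by
    intro h
    apply hw.2.2.2
    have : w = v⁻¹ * u := by rw [← h]; group
    rw [this, hinv, hWc]
  have h3 := key _ (H.mul_mem hvH hwH) hvw hvw2
  rw [hB2] at h3
  exact hN1 _ h1 _ h2 h3

end Quad

/-- finset form of the count -/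
theorem count_mod' {α : Type*} [Fintype α] [DecidableEq α] {r : ℕ} [hr : Fact r.Prime] (σ : Equiv.Perm α)
    (hσ : σ ^ r = 1) (S : Finset α) (hS : ∀ x, x ∈ S ↔ σ x ∈ S) :
    S.card ≡ (S.filter (fun x => σ x = x)).card [MOD r] := by
  have h := count_mod σ hσ (S : Set α) (by simpa using hS)
  have h1 : Nat.card (S : Set α) = S.card := by
    simp
  have h2 : Nat.card {x : α // x ∈ (S : Set α) ∧ σ x = x} = (S.filter (fun x => σ x = x)).card :=
    Nat.subtype_card _ (by simp)
  rwa [h1, h2] at h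

/-- the data of a quadratic map with a small zero set -/
structure QS (W D : Type*) [Group W] [Group D] where
  hWc : ∀ a b : W, a * b = b * a
  hW2 : ∀ w : W, w ^ 2 = 1
  hDc : ∀ a b : D, a * b = b * a
  hD2 : ∀ w : D, w ^ 2 = 1
  s : W → D
  Bf : W → W → D
  hs : ∀ a b, s (a * b) = s a * s b * Bf a b
  hB1 : ∀ a b c, Bf (a * b) c = Bf a c * Bf b c
  hB2 : ∀ a b c, Bf a (b * c) = Bf a b * Bf a c
  Y₀ : Subgroup W
  hY₀ : ∀ w, s w = 1 ↔ w ∈ Y₀
  hcard : Nat.card Y₀ * Nat.card D ≤ 4

variable {W D : Type*} [Group W] [Group D] [Finite W] [Finite D] (Q : QS W D)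

/-- fixed points of an automorphism -/
def fixS (g : MulAut W) : Subgroup W where
  carrier := {w | g w = w}
  mul_mem' := fun {a b} ha hb => by
    simp only [Set.mem_ofPred_eq] at *
    rw [map_mul, ha, hb]
  one_mem' := map_one g
  inv_mem' := fun {a} ha => by
    simp only [Set.mem_ofPred_eq] at *
    rw [map_inv, ha]

omit [Finite W] [Finite D] in
theorem mem_fixS (g : MulAut W) (w : W) : w ∈ fixS g ↔ g w = w := Iff.rfl

include Q in
theorem QS.card_le : Nat.card W ≤ 16 := by
  have h := H18.lemA_mul Q.hWc Q.hDc Q.hW2 Q.hD2 Q.s Q.Bf Q.hB1 Q.hB2 Q.hs Q.Y₀ Q.hY₀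
  have h1 := Q.hcard
  have h2 : 0 < Nat.card Q.Y₀ := Nat.card_pos
  have h3 : 0 < Nat.card D := Nat.card_pos
  have h4 : Nat.card D ≤ 4 := by nlinarith
  calc Nat.card W ≤ Nat.card Q.Y₀ * Nat.card D ^ 2 := h
    _ = (Nat.card Q.Y₀ * Nat.card D) * Nat.card D := by ring
    _ ≤ 4 * 4 := Nat.mul_le_mul h1 h4
    _ = 16 := rfl

include Q in
theorem QS.isP : IsPGroup 2 W := fun w => ⟨1, by simpa using Q.hW2 w⟩

/-- numeric facts: the size of `W` and a proper subgroup, for an automorphism of odd prime order -/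
theorem prime_facts {n m r : ℕ} (hn : n ≤ 16) (an : ∃ a, n = 2 ^ a) (am : ∃ c, m = 2 ^ c) (hmn : m ∣ n) (hne : m ≠ n)
    (hr : r.Prime) (hr2 : r ≠ 2) (hmod : n ≡ m [MOD r]) :
    (r = 3 ∧ ((n = 16 ∧ m = 1) ∨ (n = 16 ∧ m = 4) ∨ (n = 8 ∧ m = 2) ∨ (n = 4 ∧ m = 1))) ∨
    (r = 5 ∧ n = 16 ∧ m = 1) ∨ (r = 7 ∧ ((n = 16 ∧ m = 2) ∨ (n = 8 ∧ m = 1))) := by
  obtain ⟨a, rfl⟩ := an
  obtain ⟨c, rfl⟩ := am
  have ha : a ≤ 4 := by
    by_contra h
    have : 2 ^ 5 ≤ 2 ^ a := Nat.pow_le_pow_right (by norm_num) (by omega)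
    omega
  have hc : c ≤ a := (Nat.pow_dvd_pow_iff_le_right (by norm_num)).mp hmn
  have hlt : c < a := by
    rcases lt_or_eq_of_le hc with h | h
    · exact h
    · exact absurd (by rw [h]) hne
  have hle : 2 ^ c ≤ 2 ^ a := Nat.pow_le_pow_right (by norm_num) hc
  have hdvd : r ∣ 2 ^ a - 2 ^ c := (Nat.modEq_iff_dvd' hle).mp hmod.symm
  have hrle : r ≤ 15 := by
    have h1 := Nat.le_of_dvd (by
      have : 2 ^ c < 2 ^ a := Nat.pow_lt_pow_right (by norm_num) hlt
      omega) hdvd
    have h2 : 2 ^ a ≤ 2 ^ 4 := Nat.pow_le_pow_right (by norm_num) ha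
    have h3 : 0 < 2 ^ c := by positivity
    omega
  have hr3 : 3 ≤ r := by
    have := hr.two_le
    omega
  interval_cases a <;> interval_cases c <;> (try omega) <;> norm_num at hdvd <;> (try omega) <;>
    interval_cases r <;> first
      | (exfalso; omega)
      | (exfalso; revert hr; norm_num; done)
      | simp

include Q in
theorem QS.facts (g : MulAut W) {r : ℕ} (hr : r.Prime) (hr2 : r ≠ 2) (hg : orderOf g = r) :
    (r = 3 ∧ ((Nat.card W = 16 ∧ Nat.card (fixS g) = 1) ∨ (Nat.card W = 16 ∧ Nat.card (fixS g) = 4) ∨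
      (Nat.card W = 8 ∧ Nat.card (fixS g) = 2) ∨ (Nat.card W = 4 ∧ Nat.card (fixS g) = 1))) ∨
    (r = 5 ∧ Nat.card W = 16 ∧ Nat.card (fixS g) = 1) ∨
    (r = 7 ∧ ((Nat.card W = 16 ∧ Nat.card (fixS g) = 2) ∨ (Nat.card W = 8 ∧ Nat.card (fixS g) = 1))) := by
  classical
  letI := Fintype.ofFinite W
  haveI : Fact r.Prime := ⟨hr⟩
  have hP := Q.isP
  have hgne : g ≠ 1 := by
    rintro rfl
    rw [orderOf_one] at hg
    exact hr.one_lt.ne hg
  have hσ : (MulAut.toPerm W g) ^ r = 1 := by
    rw [← map_pow, ← hg, pow_orderOf_eq_one, map_one]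
  have hc := count_mod (MulAut.toPerm W g) hσ Set.univ (by simp)
  have h1 : Nat.card (Set.univ : Set W) = Nat.card W := by simp
  have h2 : Nat.card {x : W // x ∈ (Set.univ : Set W) ∧ MulAut.toPerm W g x = x} = Nat.card (fixS g) := by
    refine Nat.card_congr ?_
    exact { toFun := fun x => ⟨x.1, x.2.2⟩
            invFun := fun x => ⟨x.1, trivial, x.2⟩
            left_inv := fun x => rfl
            right_inv := fun x => rfl }
  rw [h1, h2] at hc
  refine prime_facts Q.card_le ?_ ?_ (Subgroup.card_subgroup_dvd_card _) ?_ hr hr2 hc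
  · obtain ⟨a, ha⟩ := IsPGroup.iff_card.mp hP
    exact ⟨a, ha⟩
  · obtain ⟨a, ha⟩ := IsPGroup.iff_card.mp (hP.to_subgroup (fixS g))
    exact ⟨a, ha⟩
  · intro h
    have hT : fixS g = ⊤ := by
      apply Subgroup.eq_top_of_card_eq
      exact h
    apply hgne
    ext w
    have : w ∈ fixS g := by rw [hT]; trivial
    exact this

include Q in
theorem QS.one_s : Q.s 1 = 1 := (Q.hY₀ 1).mpr Q.Y₀.one_mem

theorem prod7_mul {W : Type*} [Group W] (hWc : ∀ a b : W, a * b = b * a) (a1 a2 a3 a4 a5 a6 a7 b1 b2 b3 b4 b5 b6 b7 : W) :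
    (a1 * b1) * (a2 * b2) * (a3 * b3) * (a4 * b4) * (a5 * b5) * (a6 * b6) * (a7 * b7) =
      (a1 * a2 * a3 * a4 * a5 * a6 * a7) * (b1 * b2 * b3 * b4 * b5 * b6 * b7) := by
  letI iW : CommGroup W := { (inferInstance : Group W) with mul_comm := hWc }
  simp only [mul_comm, mul_left_comm, mul_assoc]

theorem cyc7 {W : Type*} [Group W] (hWc : ∀ a b : W, a * b = b * a) (a1 a2 a3 a4 a5 a6 a7 : W) :
    a2 * a3 * a4 * a5 * a6 * a7 * a1 = a1 * a2 * a3 * a4 * a5 * a6 * a7 := by
  letI iW : CommGroup W := { (inferInstance : Group W) with mul_comm := hWc }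
  simp only [mul_comm, mul_left_comm, mul_assoc]

include Q in
theorem QS.no7 (g : MulAut W) (hg : orderOf g = 7) (hinv : ∀ w, Q.s (g w) = Q.s w) : False := by
  classical
  letI := Fintype.ofFinite W
  haveI hp7 : Fact (Nat.Prime 7) := ⟨by norm_num⟩
  have hf := Q.facts g (by norm_num : Nat.Prime 7) (by norm_num) hg
  have hfix : Nat.card W = 16 ∧ Nat.card (fixS g) = 2 ∨ Nat.card W = 8 ∧ Nat.card (fixS g) = 1 := by
    rcases hf with h | h | h
    · omega
    · omega
    · exact h.2
  have hg7 : g ^ 7 = 1 := by rw [← hg, pow_orderOf_eq_one]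
  have hg7' : ∀ w, g (g (g (g (g (g (g w)))))) = w := by
    intro w
    have := congrArg (fun f : MulAut W => f w) hg7
    simpa [pow_succ] using this
  -- the norm map
  let π : W →* W :=
    { toFun := fun w => w * g w * g (g w) * g (g (g w)) * g (g (g (g w))) * g (g (g (g (g w)))) * g (g (g (g (g (g w)))))
      map_one' := by simp
      map_mul' := by
        intro a b
        simp only [map_mul]
        exact prod7_mul Q.hWc _ _ _ _ _ _ _ _ _ _ _ _ _ _ }
  have hπ : ∀ w, π w = w * g w * g (g w) * g (g (g w)) * g (g (g (g w))) * g (g (g (g (g w)))) * g (g (g (g (g (g w))))) := fun _ => rfl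
  have hπg : ∀ w, π (g w) = π w := by
    intro w
    rw [hπ, hπ, hg7']
    exact cyc7 Q.hWc _ _ _ _ _ _ _
  have hgπ : ∀ w, g (π w) = π w := by
    intro w
    have h1 : g (π w) = π (g w) := by
      rw [hπ, hπ]
      simp only [map_mul]
    rw [h1, hπg]
  have hrange : π.range ≤ fixS g := by
    rintro _ ⟨w, rfl⟩
    exact hgπ w
  let H : Subgroup W := π.ker
  have hHmem : ∀ w, w ∈ H ↔ π w = 1 := fun w => MonoidHom.mem_ker
  have hw7 : ∀ w, g w = w → π w = w := by
    intro w hw
    rw [hπ]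
    simp only [hw]
    have h2 : w * w = 1 := by rw [← pow_two, Q.hW2]
    simp [h2]
  have hHfix : ∀ w ∈ H, g w = w → w = 1 := by
    intro w hw h
    rw [← hw7 w h]
    exact (hHmem w).mp hw
  have hcardH : Nat.card H * Nat.card π.range = Nat.card W := by
    have := Subgroup.card_mul_index H
    rw [Subgroup.index_ker] at this
    exact this
  have hle : Nat.card π.range ≤ Nat.card (fixS g) := Subgroup.card_le_of_le hrange
  have hσ : (MulAut.toPerm W g) ^ 7 = 1 := by
    rw [← map_pow, hg7, map_one]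
  have hHg : ∀ x, x ∈ H ↔ g x ∈ H := by
    intro x
    rw [hHmem, hHmem, hπg]
  have hc := count_mod (MulAut.toPerm W g) hσ (H : Set W) hHg
  have hone : Nat.card {x : W // x ∈ (H : Set W) ∧ MulAut.toPerm W g x = x} = 1 := by
    refine Nat.subtype_card {1} ?_ |>.trans (by simp)
    intro x
    simp only [Finset.mem_singleton]
    constructor
    · rintro rfl
      exact ⟨H.one_mem, map_one g⟩
    · rintro ⟨h1, h2⟩
      exact hHfix x h1 h2
  rw [hone] at hc
  have hH8 : Nat.card H = 8 := by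
    have h1 : Nat.card (H : Set W) = Nat.card H := rfl
    rw [h1] at hc
    have hd : Nat.card H ≤ 16 := by
      have := Q.card_le
      have : Nat.card H ∣ Nat.card W := Subgroup.card_subgroup_dvd_card _
      have h0 := Nat.le_of_dvd Nat.card_pos this
      omega
    have hpos : 0 < Nat.card π.range := Nat.card_pos
    unfold Nat.ModEq at hc
    rcases hfix with ⟨h1, h2⟩ | ⟨h1, h2⟩
    · rw [h1] at hcardH
      rw [h2] at hle
      have : Nat.card π.range = 1 ∨ Nat.card π.range = 2 := by omega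
      rcases this with h | h <;> rw [h] at hcardH <;> omega
    · rw [h1] at hcardH
      rw [h2] at hle
      have : Nat.card π.range = 1 := by omega
      rw [this] at hcardH
      omega
  have hneH : ∃ u ∈ H, u ≠ 1 := by
    by_contra hcon
    push Not at hcon
    have : H = ⊥ := (Subgroup.eq_bot_iff_forall H).mpr hcon
    rw [this] at hH8
    simp at hH8
  obtain ⟨u, huH, hu1⟩ := hneH
  -- constant on H minus 1
  let TT : Finset W := (Finset.univ.filter (fun w => w ∈ H)).erase 1
  have hTT : TT.card = 7 := by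
    rw [Finset.card_erase_of_mem (by simp [H.one_mem])]
    have : (Finset.univ.filter (fun w => w ∈ H)).card = 8 := by
      rw [← hH8]
      exact (Nat.subtype_card _ (by simp)).symm
    omega
  let T : Finset W := TT.filter (fun w => Q.s w = Q.s u)
  have hTinv : ∀ x, x ∈ T ↔ MulAut.toPerm W g x ∈ T := by
    intro x
    have h1 : MulAut.toPerm W g x = g x := rfl
    rw [h1]
    simp only [T, TT, Finset.mem_filter, Finset.mem_erase, Finset.mem_univ, true_and]
    rw [hinv, ← hHg]
    have : g x ≠ 1 ↔ x ≠ 1 := by simp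
    rw [this]
  have hcT := count_mod' (MulAut.toPerm W g) hσ T hTinv
  have h0T : (T.filter (fun x => MulAut.toPerm W g x = x)).card = 0 := by
    rw [Finset.card_eq_zero, Finset.filter_eq_empty_iff]
    intro x hx hfx
    simp only [T, TT, Finset.mem_filter, Finset.mem_erase, Finset.mem_univ, true_and] at hx
    exact hx.1.1 (hHfix x hx.1.2 hfx)
  rw [h0T] at hcT
  have huT : u ∈ T := by
    simp [T, TT, hu1, huH]
  have hTpos : 0 < T.card := Finset.card_pos.mpr ⟨u, huT⟩
  have hTsub : T ⊆ TT := Finset.filter_subset _ _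
  have hTle : T.card ≤ 7 := hTT ▸ Finset.card_le_card hTsub
  have hT7 : T.card = 7 := by
    unfold Nat.ModEq at hcT
    omega
  have hTeq : T = TT := Finset.eq_of_subset_of_card_le hTsub (by omega)
  have hconst : ∀ x ∈ H, x ≠ 1 → Q.s x = Q.s u := by
    intro x hx h1
    have : x ∈ TT := by simp [TT, h1, hx]
    rw [← hTeq] at this
    exact (Finset.mem_filter.mp this).2
  have hc1 : Q.s u ≠ 1 := by
    intro h
    have hle : H ≤ Q.Y₀ := by
      intro x hx
      by_cases hx1 : x = 1
      · rw [hx1]; exact Q.Y₀.one_mem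
      · rw [← Q.hY₀, hconst x hx hx1, h]
    have h1 : Nat.card H ≤ Nat.card Q.Y₀ := Subgroup.card_le_of_le hle
    have h2 := Q.hcard
    have h3 : 0 < Nat.card D := Nat.card_pos
    have h4 : Nat.card Q.Y₀ ≤ 4 := by nlinarith
    omega
  refine aniso Q.hD2 Q.hW2 Q.hWc Q.hDc Q.s Q.Bf Q.hs Q.hB2 H (by omega) {Q.s u} ?_ ?_ ?_
  · intro a ha b hb
    simp only [Set.mem_singleton_iff] at *
    rw [ha, hb, ← pow_two, Q.hD2]
    exact fun h => hc1 h.symm
  · intro a ha b hb e he
    simp only [Set.mem_singleton_iff] at *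
    rw [ha, hb, he, ← pow_two, Q.hD2, one_mul]
  · intro x hx h1
    exact hconst x hx h1

include Q in
theorem QS.no35 (g h : MulAut W) (hg : orderOf g = 5) (hh : orderOf h = 3) (hinv : ∀ w, Q.s (g w) = Q.s w)
    (hinv' : ∀ w, Q.s (h w) = Q.s w) : False := by
  classical
  letI := Fintype.ofFinite W
  letI := Fintype.ofFinite D
  haveI hp5 : Fact (Nat.Prime 5) := ⟨by norm_num⟩
  haveI hp3 : Fact (Nat.Prime 3) := ⟨by norm_num⟩
  have hf := Q.facts g (by norm_num : Nat.Prime 5) (by norm_num) hg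
  have hf3 := Q.facts h (by norm_num : Nat.Prime 3) (by norm_num) hh
  have hW16 : Nat.card W = 16 := by
    rcases hf with h | h | h
    · omega
    · exact h.2.1
    · omega
  have hfix5 : Nat.card (fixS g) = 1 := by
    rcases hf with h | h | h
    · omega
    · exact h.2.2
    · omega
  have hfix3 : Nat.card (fixS h) ≤ 4 := by
    rcases hf3 with h | h | h
    · rcases h.2 with h | h | h | h <;> omega
    · omega
    · omega
  have hlem := H18.lemA_mul Q.hWc Q.hDc Q.hW2 Q.hD2 Q.s Q.Bf Q.hB1 Q.hB2 Q.hs Q.Y₀ Q.hY₀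
  have hq := Q.hcard
  have hY0pos : 0 < Nat.card Q.Y₀ := Nat.card_pos
  have hDpos : 0 < Nat.card D := Nat.card_pos
  have hD4' : Nat.card D ≤ 4 := by nlinarith
  have hD4 : Nat.card D = 4 := by
    by_contra hne
    have hlt : Nat.card D ≤ 3 := by omega
    have : Nat.card Q.Y₀ * Nat.card D ^ 2 ≤ 4 * 3 := by
      calc Nat.card Q.Y₀ * Nat.card D ^ 2 = (Nat.card Q.Y₀ * Nat.card D) * Nat.card D := by ring
        _ ≤ 4 * 3 := Nat.mul_le_mul hq hlt
    omega
  have hY1 : Nat.card Q.Y₀ = 1 := by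
    rw [hD4] at hq
    omega
  have hYbot : Q.Y₀ = ⊥ := Subgroup.eq_bot_of_card_eq _ hY1
  have hs1 : ∀ w, Q.s w = 1 ↔ w = 1 := by
    intro w
    rw [Q.hY₀, hYbot, Subgroup.mem_bot]
  have hfixbot : fixS g = ⊥ := Subgroup.eq_bot_of_card_eq _ hfix5
  have hgfix : ∀ w, g w = w → w = 1 := by
    intro w hw
    have : w ∈ fixS g := hw
    rwa [hfixbot, Subgroup.mem_bot] at this
  have hDcard : Fintype.card D = 4 := by rw [← Nat.card_eq_fintype_card]; exact hD4
  have hWcard : Fintype.card W = 16 := by rw [← Nat.card_eq_fintype_card]; exact hW16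
  -- fibres
  let F : D → Finset W := fun d => Finset.univ.filter (fun w => Q.s w = d)
  have hFsum : ∑ d, (F d).card = 16 := by
    have := Finset.card_eq_sum_card_fiberwise (f := Q.s) (s := (Finset.univ : Finset W)) (t := (Finset.univ : Finset D))
      (fun _ _ => Finset.mem_coe.mpr (Finset.mem_univ _))
    rw [Finset.card_univ, hWcard] at this
    exact this.symm
  have hF1 : (F 1).card = 1 := by
    have : F 1 = {1} := by
      ext w
      simp [F, hs1]
    rw [this]
    simp
  have hinv5 : ∀ (d : D), ∀ x, x ∈ F d ↔ MulAut.toPerm W g x ∈ F d := by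
    intro d x
    have h1 : MulAut.toPerm W g x = g x := rfl
    rw [h1]
    simp [F, hinv]
  have hinv3 : ∀ (d : D), ∀ x, x ∈ F d ↔ MulAut.toPerm W h x ∈ F d := by
    intro d x
    have h1 : MulAut.toPerm W h x = h x := rfl
    rw [h1]
    simp [F, hinv']
  have hσ5 : (MulAut.toPerm W g) ^ 5 = 1 := by
    rw [← map_pow, ← hg, pow_orderOf_eq_one, map_one]
  have hσ3 : (MulAut.toPerm W h) ^ 3 = 1 := by
    rw [← map_pow, ← hh, pow_orderOf_eq_one, map_one]
  have hmod5 : ∀ d : D, d ≠ 1 → (F d).card % 5 = 0 := by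
    intro d hd
    have := count_mod' (MulAut.toPerm W g) hσ5 (F d) (hinv5 d)
    have h0 : ((F d).filter (fun x => MulAut.toPerm W g x = x)).card = 0 := by
      rw [Finset.card_eq_zero, Finset.filter_eq_empty_iff]
      intro x hx hfx
      have hx1 := hgfix x hfx
      have : Q.s x = d := (Finset.mem_filter.mp hx).2
      rw [hx1, Q.one_s] at this
      exact hd this.symm
    rw [h0] at this
    exact this
  -- elements of N
  have hprod : ∀ d : D, d ≠ 1 → ∀ a b : D, a ≠ 1 → a ≠ d → b ≠ 1 → b ≠ d → a * b = 1 ∨ a * b = d := by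
    intro d hd a b ha1 had hb1 hbd
    by_cases hab : a = b
    · left
      rw [hab, ← pow_two, Q.hD2]
    · have hcard4 : ({1, d, a, b} : Finset D).card = 4 := by
        rw [Finset.card_insert_of_notMem, Finset.card_insert_of_notMem, Finset.card_insert_of_notMem,
          Finset.card_singleton]
        · simp [hab]
        · simp [Ne.symm had, Ne.symm hbd]
        · simp [Ne.symm hd, Ne.symm ha1, Ne.symm hb1]
      have huniv : ({1, d, a, b} : Finset D) = Finset.univ := by
        apply Finset.eq_univ_of_card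
        rw [hcard4, hDcard]
      have hmem : a * b ∈ ({1, d, a, b} : Finset D) := by rw [huniv]; exact Finset.mem_univ _
      simp only [Finset.mem_insert, Finset.mem_singleton] at hmem
      rcases hmem with h | h | h | h
      · exact Or.inl h
      · exact Or.inr h
      · exact absurd (mul_eq_left.mp h) hb1
      · exact absurd (mul_eq_right.mp h) ha1
  have hne : ∀ d : D, d ≠ 1 → (F d).Nonempty := by
    intro d hd
    by_contra hemp
    rw [Finset.not_nonempty_iff_eq_empty] at hemp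
    have hnod : ∀ x, Q.s x ≠ d := by
      intro x hx
      have : x ∈ F d := by simp [F, hx]
      rw [hemp] at this
      simp at this
    refine aniso Q.hD2 Q.hW2 Q.hWc Q.hDc Q.s Q.Bf Q.hs Q.hB2 (⊤ : Subgroup W) (by
      rw [Subgroup.card_top, hW16]; norm_num) {a | a ≠ 1 ∧ a ≠ d} ?_ ?_ ?_
    · rintro a ⟨ha1, had⟩ b ⟨hb1, hbd⟩ ⟨h1, h2⟩
      rcases hprod d hd a b ha1 had hb1 hbd with h | h
      · exact h1 h
      · exact h2 h
    · rintro a ⟨ha1, had⟩ b ⟨hb1, hbd⟩ e ⟨he1, hed⟩
      rcases hprod d hd a b ha1 had hb1 hbd with h | h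
      · rw [h, one_mul]
        exact ⟨he1, hed⟩
      · rw [h]
        constructor
        · intro h'
          apply hed
          have h2 := Q.hD2 d
          rw [pow_two] at h2
          exact mul_left_cancel (h'.trans h2.symm)
        · intro h'
          exact he1 (mul_eq_left.mp h')
    · intro x _ hx
      exact ⟨fun h => hx ((hs1 x).mp h), hnod x⟩
  have hF5 : ∀ d : D, d ≠ 1 → 5 ≤ (F d).card := by
    intro d hd
    have h1 := hmod5 d hd
    have h2 : 0 < (F d).card := Finset.card_pos.mpr (hne d hd)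
    omega
  let E : Finset D := Finset.univ.erase 1
  have hEcard : E.card = 3 := by
    rw [Finset.card_erase_of_mem (Finset.mem_univ _), Finset.card_univ, hDcard]
  have hEsum : ∑ d ∈ E, (F d).card = 15 := by
    have h0 : (F 1).card + ∑ d ∈ E, (F d).card = ∑ d, (F d).card :=
      Finset.add_sum_erase (Finset.univ : Finset D) (fun d => (F d).card) (Finset.mem_univ (1 : D))
    rw [hF1, hFsum] at h0
    omega
  have hF55 : ∀ d ∈ E, (F d).card = 5 := by
    intro d hd
    by_contra hcon
    have hd1 : d ≠ 1 := (Finset.mem_erase.mp hd).1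
    have hlt : ∑ e ∈ E, 5 < ∑ e ∈ E, (F e).card := by
      apply Finset.sum_lt_sum
      · intro e he
        exact hF5 e (Finset.mem_erase.mp he).1
      · refine ⟨d, hd, ?_⟩
        have := hF5 d hd1
        omega
    rw [hEsum] at hlt
    simp [hEcard] at hlt
  -- the element of order 3
  let Fx : Finset W := Finset.univ.filter (fun w => MulAut.toPerm W h w = w)
  have hFx : Fx.card ≤ 4 := by
    have : Nat.card (fixS h) = Fx.card := Nat.subtype_card Fx (by
      intro x
      simp [Fx]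
      rfl)
    rw [← this]
    exact hfix3
  have hG : ∀ d ∈ E, 2 ≤ (Fx.filter (fun w => Q.s w = d)).card := by
    intro d hd
    have := count_mod' (MulAut.toPerm W h) hσ3 (F d) (hinv3 d)
    rw [hF55 d hd] at this
    have heq : (F d).filter (fun x => MulAut.toPerm W h x = x) = Fx.filter (fun w => Q.s w = d) := by
      ext x
      simp only [F, Fx, Finset.mem_filter, Finset.mem_univ, true_and]
      tauto
    rw [heq] at this
    unfold Nat.ModEq at this
    omega
  have hsum := Finset.card_eq_sum_card_fiberwise (f := Q.s) (s := Fx) (t := (Finset.univ : Finset D))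
      (fun _ _ => Finset.mem_coe.mpr (Finset.mem_univ _))
  have h6 : ∑ d ∈ E, 2 ≤ ∑ d ∈ E, (Fx.filter (fun w => Q.s w = d)).card := Finset.sum_le_sum hG
  have h7 : ∑ d ∈ E, (Fx.filter (fun w => Q.s w = d)).card ≤ ∑ d, (Fx.filter (fun w => Q.s w = d)).card :=
    Finset.sum_le_sum_of_subset (Finset.erase_subset _ _)
  have h60 : ∑ d ∈ E, 2 = 6 := by simp [hEcard]
  rw [h60] at h6
  have h8 : 6 ≤ Fx.card := by
    rw [hsum]
    exact h6.trans h7
  omega

/-- the stabiliser of the quadratic map is solvable -/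
theorem QS.solvable (G : Subgroup (MulAut W)) (hG : ∀ g ∈ G, ∀ w, Q.s (g w) = Q.s w) : Group.IsSolvable G := by
  classical
  have hcases : ∀ r : ℕ, r.Prime → r ≠ 2 → r ∣ Nat.card G → (r = 3 ∨ r = 5) ∧ ∃ g ∈ G, orderOf g = r := by
    intro r hr hr2 hdvd
    haveI : Fact r.Prime := ⟨hr⟩
    obtain ⟨g, hg⟩ := exists_prime_orderOf_dvd_card' r hdvd
    have hg' : orderOf (g : MulAut W) = r := by
      rw [Subgroup.orderOf_coe, hg]
    refine ⟨?_, g.1, g.2, hg'⟩
    rcases Q.facts g.1 hr hr2 hg' with h | h | h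
    · exact Or.inl h.1
    · exact Or.inr h.1
    · exact absurd (Q.no7 g.1 (by rw [hg', h.1]) (hG _ g.2)) (by simp)
  -- at most one odd prime
  have hno : ¬ (3 ∣ Nat.card G ∧ 5 ∣ Nat.card G) := by
    rintro ⟨h3, h5⟩
    obtain ⟨-, g, hgG, hg⟩ := hcases 5 (by norm_num) (by norm_num) h5
    obtain ⟨-, h, hhG, hh⟩ := hcases 3 (by norm_num) (by norm_num) h3
    exact Q.no35 g h hg hh (hG g hgG) (hG h hhG)
  obtain ⟨x, m, hm, hcard⟩ := Nat.exists_eq_two_pow_mul_odd (n := Nat.card G) Nat.card_pos.ne'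
  have hm0 : m ≠ 0 := by
    rintro rfl
    simp at hm
  have hmdvd : m ∣ Nat.card G := ⟨2 ^ x, by rw [hcard, mul_comm]⟩
  have hpr : ∀ q, q.Prime → q ∣ m → q = 3 ∨ q = 5 := by
    intro q hq hqm
    have hq2 : q ≠ 2 := by
      rintro rfl
      exact (Nat.not_even_iff_odd.mpr hm) (even_iff_two_dvd.mpr hqm)
    exact (hcases q hq hq2 (hqm.trans hmdvd)).1
  by_cases h5 : 5 ∣ m
  · have h3 : ¬ 3 ∣ m := fun h3 => hno ⟨h3.trans hmdvd, h5.trans hmdvd⟩
    have : m = 5 ^ m.primeFactorsList.length := Nat.eq_prime_pow_of_unique_prime_dvd hm0 (by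
      intro d hd hdm
      rcases hpr d hd hdm with rfl | rfl
      · exact absurd hdm h3
      · rfl)
    have hc : Nat.card G = 2 ^ x * 5 ^ m.primeFactorsList.length := by
      rw [hcard]
      conv_lhs => rw [this]
    exact Lead.burnside_two_prime 2 5 _ _ Nat.prime_two (by norm_num) hc
  · have : m = 3 ^ m.primeFactorsList.length := Nat.eq_prime_pow_of_unique_prime_dvd hm0 (by
      intro d hd hdm
      rcases hpr d hd hdm with rfl | rfl
      · rfl
      · exact absurd hdm h5)
    have hc : Nat.card G = 2 ^ x * 3 ^ m.primeFactorsList.length := by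
      rw [hcard]
      conv_lhs => rw [this]
    exact Lead.burnside_two_prime 2 3 _ _ Nat.prime_two (by norm_num) hc

end Cfsg.Agent.H14.ThreeInv
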