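import Mathlib
import Cfsg.Agent.Lib.H14.ThreeInv1

set_option autoImplicit false

namespace Cfsg.Agent.H14.ThreeInv

universe u v

/-- A perfect group maps trivially to a solvable group. -/
theorem hom_trivial {B : Type*} [Group B] (hB : commutator B = ⊤) {H : Type*} [Group H] [Group.IsSolvable H]
    (f : B →* H) : f = 1 := by
  obtain ⟨n, hn⟩ := (Group.isSolvable_def H).mp inferInstance
  have key : ∀ k, derivedSeries B k = ⊤ := by
    intro k
    induction k with
    | zero => rfl
    | succ k ih =>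
      rw [derivedSeries_succ, ih]
      exact hB
  have h1 := map_derivedSeries_le_derivedSeries f n
  rw [hn, key n] at h1
  ext x
  have h2 : f x ∈ (⊤ : Subgroup B).map f := ⟨x, trivial, rfl⟩
  have h3 := h1 h2
  simpa using h3

section

variable {B : Type v} [Group B] (hB : commutator B = ⊤)

include hB in
theorem trivial_of_fixed {Y : Type*} [Group Y] [Group.IsSolvable Y] (φ : B →* MulAut Y) (K : Subgroup Y)
    (hfix : ∀ b, ∀ k ∈ K, φ b k = k) (hK : ∀ b y, y⁻¹ * φ b y ∈ K) : φ = 1 := by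
  have key : ∀ y : Y, ∀ b, φ b y = y := by
    intro y
    let f : B →* Y :=
      { toFun := fun b => y⁻¹ * φ b y
        map_one' := by simp
        map_mul' := by
          intro a b
          have h1 : φ (a * b) y = φ a (φ b y) := by rw [map_mul]; rfl
          have h2 : φ b y = y * (y⁻¹ * φ b y) := by group
          have h3 : φ a (y⁻¹ * φ b y) = y⁻¹ * φ b y := hfix a _ (hK b y)
          rw [h1]
          conv_lhs => rw [h2, map_mul, h3]
          group }
    have hf := hom_trivial hB f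
    intro b
    have h := congrArg (fun g : B →* Y => g b) hf
    have h2 : y⁻¹ * φ b y = 1 := h
    exact (inv_mul_eq_one.mp h2).symm
  ext b y
  exact key y b

/-- restriction to an invariant subgroup -/
def res {Y : Type*} [Group Y] (φ : B →* MulAut Y) (K : Subgroup Y) (hK : ∀ b, ∀ k ∈ K, φ b k ∈ K) :
    B →* MulAut K :=
  MonoidHom.mk' (fun b =>
    { toFun := fun k => ⟨φ b k, hK b k k.2⟩
      invFun := fun k => ⟨φ b⁻¹ k, hK b⁻¹ k k.2⟩
      left_inv := by
        intro k
        apply Subtype.ext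
        change φ b⁻¹ (φ b k) = k
        rw [← MulAut.mul_apply, ← map_mul]
        simp
      right_inv := by
        intro k
        apply Subtype.ext
        change φ b (φ b⁻¹ k) = k
        rw [← MulAut.mul_apply, ← map_mul]
        simp
      map_mul' := by
        intro x y
        apply Subtype.ext
        simp })
    (by
      intro a b
      ext k
      simp)

theorem res_apply {Y : Type*} [Group Y] (φ : B →* MulAut Y) (K : Subgroup Y) (hK : ∀ b, ∀ k ∈ K, φ b k ∈ K)
    (b : B) (k : K) : ((res φ K hK b k : K) : Y) = φ b k := rfl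

end

section Class2

variable {Y : Type*} [Group Y] {D : Subgroup Y}

/-- the commutator used below -/
def cm (x y : Y) : Y := y⁻¹ * x⁻¹ * y * x

theorem cm_mem (hsq : ∀ y : Y, y ^ 2 ∈ D) (x y : Y) : cm x y ∈ D := by
  have h : cm x y = y⁻¹ ^ 2 * (y * x⁻¹) ^ 2 * x ^ 2 := by
    unfold cm
    simp only [pow_succ, pow_zero, one_mul, mul_assoc]
    group
  rw [h]
  exact D.mul_mem (D.mul_mem (hsq _) (hsq _)) (hsq _)

theorem yx_eq (x y : Y) : y * x = x * y * cm x y := by
  unfold cm
  group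

variable (hcen : ∀ z ∈ D, ∀ y : Y, y * z = z * y) (hsq : ∀ y : Y, y ^ 2 ∈ D)

include hcen hsq

theorem sq_mul_cm (x y : Y) : (x * y) ^ 2 = x ^ 2 * y ^ 2 * cm x y := by
  have hc := hcen _ (cm_mem hsq x y)
  calc (x * y) ^ 2 = x * (y * x) * y := by simp only [pow_succ, pow_zero, one_mul, mul_assoc]
    _ = x * (x * y * cm x y) * y := by rw [yx_eq x y]
    _ = x * x * y * (cm x y * y) := by simp only [mul_assoc]
    _ = x * x * y * (y * cm x y) := by rw [hc y]
    _ = x ^ 2 * y ^ 2 * cm x y := by simp only [pow_succ, pow_zero, one_mul, mul_assoc]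

theorem cm_sq (x y : Y) : cm x y ^ 2 = 1 := by
  have hc := hcen _ (cm_mem hsq x y)
  have h1 : y * x ^ 2 = x ^ 2 * y := hcen _ (hsq x) y
  have h2 : y * x ^ 2 = x ^ 2 * y * cm x y ^ 2 := by
    calc y * x ^ 2 = (y * x) * x := by simp only [pow_succ, pow_zero, one_mul, mul_assoc]
      _ = x * y * cm x y * x := by rw [yx_eq x y]
      _ = x * y * (cm x y * x) := by simp only [mul_assoc]
      _ = x * y * (x * cm x y) := by rw [hc x]
      _ = x * (y * x) * cm x y := by simp only [mul_assoc]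
      _ = x * (x * y * cm x y) * cm x y := by rw [yx_eq x y]
      _ = x ^ 2 * y * cm x y ^ 2 := by simp only [pow_succ, pow_zero, one_mul, mul_assoc]
  rw [h1] at h2
  exact (mul_eq_left.mp h2.symm)

theorem pow4_mul (x y : Y) : (x * y) ^ 4 = x ^ 4 * y ^ 4 := by
  have h1 := sq_mul_cm hcen hsq x y
  have h2 := cm_sq hcen hsq x y
  have hx := hcen _ (hsq x)
  have hy := hcen _ (hsq y)
  have hc := hcen _ (cm_mem hsq x y)
  calc (x * y) ^ 4 = ((x * y) ^ 2) ^ 2 := by rw [← pow_mul]
    _ = (x ^ 2 * y ^ 2 * cm x y) ^ 2 := by rw [h1]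
    _ = x ^ 2 * ((y ^ 2 * cm x y) * x ^ 2) * y ^ 2 * cm x y := by
      rw [pow_two]
      simp only [mul_assoc]
    _ = x ^ 2 * (x ^ 2 * (y ^ 2 * cm x y)) * y ^ 2 * cm x y := by rw [hx (y ^ 2 * cm x y)]
    _ = x ^ 4 * y ^ 2 * (cm x y * y ^ 2) * cm x y := by
      rw [show x ^ 4 = x ^ 2 * x ^ 2 by rw [← pow_add]]
      simp only [mul_assoc]
    _ = x ^ 4 * y ^ 2 * (y ^ 2 * cm x y) * cm x y := by rw [hc (y ^ 2)]
    _ = x ^ 4 * y ^ 4 * cm x y ^ 2 := by
      rw [show y ^ 4 = y ^ 2 * y ^ 2 by rw [← pow_add], pow_two (cm x y)]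
      simp only [mul_assoc]
    _ = x ^ 4 * y ^ 4 := by rw [h2, mul_one]

theorem cm_mul_left (x x' y : Y) : cm (x * x') y = cm x y * cm x' y := by
  have hc := hcen _ (cm_mem hsq x y)
  have h1 : y * (x * x') = x * x' * y * cm (x * x') y := yx_eq _ _
  have h2 : y * (x * x') = x * x' * y * (cm x y * cm x' y) := by
    calc y * (x * x') = (y * x) * x' := by simp only [mul_assoc]
      _ = x * y * cm x y * x' := by rw [yx_eq x y]
      _ = x * y * (cm x y * x') := by simp only [mul_assoc]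
      _ = x * y * (x' * cm x y) := by rw [hc x']
      _ = x * (y * x') * cm x y := by simp only [mul_assoc]
      _ = x * (x' * y * cm x' y) * cm x y := by rw [yx_eq x' y]
      _ = x * x' * y * (cm x' y * cm x y) := by simp only [mul_assoc]
      _ = x * x' * y * (cm x y * cm x' y) := by rw [hc (cm x' y)]
  rw [h1] at h2
  exact mul_left_cancel h2

theorem cm_mul_right (x y y' : Y) : cm x (y * y') = cm x y * cm x y' := by
  have hc := hcen _ (cm_mem hsq x y)
  have h1 : (y * y') * x = x * (y * y') * cm x (y * y') := yx_eq _ _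
  have h2 : (y * y') * x = x * (y * y') * (cm x y * cm x y') := by
    calc (y * y') * x = y * (y' * x) := by simp only [mul_assoc]
      _ = y * (x * y' * cm x y') := by rw [yx_eq x y']
      _ = (y * x) * y' * cm x y' := by simp only [mul_assoc]
      _ = x * y * cm x y * y' * cm x y' := by rw [yx_eq x y]
      _ = x * y * (cm x y * y') * cm x y' := by simp only [mul_assoc]
      _ = x * y * (y' * cm x y) * cm x y' := by rw [hc y']
      _ = x * (y * y') * (cm x y * cm x y') := by simp only [mul_assoc]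
  rw [h1] at h2
  exact mul_left_cancel h2

omit hsq in
theorem cm_central_left {d : Y} (hd : d ∈ D) (y : Y) : cm d y = 1 := by
  unfold cm
  have := hcen d hd y
  have h2 : y⁻¹ * d⁻¹ * y * d = y⁻¹ * d⁻¹ * (y * d) := by simp only [mul_assoc]
  rw [h2, this]
  group

omit hsq in
theorem cm_central_right {d : Y} (hd : d ∈ D) (x : Y) : cm x d = 1 := by
  unfold cm
  have := hcen d hd x
  have h2 : d⁻¹ * x⁻¹ * d * x = d⁻¹ * x⁻¹ * (d * x) := by simp only [mul_assoc]
  rw [h2, ← this]
  group

end Class2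

section MkQS

variable {Y : Type*} [Group Y] {D : Subgroup Y}

theorem out_sq [D.Normal] (hcen : ∀ z ∈ D, ∀ y : Y, y * z = z * y) (hsq : ∀ y : Y, y ^ 2 ∈ D)
    (hD2 : ∀ d ∈ D, d ^ 2 = 1) (y : Y) : ((y : Y ⧸ D).out) ^ 2 = y ^ 2 := by
  obtain ⟨h, hh⟩ := QuotientGroup.mk_out_eq_mul D y
  rw [hh, sq_mul_cm hcen hsq, hD2 _ h.2, cm_central_right hcen h.2]
  simp

theorem out_cm [D.Normal] (hcen : ∀ z ∈ D, ∀ y : Y, y * z = z * y) (hsq : ∀ y : Y, y ^ 2 ∈ D)
    (x y : Y) : cm ((x : Y ⧸ D).out) ((y : Y ⧸ D).out) = cm x y := by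
  obtain ⟨h, hh⟩ := QuotientGroup.mk_out_eq_mul D x
  obtain ⟨k, hk⟩ := QuotientGroup.mk_out_eq_mul D y
  rw [hh, hk, cm_mul_left hcen hsq, cm_mul_right hcen hsq, cm_mul_right hcen hsq,
    cm_central_right hcen k.2, cm_central_right hcen k.2, cm_central_left hcen h.2]
  simp

/-- the quadratic data on `Y / D` -/
noncomputable def mkQS [Finite Y] [D.Normal] (hcen : ∀ z ∈ D, ∀ y : Y, y * z = z * y) (hsq : ∀ y : Y, y ^ 2 ∈ D)
    (hD2 : ∀ d ∈ D, d ^ 2 = 1) (V : Subgroup Y) (hV : ∀ y, y ^ 2 = 1 ↔ y ∈ V) (hDV : D ≤ V)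
    (hV4 : Nat.card V ≤ 4) : QS (Y ⧸ D) D where
  hWc := by
    intro a b
    obtain ⟨x, rfl⟩ := QuotientGroup.mk_surjective a
    obtain ⟨y, rfl⟩ := QuotientGroup.mk_surjective b
    rw [← QuotientGroup.mk_mul, ← QuotientGroup.mk_mul, QuotientGroup.eq, yx_eq x y]
    have : (x * y)⁻¹ * (x * y * cm x y) = cm x y := by group
    rw [this]
    exact cm_mem hsq x y
  hW2 := by
    intro a
    obtain ⟨x, rfl⟩ := QuotientGroup.mk_surjective a
    rw [← QuotientGroup.mk_pow, QuotientGroup.eq_one_iff]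
    exact hsq x
  hDc := by
    intro a b
    exact Subtype.ext (hcen _ a.2 _).symm
  hD2 := by
    intro a
    exact Subtype.ext (hD2 _ a.2)
  s := fun w => ⟨w.out ^ 2, hsq _⟩
  Bf := fun a b => ⟨cm a.out b.out, cm_mem hsq _ _⟩
  hs := by
    intro a b
    obtain ⟨x, rfl⟩ := QuotientGroup.mk_surjective a
    obtain ⟨y, rfl⟩ := QuotientGroup.mk_surjective b
    apply Subtype.ext
    change ((x : Y ⧸ D) * (y : Y ⧸ D)).out ^ 2 = ((x : Y ⧸ D).out) ^ 2 * ((y : Y ⧸ D).out) ^ 2 * cm ((x : Y ⧸ D).out) ((y : Y ⧸ D).out)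
    rw [← QuotientGroup.mk_mul, out_sq hcen hsq hD2, out_sq hcen hsq hD2, out_sq hcen hsq hD2, out_cm hcen hsq,
      sq_mul_cm hcen hsq]
  hB1 := by
    intro a b c
    obtain ⟨x, rfl⟩ := QuotientGroup.mk_surjective a
    obtain ⟨y, rfl⟩ := QuotientGroup.mk_surjective b
    obtain ⟨z, rfl⟩ := QuotientGroup.mk_surjective c
    apply Subtype.ext
    change cm ((x : Y ⧸ D) * (y : Y ⧸ D)).out ((z : Y ⧸ D).out) = cm ((x : Y ⧸ D).out) ((z : Y ⧸ D).out) * cm ((y : Y ⧸ D).out) ((z : Y ⧸ D).out)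
    rw [← QuotientGroup.mk_mul, out_cm hcen hsq, out_cm hcen hsq, out_cm hcen hsq, cm_mul_left hcen hsq]
  hB2 := by
    intro a b c
    obtain ⟨x, rfl⟩ := QuotientGroup.mk_surjective a
    obtain ⟨y, rfl⟩ := QuotientGroup.mk_surjective b
    obtain ⟨z, rfl⟩ := QuotientGroup.mk_surjective c
    apply Subtype.ext
    change cm ((x : Y ⧸ D).out) ((y : Y ⧸ D) * (z : Y ⧸ D)).out = cm ((x : Y ⧸ D).out) ((y : Y ⧸ D).out) * cm ((x : Y ⧸ D).out) ((z : Y ⧸ D).out)
    rw [← QuotientGroup.mk_mul, out_cm hcen hsq, out_cm hcen hsq, out_cm hcen hsq, cm_mul_right hcen hsq]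
  Y₀ := V.map (QuotientGroup.mk' D)
  hY₀ := by
    intro w
    obtain ⟨y, rfl⟩ := QuotientGroup.mk_surjective w
    have h0 : ((⟨((y : Y ⧸ D).out) ^ 2, hsq _⟩ : D) = 1) ↔ y ^ 2 = 1 := by
      rw [Subtype.ext_iff]
      change ((y : Y ⧸ D).out) ^ 2 = 1 ↔ _
      rw [out_sq hcen hsq hD2]
    refine h0.trans ?_
    rw [hV]
    constructor
    · intro h
      exact ⟨y, h, rfl⟩
    · rintro ⟨v, hv, hvy⟩
      have h1 : v⁻¹ * y ∈ D := QuotientGroup.eq.mp hvy
      have h2 : y = v * (v⁻¹ * y) := by group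
      rw [h2]
      exact V.mul_mem hv (hDV h1)
  hcard := by
    let f : V →* Y ⧸ D := (QuotientGroup.mk' D).comp V.subtype
    have hker : f.ker = D.subgroupOf V := by
      ext x
      rw [MonoidHom.mem_ker, Subgroup.mem_subgroupOf]
      exact QuotientGroup.eq_one_iff _
    have hrange : f.range = V.map (QuotientGroup.mk' D) := by
      rw [MonoidHom.range_comp, Subgroup.range_subtype]
    have h1 := Subgroup.card_mul_index f.ker
    rw [Subgroup.index_ker, hrange, hker] at h1
    have h2 : Nat.card (D.subgroupOf V) = Nat.card D := Nat.card_congr (Subgroup.subgroupOfEquivOfLe hDV).toEquiv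
    rw [h2] at h1
    rw [mul_comm, h1]
    exact hV4

theorem mkQS_s [Finite Y] [D.Normal] (hcen : ∀ z ∈ D, ∀ y : Y, y * z = z * y) (hsq : ∀ y : Y, y ^ 2 ∈ D)
    (hD2 : ∀ d ∈ D, d ^ 2 = 1) (V : Subgroup Y) (hV : ∀ y, y ^ 2 = 1 ↔ y ∈ V) (hDV : D ≤ V)
    (hV4 : Nat.card V ≤ 4) (y : Y) :
    (((mkQS hcen hsq hD2 V hV hDV hV4).s (y : Y ⧸ D) : D) : Y) = y ^ 2 :=
  out_sq hcen hsq hD2 y

end MkQS

section Main

variable {B : Type v} [Group B]

/-- the action on the quotient by an elementwise fixed normal subgroup -/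
noncomputable def qAct {Y : Type*} [Group Y] (φ : B →* MulAut Y) (D : Subgroup Y) [D.Normal]
    (hfix : ∀ b, ∀ d ∈ D, φ b d = d) : B →* MulAut (Y ⧸ D) :=
  MonoidHom.mk' (fun b => QuotientGroup.congr D D (φ b) (by
      ext x
      constructor
      · rintro ⟨d, hd, rfl⟩
        change φ b d ∈ D
        rw [hfix b d hd]
        exact hd
      · intro hx
        exact ⟨x, hx, hfix b x hx⟩))
    (by
      intro a b
      ext w
      obtain ⟨y, rfl⟩ := QuotientGroup.mk_surjective w
      simp [QuotientGroup.congr_mk])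

theorem qAct_mk {Y : Type*} [Group Y] (φ : B →* MulAut Y) (D : Subgroup Y) [D.Normal]
    (hfix : ∀ b, ∀ d ∈ D, φ b d = d) (b : B) (y : Y) :
    qAct φ D hfix b (y : Y ⧸ D) = ((φ b y : Y) : Y ⧸ D) := rfl

theorem main_induct (hB : commutator B = ⊤) (n : ℕ) : ∀ (Y : Type u) [Group Y] [Finite Y] (_ : IsPGroup 2 Y)
    (V : Subgroup Y) (_ : ∀ y, y ^ 2 = 1 ↔ y ∈ V) (_ : Nat.card V ≤ 4) (φ : B →* MulAut Y),
    Nat.card Y = n → φ = 1 := by
  induction n using Nat.strong_induction_on with
  | _ n IH =>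
  intro Y _ _ hP V hV hV4 φ hn
  by_contra hφ
  haveI hnil : Group.IsNilpotent Y := hP.isNilpotent
  haveI hsolv : Group.IsSolvable Y := inferInstance
  -- proper invariant subgroups are fixed
  have hres : ∀ K : Subgroup Y, (∀ b, ∀ k ∈ K, φ b k ∈ K) → K ≠ ⊤ → ∀ b, ∀ k ∈ K, φ b k = k := by
    intro K hK hne b k hk
    have hlt : Nat.card K < n := by
      rw [← hn]
      apply lt_of_le_of_ne (Subgroup.card_le_card_group K)
      intro h
      exact hne (Subgroup.eq_top_of_card_eq K h)
    have := IH (Nat.card K) hlt K (hP.to_subgroup K) (V.subgroupOf K)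
      (fun y => by
        rw [Subgroup.mem_subgroupOf, ← hV, Subtype.ext_iff]
        simp)
      ((Nat.card_le_card_of_injective (fun x : V.subgroupOf K => (⟨x.1.1, x.2⟩ : V))
          (fun a b hab => by
            apply Subtype.ext
            apply Subtype.ext
            exact congrArg (fun z : V => (z : Y)) hab)).trans hV4)
      (res φ K hK) rfl
    have h2 := congrArg (fun f : B →* MulAut K => ((f b ⟨k, hk⟩ : K) : Y)) this
    exact h2
  -- the commutator subgroup
  let K : Subgroup Y := Subgroup.closure {x | ∃ (y : Y) (b : B), x = y⁻¹ * φ b y}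
  have hKgen : ∀ b y, y⁻¹ * φ b y ∈ K := fun b y => Subgroup.subset_closure ⟨y, b, rfl⟩
  have hKinv : ∀ b, ∀ k ∈ K, φ b k ∈ K := by
    intro a k hk
    induction hk using Subgroup.closure_induction with
    | mem x hx =>
      obtain ⟨y, b, rfl⟩ := hx
      rw [map_mul, map_inv]
      have h1 : φ a (φ b y) = φ (a * b * a⁻¹) (φ a y) := by
        simp [map_mul, MulAut.mul_apply]
      rw [h1]
      exact hKgen _ _
    | one => rw [map_one]; exact K.one_mem
    | mul x y _ _ hx hy => rw [map_mul]; exact K.mul_mem hx hy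
    | inv x _ hx => rw [map_inv]; exact K.inv_mem hx
  have hKtop : K = ⊤ := by
    by_contra hne
    exact hφ (trivial_of_fixed hB φ K (hres K hKinv hne) hKgen)
  -- squares
  let D : Subgroup Y := Subgroup.closure {x | ∃ y : Y, x = y ^ 2}
  have hsq : ∀ y : Y, y ^ 2 ∈ D := fun y => Subgroup.subset_closure ⟨y, rfl⟩
  haveI hDn : D.Normal := by
    constructor
    intro d hd g
    induction hd using Subgroup.closure_induction with
    | mem x hx =>
      obtain ⟨y, rfl⟩ := hx
      have : g * y ^ 2 * g⁻¹ = (g * y * g⁻¹) ^ 2 := by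
        simp only [pow_two]
        group
      rw [this]
      exact hsq _
    | one => simp [D.one_mem]
    | mul x y _ _ hx hy =>
      have : g * (x * y) * g⁻¹ = (g * x * g⁻¹) * (g * y * g⁻¹) := by group
      rw [this]
      exact D.mul_mem hx hy
    | inv x _ hx =>
      have : g * x⁻¹ * g⁻¹ = (g * x * g⁻¹)⁻¹ := by group
      rw [this]
      exact D.inv_mem hx
  have hDinv : ∀ b, ∀ k ∈ D, φ b k ∈ D := by
    intro a k hk
    induction hk using Subgroup.closure_induction with
    | mem x hx =>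
      obtain ⟨y, rfl⟩ := hx
      rw [map_pow]
      exact hsq _
    | one => rw [map_one]; exact D.one_mem
    | mul x y _ _ hx hy => rw [map_mul]; exact D.mul_mem hx hy
    | inv x _ hx => rw [map_inv]; exact D.inv_mem hx
  have hDne : D ≠ ⊤ := by
    intro htop
    have hnt : Nontrivial Y := by
      by_contra hcon
      rw [not_nontrivial_iff_subsingleton] at hcon
      apply hφ
      ext b y
      exact Subsingleton.elim _ _
    obtain ⟨k, hk⟩ := IsPGroup.iff_card.mp hP
    have hk0 : k ≠ 0 := by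
      rintro rfl
      rw [pow_zero] at hk
      have := Finite.one_lt_card (α := Y)
      omega
    obtain ⟨k, rfl⟩ := Nat.exists_eq_succ_of_ne_zero hk0
    obtain ⟨M, hM, -⟩ := Sylow.exists_subgroup_card_pow_prime_le (p := 2) (n := 0) (m := k) (H := (⊥ : Subgroup Y))
      (by rw [hk]; exact pow_dvd_pow 2 (Nat.le_succ k)) (by rw [pow_zero]; simp) (Nat.zero_le k)
    have hidx : M.index = 2 := by
      have h1 := Subgroup.card_mul_index M
      rw [hk, hM, pow_succ] at h1
      exact Nat.eq_of_mul_eq_mul_left (by positivity) h1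
    have hle : D ≤ M := by
      rw [Subgroup.closure_le]
      rintro _ ⟨y, rfl⟩
      exact Subgroup.sq_mem_of_index_two hidx y
    rw [htop, top_le_iff] at hle
    rw [hle, Subgroup.index_top] at hidx
    omega
  have hDfix := hres D hDinv hDne
  -- `D` is central
  have hcen : ∀ z ∈ D, ∀ y : Y, y * z = z * y := by
    intro z hz
    have hle : K ≤ Subgroup.centralizer {z} := by
      rw [Subgroup.closure_le]
      rintro _ ⟨y, b, rfl⟩
      rw [SetLike.mem_coe, Subgroup.mem_centralizer_singleton_iff]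
      have h1 : y * z * y⁻¹ ∈ D := hDn.conj_mem z hz y
      have h2 := hDfix b _ h1
      rw [map_mul, map_mul, map_inv, hDfix b z hz] at h2
      have h3 : φ b y * z = y * z * y⁻¹ * φ b y := by
        rw [← h2]
        group
      calc y⁻¹ * φ b y * z = y⁻¹ * (φ b y * z) := by group
        _ = y⁻¹ * (y * z * y⁻¹ * φ b y) := by rw [h3]
        _ = z * (y⁻¹ * φ b y) := by group
    rw [hKtop] at hle
    intro y
    have := hle (Subgroup.mem_top y)
    rw [Subgroup.mem_centralizer_singleton_iff] at this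
    exact this
  -- fourth powers vanish
  have hp4 : ∀ y : Y, y ^ 4 = 1 := by
    have hall : ∀ k ∈ K, k ^ 4 = 1 := by
      intro k hk
      induction hk using Subgroup.closure_induction with
      | mem x hx =>
        obtain ⟨y, b, rfl⟩ := hx
        rw [pow4_mul hcen hsq]
        have h1 : φ b y ^ 4 = y ^ 4 := by
          rw [← map_pow]
          apply hDfix
          rw [show y ^ 4 = (y ^ 2) ^ 2 by rw [← pow_mul]]
          exact D.mul_mem (by simpa using hsq y) (by simpa using hsq y) |> fun h => by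
            simpa [pow_two] using h
        rw [h1, inv_pow, inv_mul_cancel]
      | one => simp
      | mul x y _ _ hx hy => rw [pow4_mul hcen hsq, hx, hy, one_mul]
      | inv x _ hx => rw [inv_pow, hx, inv_one]
    intro y
    exact hall y (by rw [hKtop]; trivial)
  have hD2 : ∀ d ∈ D, d ^ 2 = 1 := by
    intro d hd
    induction hd using Subgroup.closure_induction with
    | mem x hx =>
      obtain ⟨y, rfl⟩ := hx
      rw [← pow_mul]
      exact hp4 y
    | one => simp
    | mul x y hxD hyD hx hy =>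
      have : (x * y) ^ 2 = x ^ 2 * y ^ 2 * cm x y := sq_mul_cm hcen hsq x y
      rw [this, hx, hy, cm_central_right hcen hyD]
      simp
    | inv x _ hx => rw [inv_pow, hx, inv_one]
  have hDV : D ≤ V := fun d hd => (hV d).mp (hD2 d hd)
  let Q := mkQS hcen hsq hD2 V hV hDV hV4
  let ψ := qAct φ D hDfix
  have hG : ∀ g ∈ ψ.range, ∀ w, Q.s (g w) = Q.s w := by
    rintro _ ⟨b, rfl⟩ w
    obtain ⟨y, rfl⟩ := QuotientGroup.mk_surjective w
    apply Subtype.ext
    have h1 : ψ b (y : Y ⧸ D) = ((φ b y : Y) : Y ⧸ D) := rfl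
    rw [h1, mkQS_s, mkQS_s, ← map_pow]
    exact hDfix b _ (hsq y)
  haveI hGs : Group.IsSolvable ψ.range := Q.solvable ψ.range hG
  have hψ : ψ.rangeRestrict = 1 := hom_trivial hB ψ.rangeRestrict
  apply hφ
  refine trivial_of_fixed hB φ D hDfix ?_
  intro b y
  have h1 : ψ b = 1 := by
    have := congrArg (fun f : B →* ψ.range => ((f b : ψ.range) : MulAut (Y ⧸ D))) hψ
    exact this
  have h2 : ψ b (y : Y ⧸ D) = (y : Y ⧸ D) := by rw [h1]; rfl
  have h3 : ((φ b y : Y) : Y ⧸ D) = (y : Y ⧸ D) := h2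
  exact QuotientGroup.eq.mp h3.symm

end Main

end Cfsg.Agent.H14.ThreeInv
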